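import Mathlib

/-! The breadth and the class of a finite `p`-group (Leedham-Green, Neumann, Wiegold). -/

set_option autoImplicit false
open scoped commutatorElement

namespace Cfsg.Agent.H83

variable {G : Type*} [Group G]

/-- The lower central series of `G`, from `⊤`. -/
abbrev lcs (G : Type*) [Group G] (i : ℕ) : Subgroup G := (⊤ : Subgroup G).lowerCentralSeries i

theorem lcs_stationary {i j : ℕ} (h : lcs G i = lcs G (i + 1)) (hij : i ≤ j) : lcs G j = lcs G i := by
  induction j, hij using Nat.le_induction with
  | base => rfl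
  | succ j _ ih =>
    show ⁅lcs G j, (⊤ : Subgroup G)⁆ = _
    rw [ih]; exact h.symm

/-- The centraliser of the `i`-th lower central factor extended by one. -/
def stepCentralizer (G : Type*) [Group G] (i : ℕ) : Subgroup G :=
  (Subgroup.centralizer (((lcs G i).map (QuotientGroup.mk' (lcs G (i + 2)))) :
    Set (G ⧸ lcs G (i + 2)))).comap (QuotientGroup.mk' (lcs G (i + 2)))

theorem mem_stepCentralizer {i : ℕ} {x : G} :
    x ∈ stepCentralizer G i ↔ ∀ u ∈ lcs G i, ⁅x, u⁆ ∈ lcs G (i + 2) := by
  rw [stepCentralizer, Subgroup.mem_comap, Subgroup.mem_centralizer_iff]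
  constructor
  · intro h u hu
    rw [← QuotientGroup.eq_one_iff, ← QuotientGroup.mk'_apply, map_commutatorElement,
      commutatorElement_eq_one_iff_commute]
    exact (h _ (Subgroup.mem_map_of_mem _ hu)).symm
  · rintro h _ ⟨u, hu, rfl⟩
    have := h u hu
    rw [← QuotientGroup.eq_one_iff, ← QuotientGroup.mk'_apply, map_commutatorElement,
      commutatorElement_eq_one_iff_commute] at this
    exact this.symm

theorem lcs_succ_le_of_stepCentralizer_eq_top {i : ℕ} (h : stepCentralizer G i = ⊤) :
    lcs G (i + 1) ≤ lcs G (i + 2) := by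
  refine Subgroup.commutator_le.2 fun u hu x _ => ?_
  have h1 := mem_stepCentralizer.1 (h ▸ Subgroup.mem_top x) u hu
  simpa using (lcs G (i + 2)).inv_mem h1

open Classical in
theorem pow_card_steps_le_index [Finite G] {p : ℕ} [hp : Fact p.Prime] (hG : IsPGroup p G) (x : G)
    (s : Finset ℕ) : ∀ i, p ^ ((s.filter fun j => j < i ∧ x ∉ stepCentralizer G j).card) ≤
      (Subgroup.centralizer ({x} : Set G) ⊔ lcs G i).index := by
  classical
  intro i
  induction i with
  | zero => simp [Nat.one_le_iff_ne_zero, Subgroup.index_ne_zero_of_finite]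
  | succ i ih =>
    set C := Subgroup.centralizer ({x} : Set G) with hC
    have hle : C ⊔ lcs G (i + 1) ≤ C ⊔ lcs G i :=
      sup_le_sup_left (Subgroup.lowerCentralSeries_antitone ⊤ (Nat.le_succ i)) _
    rw [← Subgroup.relIndex_mul_index hle]
    by_cases hi : i ∈ s ∧ x ∉ stepCentralizer G i
    · have hne : (C ⊔ lcs G (i + 1)).relIndex (C ⊔ lcs G i) ≠ 1 := by
        intro h
        apply hi.2
        rw [mem_stepCentralizer]
        intro u hu
        have hu' := Subgroup.relIndex_eq_one.1 h (Subgroup.mem_sup_right hu)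
        obtain ⟨a, ha, v, hv, rfl⟩ := Subgroup.mem_sup_of_normal_right.1 hu'
        have hxa : x * a = a * x := Subgroup.mem_centralizer_iff.1 ha x rfl
        have e : ⁅x, a * v⁆ = a * ⁅x, v⁆ * a⁻¹ := by
          rw [commutatorElement_def, commutatorElement_def, ← mul_assoc x a, hxa]
          group
        rw [e]
        refine (inferInstance : (lcs G (i + 2)).Normal).conj_mem _ ?_ a
        simpa using (lcs G (i + 2)).inv_mem
          (Subgroup.commutator_mem_commutator hv (Subgroup.mem_top x))
      have hp_le : p ≤ (C ⊔ lcs G (i + 1)).relIndex (C ⊔ lcs G i) := by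
        obtain ⟨k, hk⟩ := (hG.to_subgroup (C ⊔ lcs G i)).index ((C ⊔ lcs G (i + 1)).subgroupOf _)
        have hk' : (C ⊔ lcs G (i + 1)).relIndex (C ⊔ lcs G i) = p ^ k := hk
        rw [hk'] at hne ⊢
        exact Nat.le_self_pow (fun h0 => hne (by rw [h0, pow_zero])) p
      calc _ ≤ p * p ^ ((s.filter fun j => j < i ∧ x ∉ stepCentralizer G j).card) := by
            rw [← pow_succ']
            refine Nat.pow_le_pow_right hp.out.pos ?_
            rw [← Finset.card_insert_of_notMem (a := i) (by simp)]
            refine Finset.card_le_card fun j => ?_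
            simp only [Finset.mem_filter, Finset.mem_insert]
            rintro ⟨hj, hji, hjx⟩
            rcases Nat.lt_succ_iff_lt_or_eq.1 hji with h | h
            · exact Or.inr ⟨hj, h, hjx⟩
            · exact Or.inl h
        _ ≤ _ := Nat.mul_le_mul hp_le ih
    · calc _ ≤ p ^ ((s.filter fun j => j < i ∧ x ∉ stepCentralizer G j).card) := by
            refine Nat.pow_le_pow_right hp.out.pos (Finset.card_le_card fun j => ?_)
            simp only [Finset.mem_filter]
            rintro ⟨hj, hji, hjx⟩
            rcases Nat.lt_succ_iff_lt_or_eq.1 hji with h | h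
            · exact ⟨hj, h, hjx⟩
            · exact absurd ⟨h ▸ hj, h ▸ hjx⟩ hi
        _ ≤ _ := ih.trans (Nat.le_mul_of_pos_left _ (Nat.pos_of_ne_zero Subgroup.index_ne_zero_of_finite))

/-- The class bound in terms of the breadth. -/
theorem class_breadth_bound [Finite G] {p : ℕ} [hp : Fact p.Prime] (hG : IsPGroup p G) (b : ℕ)
    (hb : ∀ x : G, (Subgroup.centralizer ({x} : Set G)).index ≤ p ^ b) :
    ∃ c : ℕ, lcs G c = ⊥ ∧ (b ≠ 0 → (c - 1) * (p - 1) < b * p ∧ c ≤ 2 * b) ∧ (b = 0 → c ≤ 1) := by
  classical
  have hex : ∃ c, lcs G c = ⊥ := by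
    haveI := hG.isNilpotent
    exact Subgroup.nilpotent_iff_lowerCentralSeries.1 inferInstance
  set c := Nat.find hex with hc
  refine ⟨c, Nat.find_spec hex, fun hb0 => ?_, fun hb0 => ?_⟩
  swap
  · refine Nat.find_min' hex ?_
    rw [eq_bot_iff]
    refine Subgroup.commutator_le.2 fun u _ v _ => ?_
    rw [Subgroup.mem_bot, commutatorElement_eq_one_iff_commute]
    have h1 : (Subgroup.centralizer ({u} : Set G)).index = 1 :=
      le_antisymm ((hb u).trans_eq (by rw [hb0, pow_zero]))
        (Nat.one_le_iff_ne_zero.2 Subgroup.index_ne_zero_of_finite)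
    have h2 : v ∈ Subgroup.centralizer ({u} : Set G) := (Subgroup.index_eq_one.1 h1).symm ▸ Subgroup.mem_top v
    exact Subgroup.mem_centralizer_iff.1 h2 u rfl
  have key : (c - 1) * (p - 1) < b * p := by
    haveI := Fintype.ofFinite G
    set s := Finset.range (c - 1)
    let f : G → ℕ := fun x => (s.filter fun j => x ∉ stepCentralizer G j).card
    have hfb : ∀ x, f x ≤ b := fun x => by
      refine (Nat.pow_le_pow_iff_right hp.out.one_lt).1 ?_
      refine le_trans ?_ ((pow_card_steps_le_index hG x s c).trans ?_)
      · refine (Nat.pow_le_pow_right hp.out.pos (Finset.card_le_card fun j => ?_))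
        simp only [Finset.mem_filter, s, Finset.mem_range]
        rintro ⟨hj, hjx⟩
        exact ⟨hj, by omega, hjx⟩
      · rw [Nat.find_spec hex, sup_bot_eq]
        exact hb x
    have hf1 : f 1 = 0 := Finset.card_eq_zero.2 (Finset.filter_false_of_mem fun j _ h => h (one_mem _))
    have hlt : ∑ x, f x < b * Nat.card G := by
      rw [Nat.card_eq_fintype_card, mul_comm, ← smul_eq_mul, ← Finset.card_univ, ← Finset.sum_const]
      exact Finset.sum_lt_sum (fun x _ => hfb x)
        ⟨1, Finset.mem_univ _, by rw [hf1]; exact Nat.pos_of_ne_zero hb0⟩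
    have hge : ∀ j ∈ s, (p - 1) * Nat.card G ≤
        p * (Finset.univ.filter fun x => x ∉ stepCentralizer G j).card := by
      intro j hj
      have hne : (stepCentralizer G j).index ≠ 1 := by
        intro h
        have h1 := lcs_succ_le_of_stepCentralizer_eq_top (Subgroup.index_eq_one.1 h)
        have h2 : lcs G (j + 1) = lcs G (j + 2) :=
          le_antisymm h1 (Subgroup.lowerCentralSeries_antitone ⊤ (Nat.le_succ _))
        have hjc : j + 1 < c := by simp only [s, Finset.mem_range] at hj; omega
        exact Nat.find_min hex hjc ((lcs_stationary h2 hjc.le).symm.trans (Nat.find_spec hex))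
      have h3 : p * Nat.card (stepCentralizer G j) ≤ Nat.card G := by
        obtain ⟨k, hk⟩ := hG.index (stepCentralizer G j)
        rw [hk] at hne
        rw [← (stepCentralizer G j).card_mul_index, hk, mul_comm p]
        exact Nat.mul_le_mul_left _ (Nat.le_self_pow (fun h0 => hne (by rw [h0, pow_zero])) p)
      have h4 := Finset.card_filter_add_card_filter_not (s := (Finset.univ : Finset G))
        (fun x => x ∈ stepCentralizer G j)
      rw [Finset.card_univ, ← Nat.card_eq_fintype_card,
        show (Finset.univ.filter fun x => x ∈ stepCentralizer G j).card = Nat.card (stepCentralizer G j) by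
          rw [Nat.card_eq_fintype_card, Fintype.card_subtype]] at h4
      calc (p - 1) * Nat.card G = p * Nat.card G - Nat.card G := by rw [Nat.sub_mul, one_mul]
        _ ≤ _ := by rw [← h4, mul_add]; omega
    have hsum : (c - 1) * ((p - 1) * Nat.card G) ≤ p * ∑ x, f x := by
      simp only [f, Finset.card_filter]
      rw [Finset.sum_comm, Finset.mul_sum]
      refine le_trans ?_ (Finset.sum_le_sum fun j hj => by
        simpa only [Finset.card_filter] using hge j hj)
      simp [s]
    refine Nat.lt_of_mul_lt_mul_right (a := Nat.card G) ?_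
    calc (c - 1) * (p - 1) * Nat.card G ≤ p * ∑ x, f x := by rw [mul_assoc]; exact hsum
      _ < p * (b * Nat.card G) := Nat.mul_lt_mul_of_pos_left hlt hp.out.pos
      _ = b * p * Nat.card G := by ring
  refine ⟨key, ?_⟩
  by_contra hcon
  have h1 : 2 * b * (p - 1) ≤ (c - 1) * (p - 1) := Nat.mul_le_mul_right _ (by omega)
  have h2 := hp.out.two_le
  have h3 : b * p ≤ 2 * b * (p - 1) := by
    rw [mul_assoc, mul_left_comm]
    exact Nat.mul_le_mul_left _ (by omega)
  omega

end Cfsg.Agent.H83
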