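import Cfsg.Prelude.Def_PLocal

/-!
Closure properties of characteristic subgroups.
-/

set_option autoImplicit false

open Subgroup

namespace Cfsg.Agent.H83

variable {G : Type*} [Group G]

theorem char_mem {H : Subgroup G} (h : H.Characteristic) (σ : MulAut G) {x : G} (hx : x ∈ H) :
    σ x ∈ H :=
  characteristic_iff_map_le.1 h σ (mem_map_of_mem _ hx)

theorem char_of_mem {H : Subgroup G} (h : ∀ (σ : MulAut G) (x : G), x ∈ H → σ x ∈ H) :
    H.Characteristic :=
  characteristic_iff_map_le.2 fun σ => by rintro _ ⟨x, hx, rfl⟩; exact h σ x hx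

theorem char_centralizer {H : Subgroup G} (h : H.Characteristic) :
    (centralizer (H : Set G)).Characteristic :=
  char_of_mem fun σ x hx => mem_centralizer_iff.2 fun y hy => σ.symm.injective (by
    rw [map_mul, map_mul, σ.symm_apply_apply]
    exact mem_centralizer_iff.1 hx _ (char_mem h σ.symm hy))

theorem char_inf {H K : Subgroup G} (h : H.Characteristic) (k : K.Characteristic) :
    (H ⊓ K).Characteristic :=
  char_of_mem fun σ _ hx => ⟨char_mem h σ hx.1, char_mem k σ hx.2⟩

theorem char_sup {H K : Subgroup G} (h : H.Characteristic) (k : K.Characteristic) :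
    (H ⊔ K).Characteristic :=
  characteristic_iff_map_le.2 fun σ => by
    rw [Subgroup.map_sup]
    exact sup_le_sup (characteristic_iff_map_le.1 h σ) (characteristic_iff_map_le.1 k σ)

theorem char_omegaOne (p : ℕ) {H : Subgroup G} (h : H.Characteristic) :
    (Cfsg.omegaOne p H).Characteristic :=
  characteristic_iff_map_le.2 fun σ => by
    rw [Cfsg.omegaOne, MonoidHom.map_closure]
    refine closure_mono ?_
    rintro _ ⟨x, ⟨hx, hxp⟩, rfl⟩
    exact ⟨char_mem h σ hx, by rw [← map_pow, hxp, map_one]⟩

end Cfsg.Agent.H83
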