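import Cfsg.Agent.H19.Fitting
import Mathlib

/-! The Fitting subgroup of a normal subgroup and chief factors. -/

set_option autoImplicit false
open scoped commutatorElement

namespace Cfsg.Agent.H83

variable {G : Type*} [Group G]

/-- `U / V` is a chief factor (spelled as in the statement). -/
def IsCF (U V : Subgroup G) : Prop :=
  U.Normal ∧ V.Normal ∧ V < U ∧ ∀ W : Subgroup G, W.Normal → V ≤ W → W ≤ U → W = V ∨ W = U

/-- A nilpotent normal subgroup centralises every chief factor. -/
theorem commutator_le_of_nilpotent [Finite G] {F : Subgroup G} [F.Normal] (hF : Group.IsNilpotent F)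
    {U V : Subgroup G} (h : IsCF U V) : ⁅U, F⁆ ≤ V := by
  obtain ⟨hU, hV, hlt, hmin⟩ := h
  by_contra hne
  have h1 : ∀ X : Subgroup G, X ≤ U → X.Normal → ¬ X ≤ V → X ⊔ V = U := fun X hXU hX hXV =>
    ((hmin (X ⊔ V) (Subgroup.sup_normal X V) le_sup_right (sup_le hXU hlt.le)).resolve_left fun e =>
      hXV (le_sup_left.trans e.le))
  -- iterate `X ↦ ⁅X, F⁆`
  obtain ⟨n, hn⟩ := (Subgroup.isNilpotent_iff_lowerCentralSeries F).mp hF
  have key : ∀ k : ℕ, ¬ (Nat.rec (motive := fun _ => Subgroup G) U (fun _ X => ⁅X, F⁆) k : Subgroup G) ≤ V := by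
    intro k
    induction k with
    | zero => exact fun h => hlt.not_ge h
    | succ k ih =>
      intro hk
      set X : Subgroup G := Nat.rec (motive := fun _ => Subgroup G) U (fun _ X => ⁅X, F⁆) k with hX
      have hXn : ∀ j : ℕ, (Nat.rec (motive := fun _ => Subgroup G) U (fun _ X => ⁅X, F⁆) j : Subgroup G).Normal ∧
          (Nat.rec (motive := fun _ => Subgroup G) U (fun _ X => ⁅X, F⁆) j : Subgroup G) ≤ U := by
        intro j
        induction j with
        | zero => exact ⟨hU, le_rfl⟩
        | succ j ihj =>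
          haveI := ihj.1
          exact ⟨Subgroup.commutator_normal _ F, (Subgroup.commutator_le_left _ F).trans ihj.2⟩
      have hXV := h1 X (hXn k).2 (hXn k).1 ih
      refine hne ?_
      rw [← hXV]
      haveI := (hXn k).1
      rw [Subgroup.commutator_le]
      intro u hu f hf
      obtain ⟨x, hx, v, hv, rfl⟩ := Subgroup.mem_sup_of_normal_right.1 hu
      have e : ⁅x * v, f⁆ = x * ⁅v, f⁆ * x⁻¹ * ⁅x, f⁆ := by simp only [commutatorElement_def]; group
      rw [e]
      exact V.mul_mem (hV.conj_mem _ (Subgroup.commutator_le_left V F (Subgroup.commutator_mem_commutator hv hf)) x)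
        (hk (Subgroup.commutator_mem_commutator hx hf))
  have hle : ∀ k : ℕ, (Nat.rec (motive := fun _ => Subgroup G) U (fun _ X => ⁅X, F⁆) (k + 1) : Subgroup G) ≤
      F.lowerCentralSeries k := by
    intro k
    induction k with
    | zero => exact Subgroup.commutator_le_right U F
    | succ k ih =>
      rw [Subgroup.lowerCentralSeries_succ]
      exact Subgroup.commutator_mono ih le_rfl
  exact key (n + 1) ((hle n).trans (hn.le.trans bot_le))

/-- The elements of `N` centralising the chief factors below `F`. -/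
def chiefCentralizer (N F : Subgroup G) : Subgroup G where
  carrier := {g | g ∈ N ∧ ∀ U V : Subgroup G, IsCF U V → U ≤ F → ∀ u ∈ U, ⁅u, g⁆ ∈ V}
  one_mem' := ⟨N.one_mem, fun U V _ _ u _ => by rw [commutatorElement_one_right]; exact V.one_mem⟩
  mul_mem' {a b} ha hb := ⟨N.mul_mem ha.1 hb.1, fun U V h hU u hu => by
    have e : ⁅u, a * b⁆ = ⁅u, a⁆ * (a * ⁅u, b⁆ * a⁻¹) := by simp only [commutatorElement_def]; group
    rw [e]
    exact V.mul_mem (ha.2 U V h hU u hu) (h.2.1.conj_mem _ (hb.2 U V h hU u hu) a)⟩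
  inv_mem' {a} ha := ⟨N.inv_mem ha.1, fun U V h hU u hu => by
    have e : ⁅u, a⁻¹⁆ = a⁻¹ * ⁅u, a⁆⁻¹ * a⁻¹⁻¹ := by simp only [commutatorElement_def]; group
    rw [e]
    exact h.2.1.conj_mem _ (V.inv_mem (ha.2 U V h hU u hu)) _⟩

theorem chiefCentralizer_normal (N F : Subgroup G) [N.Normal] : (chiefCentralizer N F).Normal := by
  refine ⟨fun a ha x => ⟨‹N.Normal›.conj_mem a ha.1 x, fun U V h hU u hu => ?_⟩⟩
  have e : ⁅u, x * a * x⁻¹⁆ = x * ⁅x⁻¹ * u * x⁻¹⁻¹, a⁆ * x⁻¹ := by
    simp only [commutatorElement_def]; group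
  rw [e]
  exact h.2.1.conj_mem _ (ha.2 U V h hU _ (h.1.conj_mem u hu x⁻¹)) x

/-- In a solvable group the elements of `N` centralising the chief factors below `F(N)` lie in `F(N)`. -/
theorem chiefCentralizer_le_fitting [Finite G] [Group.IsSolvable G] (N : Subgroup G) [N.Normal] :
    chiefCentralizer N ((Cfsg.fittingSubgroup N).map N.subtype) ≤
      (Cfsg.fittingSubgroup N).map N.subtype := by
  haveI := H19.fitting_characteristic N
  set F := (Cfsg.fittingSubgroup N).map N.subtype with hF
  haveI : F.Normal := ConjAct.normal_of_characteristic_of_normal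
  set C := chiefCentralizer N F with hC
  haveI : C.Normal := chiefCentralizer_normal N F
  have hFnil : Group.IsNilpotent F := by
    haveI : Group.IsNilpotent (Cfsg.fittingSubgroup N) := H19.fitting_isNilpotent
    exact Group.nilpotent_of_mulEquiv ((Cfsg.fittingSubgroup N).equivMapOfInjective _ N.subtype_injective)
  have hFC : F ≤ C := fun f hf => ⟨Subgroup.map_subtype_le _ hf, fun U V h _ u hu =>
    commutator_le_of_nilpotent hFnil h (Subgroup.commutator_mem_commutator hu hf)⟩
  by_contra hCF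
  obtain ⟨M, ⟨hMn, hFM, hMC⟩, hMmin⟩ := Set.Finite.exists_minimal
    (Set.toFinite {M : Subgroup G | M.Normal ∧ F < M ∧ M ≤ C})
    ⟨C, inferInstance, lt_of_le_not_ge hFC hCF, le_rfl⟩
  haveI := hMn
  have hMN : M ≤ N := fun m hm => (hMC hm).1
  have hcomm : ⁅M, M⁆ ≤ F := by
    by_contra h
    have h1 : F ⊔ ⁅M, M⁆ = M := by
      refine le_antisymm (sup_le hFM.le (Subgroup.commutator_le_left M M)) (hMmin ⟨?_, ?_, ?_⟩ ?_)
      · exact Subgroup.sup_normal F _
      · exact lt_of_le_not_ge le_sup_left fun hle => h (le_sup_right.trans hle)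
      · exact sup_le hFC ((Subgroup.commutator_le_left M M).trans hMC)
      · exact sup_le hFM.le (Subgroup.commutator_le_left M M)
    set q := QuotientGroup.mk' F with hq
    have h2 : (M.map q) = ⁅M.map q, M.map q⁆ := by
      conv_lhs => rw [← h1]
      rw [Subgroup.map_sup, Subgroup.map_commutator, (Subgroup.map_eq_bot_iff F).2
        (QuotientGroup.ker_mk' F).ge, bot_sup_eq]
    have hne : M.map q ≠ ⊥ := fun hb => hFM.not_ge (((Subgroup.map_eq_bot_iff M).1 hb).trans
      (QuotientGroup.ker_mk' F).le)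
    exact (Group.IsSolvable.commutator_lt_of_ne_bot hne).ne h2.symm
  -- `[T, M] < T` for nontrivial normal `T ≤ F`
  have hdesc : ∀ T : Subgroup G, T.Normal → T ≤ F → T ≠ ⊥ → ⁅T, M⁆ < T := by
    intro T hT hTF hTne
    obtain ⟨V, ⟨hV, hVT⟩, hVmax⟩ := Set.Finite.exists_maximal
      (Set.toFinite {V : Subgroup G | V.Normal ∧ V < T}) ⟨⊥, inferInstance, Ne.bot_lt hTne⟩
    have hcf : IsCF T V := ⟨hT, hV, hVT, fun W hW hVW hWT => by
      rcases hWT.lt_or_eq with h | h
      · exact Or.inl (le_antisymm (hVmax ⟨hW, h⟩ hVW) hVW)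
      · exact Or.inr h⟩
    refine lt_of_le_of_lt (Subgroup.commutator_le.2 fun t ht m hm => ?_) hVT
    exact (hMC hm).2 T V hcf hTF t ht
  have hnil : Group.IsNilpotent M := by
    rw [Subgroup.isNilpotent_iff_lowerCentralSeries]
    suffices h : ∀ T : Subgroup G, T.Normal → T ≤ F → ∀ k, M.lowerCentralSeries k ≤ T →
        ∃ n, M.lowerCentralSeries n = ⊥ by
      refine h F inferInstance le_rfl 1 ?_
      rw [Subgroup.lowerCentralSeries_succ]
      exact le_trans (Subgroup.commutator_mono (by simp) le_rfl) hcomm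
    intro T
    induction hn : Nat.card T using Nat.strong_induction_on generalizing T with
    | _ n ih =>
      intro hT hTF k hk
      by_cases hTb : T = ⊥
      · exact ⟨k, le_bot_iff.1 (hTb ▸ hk)⟩
      have hlt := hdesc T hT hTF hTb
      refine ih _ (hn ▸ lt_of_not_ge fun h => hlt.ne (Subgroup.eq_of_le_of_card_ge hlt.le h)) _ rfl
        (Subgroup.commutator_normal T M) (hlt.le.trans hTF) (k + 1) ?_
      rw [Subgroup.lowerCentralSeries_succ]
      exact Subgroup.commutator_mono hk le_rfl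
  have hle : M.subgroupOf N ≤ Cfsg.fittingSubgroup N :=
    le_sSup ⟨hMn.subgroupOf N, by
      haveI := hnil
      exact Group.nilpotent_of_mulEquiv (Subgroup.subgroupOfEquivOfLe hMN).symm⟩
  exact hFM.not_ge fun m hm => ⟨⟨m, hMN hm⟩, hle hm, rfl⟩

end Cfsg.Agent.H83
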