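import Cfsg.Prelude.Def_PLocal
import Cfsg.Prelude.Def_Transfer
import Cfsg.Prelude.Def_CaseTheorems
import Cfsg.Agent.H35.SmallPGroups
import Cfsg.Agent.H6.GroupLemmas

/-!
`p`-groups with a self-centralising cyclic normal subgroup.
-/

set_option autoImplicit false

open Subgroup

namespace Cfsg.Agent.H83

/-- Power of a product when the commutator is central. -/
theorem pow_mul_of_central_commutator {G : Type*} [Group G] {y u c : G} (h : u * y = y * u * c)
    (hy : Commute c y) (hu : Commute c u) (m : ℕ) :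
    (y * u) ^ m = y ^ m * u ^ m * c ^ m.choose 2 := by
  have h1 : ∀ k : ℕ, u ^ k * y = y * u ^ k * c ^ k := by
    intro k
    induction k with
    | zero => simp
    | succ k ih =>
      rw [pow_succ u, mul_assoc, h, ← mul_assoc, ← mul_assoc, ih, pow_succ c]
      simp only [mul_assoc]
      rw [← mul_assoc (c ^ k) u, (hu.pow_left k).eq]
      simp only [mul_assoc]
  induction m with
  | zero => simp
  | succ m ih =>
    rw [pow_succ (y * u), ih, show (m + 1).choose 2 = m + m.choose 2 by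
      rw [Nat.choose_succ_succ', Nat.choose_one_right], pow_add c, pow_succ y m, pow_succ u m]
    simp only [mul_assoc]
    rw [← mul_assoc (c ^ m.choose 2) y, (hy.pow_left _).eq, mul_assoc y, (hu.pow_left _).eq,
      ← mul_assoc (u ^ m) y, h1]
    simp only [mul_assoc]
    rw [← mul_assoc (c ^ m) u, (hu.pow_left m).eq]
    simp only [mul_assoc]

/-- For odd `p`, an integer with `p`-th power congruent to `1` modulo `p ^ (b + 1)` is congruent
to `1` modulo `p ^ b`. -/
theorem pow_dvd_sub_one_of_pow_prime {p : ℕ} (hp : p.Prime) (hp2 : p ≠ 2) {b : ℕ} {r : ℤ}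
    (hd : (p : ℤ) ^ (b + 1) ∣ r ^ p - 1) : (p : ℤ) ^ b ∣ r - 1 := by
  have : Fact p.Prime := ⟨hp⟩
  have hdp : (p : ℤ) ∣ r - 1 := by
    have h1 : (p : ℤ) ∣ r ^ p - 1 := (dvd_pow_self (p : ℤ) b.succ_ne_zero).trans hd
    rw [← ZMod.intCast_zmod_eq_zero_iff_dvd] at h1 ⊢
    push_cast at h1 ⊢
    rwa [ZMod.pow_card] at h1
  have hndvd : ¬ (p : ℤ) ∣ r := by
    intro h
    have h1 : (p : ℤ) ∣ 1 := by simpa using dvd_sub h hdp
    exact hp.ne_one (by exact_mod_cast Int.eq_one_of_dvd_one (by positivity) h1)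
  have hlte := Int.emultiplicity_pow_sub_pow (p := p) hp (hp.odd_of_ne_two hp2)
    (x := r) (y := 1) hdp hndvd p
  rw [one_pow] at hlte
  have h2 := le_emultiplicity_of_pow_dvd hd
  rw [hlte] at h2
  have h3 : emultiplicity p p = 1 :=
    (Nat.finiteMultiplicity_iff.mpr ⟨hp.ne_one, hp.pos⟩).emultiplicity_self
  rw [h3, Nat.cast_add, Nat.cast_one] at h2
  exact pow_dvd_of_le_emultiplicity ((ENat.add_le_add_iff_right (by simp)).mp h2)

/-- Square roots of `1` modulo `2 ^ (c + 2)`. -/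
theorem two_pow_dvd_sub_or_add_one {c : ℕ} {r : ℤ} (hd : (2 : ℤ) ^ (c + 2) ∣ r * r - 1) :
    (2 : ℤ) ^ (c + 1) ∣ r - 1 ∨ (2 : ℤ) ^ (c + 1) ∣ r + 1 := by
  have hodd : Odd r := by
    by_contra h
    rw [Int.not_odd_iff_even] at h
    obtain ⟨t, rfl⟩ := h
    obtain ⟨e, he⟩ := (dvd_pow_self (2 : ℤ) (show c + 2 ≠ 0 by omega)).trans hd
    have e' : 2 * (2 * t * t - e) = 1 := by linear_combination he
    rcases Int.eq_one_or_neg_one_of_mul_eq_one e' with h | h <;> omega
  obtain ⟨t, rfl⟩ := hodd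
  have hd' : (2 : ℤ) ^ c ∣ t * (t + 1) := by
    rw [show (2 * t + 1) * (2 * t + 1) - 1 = 4 * (t * (t + 1)) by ring, pow_add,
      mul_comm ((2 : ℤ) ^ c), show (2 : ℤ) ^ 2 = 4 by norm_num] at hd
    exact (mul_dvd_mul_iff_left (by norm_num : (4 : ℤ) ≠ 0)).1 hd
  rw [pow_succ']
  rcases Int.even_or_odd t with ⟨s, hs⟩ | ⟨s, hs⟩
  · left
    rw [show 2 * t + 1 - 1 = 2 * t by ring]
    exact mul_dvd_mul_left 2
      ((IsCoprime.pow_left (m := c) ⟨-s, 1, by rw [hs]; ring⟩ :
        IsCoprime ((2 : ℤ) ^ c) (t + 1)).dvd_of_dvd_mul_right hd')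
  · right
    rw [show 2 * t + 1 + 1 = 2 * (t + 1) by ring]
    exact mul_dvd_mul_left 2
      ((IsCoprime.pow_left (m := c) ⟨-s, 1, by rw [hs]; ring⟩ :
        IsCoprime ((2 : ℤ) ^ c) t).dvd_of_dvd_mul_left hd')

variable {G : Type*} [Group G] [Finite G] {p : ℕ} [Fact p.Prime]

private theorem dvd_congr {d x y : ℤ} (h : d ∣ x) (e : x = y) : d ∣ y := e ▸ h

/-- The two possibilities. -/
theorem cyclic_self_centralizing (hG : IsPGroup p G) (hna : ¬ IsMulCommutative G) (g : G)
    (hUn : (zpowers g).Normal) (hC : centralizer (zpowers g : Set G) = zpowers g) (n : ℕ)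
    (ha : orderOf g = p ^ n) :
    (p = 2 ∧ Nat.card G = 2 ^ (n + 1) ∧ ((∃ m : ℕ, Nonempty (G ≃* DihedralGroup m)) ∨
        (∃ m : ℕ, Nonempty (G ≃* QuaternionGroup m)) ∨ Cfsg.IsQuasiDihedral G)) ∨
      ((zpowers g).relIndex (centralizer (zpowers (g ^ p) : Set G)) = p ∧
        Cfsg.IsElementaryAbelian p (Cfsg.omegaOne p (centralizer (zpowers (g ^ p) : Set G))) ∧
        Nat.card (Cfsg.omegaOne p (centralizer (zpowers (g ^ p) : Set G))) = p ^ 2 ∧
        (Cfsg.omegaOne p (centralizer (zpowers (g ^ p) : Set G))).Characteristic) := by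
  classical
  have hpp : p.Prime := Fact.out
  set U := zpowers g with hU
  -- conjugation exponents
  have hexp : ∀ y : G, ∃ r : ℤ, y * g * y⁻¹ = g ^ r := fun y => by
    obtain ⟨r, hr⟩ := hUn.conj_mem g (mem_zpowers g) y
    exact ⟨r, hr.symm⟩
  choose r hr using hexp
  have hz : ∀ i j : ℤ, g ^ i = g ^ j ↔ ((p : ℤ) ^ n) ∣ j - i := fun i j => by
    rw [zpow_eq_zpow_iff_modEq, Int.modEq_iff_dvd, ha]
    norm_num
  have hconj : ∀ (y : G) (j : ℤ), y * g ^ j * y⁻¹ = g ^ (r y * j) := fun y j => by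
    rw [zpow_mul, ← hr, conj_zpow]
  have hrmul : ∀ y y' : G, ((p : ℤ) ^ n) ∣ r y * r y' - r (y * y') := fun y y' => by
    rw [← hz, ← hr, ← hconj, ← hr]
    group
  have hin : ∀ y : G, ((p : ℤ) ^ n) ∣ r y - 1 ↔ y ∈ U := by
    intro y
    constructor
    · intro hd
      rw [← hC, mem_centralizer_iff]
      rintro _ ⟨j, rfl⟩
      have h1 : g ^ r y = g ^ (1 : ℤ) := (hz _ _).2 (by rw [← dvd_neg, neg_sub]; exact hd)
      have h2 := hconj y j
      rw [zpow_mul, h1, zpow_one, mul_inv_eq_iff_eq_mul] at h2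
      exact h2.symm
    · rintro ⟨j, rfl⟩
      rw [← hz, ← hr, zpow_one]
      group
  have hne : ∃ y, y ∉ U := by
    by_contra h
    push Not at h
    refine hna ⟨⟨fun a b => ?_⟩⟩
    obtain ⟨i, rfl⟩ := h a
    obtain ⟨j, rfl⟩ := h b
    exact ((Commute.refl g).zpow_zpow i j).eq
  -- an element outside `U` with `p`-th power in `U`
  have hstep : ∀ y, y ∉ U → ∃ k : ℕ, y ^ p ^ k ∉ U ∧ (y ^ p ^ k) ^ p ∈ U := by
    intro y hy
    obtain ⟨k, hk⟩ := hG y
    have hex : ∃ i, y ^ p ^ i ∈ U := ⟨k, hk ▸ one_mem U⟩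
    have h0 : Nat.find hex ≠ 0 := fun h => hy (by
      have := Nat.find_spec hex
      rwa [h, pow_zero, pow_one] at this)
    refine ⟨Nat.find hex - 1, Nat.find_min hex (by omega), ?_⟩
    rw [← pow_mul, ← pow_succ, Nat.sub_add_cancel (by omega)]
    exact Nat.find_spec hex
  have hrpow : ∀ (y : G) (k : ℕ), ((p : ℤ) ^ n) ∣ (r y) ^ k - r (y ^ k) := by
    intro y k
    induction k with
    | zero =>
      rw [pow_zero, pow_zero, ← dvd_neg, neg_sub]
      exact (hin 1).2 (one_mem U)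
    | succ k ih =>
      have h := dvd_add (ih.mul_right (r y)) (hrmul (y ^ k) y)
      rw [pow_succ, pow_succ]
      refine dvd_congr h ?_; ring
  -- `n ≥ 2`
  obtain ⟨b, rfl⟩ : ∃ b, n = b + 2 := by
    refine ⟨n - 2, ?_⟩
    suffices 2 ≤ n by omega
    by_contra hlt
    obtain ⟨y, hy⟩ := hne
    obtain ⟨k, hk, hkp⟩ := hstep y hy
    apply hk
    rw [← hin]
    have h := dvd_add ((hrpow (y ^ p ^ k) p)) ((hin _).2 hkp)
    rcases Nat.eq_zero_or_pos n with rfl | hn0
    · simp
    · rw [show n = 1 by omega, pow_one] at h ⊢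
      rw [← ZMod.intCast_zmod_eq_zero_iff_dvd] at h ⊢
      push_cast at h ⊢
      rw [ZMod.pow_card] at h
      linear_combination h
  have hq : (p : ℤ) ^ (b + 2) = p * p ^ (b + 1) := pow_succ' _ _
  have hM : ∀ y : G, y ∈ centralizer (zpowers (g ^ p) : Set G) ↔
      (p : ℤ) ^ (b + 1) ∣ r y - 1 := by
    intro y
    have e : g ^ p = g ^ (p : ℤ) := (zpow_natCast g p).symm
    have h1 : y * g ^ (p : ℤ) * y⁻¹ = g ^ (p : ℤ) ↔ (p : ℤ) ^ (b + 1) ∣ r y - 1 := by
      rw [hconj, hz, hq, ← dvd_neg, show -((p : ℤ) - r y * p) = p * (r y - 1) by ring]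
      exact mul_dvd_mul_iff_left (by exact_mod_cast hpp.ne_zero)
    rw [mem_centralizer_iff, ← h1, mul_inv_eq_iff_eq_mul]
    constructor
    · intro h
      exact (h _ (e ▸ mem_zpowers _)).symm
    · rintro h _ ⟨i, rfl⟩
      rw [e]
      exact ((show Commute y (g ^ (p : ℤ)) from h).zpow_right i).eq.symm
  by_cases hA : (∃ y, y ∉ U ∧ (p : ℤ) ^ (b + 1) ∣ r y - 1) ∧ ¬ (p = 2 ∧ b = 0)
  · right
    obtain ⟨⟨y₁, hy₁U, hy₁⟩, hexc⟩ := hA
    set M := centralizer (zpowers (g ^ p) : Set G) with hMdef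
    have hUM : U ≤ M := fun x hx => (hM x).2
      ((pow_dvd_pow _ (by omega)).trans ((hin x).2 hx))
    haveI : (zpowers (g ^ p)).Normal := ⟨by
      rintro _ ⟨i, rfl⟩ x
      refine ⟨r x * i, ?_⟩
      change (g ^ p) ^ (r x * i) = x * (g ^ p) ^ i * x⁻¹
      rw [← zpow_natCast, ← zpow_mul, ← zpow_mul, hconj]
      congr 1; ring⟩
    haveI : M.Normal := by rw [hMdef]; infer_instance
    have hqq : (p : ℤ) ^ (b + 2) ∣ (p : ℤ) ^ (b + 1) * (p : ℤ) ^ (b + 1) := by
      rw [← pow_add]; exact pow_dvd_pow _ (by omega)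
    have hep : ∀ (y : G) (e : ℤ), y ∉ U → r y - 1 = (p : ℤ) ^ (b + 1) * e → ¬ (p : ℤ) ∣ e :=
      fun y e hyU he ⟨f, hf⟩ => hyU ((hin y).1 ⟨f, by rw [he, hf, hq]; ring⟩)
    have hya : ∀ (y : G) (e : ℤ), r y - 1 = (p : ℤ) ^ (b + 1) * e → ∀ a : ℕ,
        (p : ℤ) ^ (b + 2) ∣ r (y ^ a) - (1 + (p : ℤ) ^ (b + 1) * (a * e)) := by
      intro y e he a
      induction a with
      | zero => simpa using (hin 1).2 (one_mem U)
      | succ a ih =>
        have h2 : r y = 1 + (p : ℤ) ^ (b + 1) * e := by linear_combination he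
        rw [pow_succ y]
        have h := dvd_sub (dvd_add (ih.mul_right (r y)) (hqq.mul_right ((a : ℤ) * e * e)))
          (hrmul (y ^ a) y)
        refine dvd_congr h ?_
        rw [h2]; push_cast; ring
    have hker : ∀ y : G, y ∉ U → y ∈ M → ∀ a : ℕ, y ^ a ∈ U → p ∣ a := by
      intro y hyU hyM a ha'
      obtain ⟨e, he⟩ := (hM y).1 hyM
      have h := dvd_sub ((hin _).2 ha') (hya y e he a)
      rw [show r (y ^ a) - 1 - (r (y ^ a) - (1 + (p : ℤ) ^ (b + 1) * (a * e))) =
        (p : ℤ) ^ (b + 1) * (a * e) by ring, hq, mul_comm (p : ℤ)] at h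
      have h' := (mul_dvd_mul_iff_left (pow_ne_zero _ (by exact_mod_cast hpp.ne_zero))).1 h
      rcases (Nat.prime_iff_prime_int.1 hpp).dvd_or_dvd h' with h3 | h3
      · exact Int.natCast_dvd_natCast.1 h3
      · exact absurd h3 (hep y e hyU he)
    have hdec : ∀ y : G, y ∉ U → y ∈ M → ∀ x ∈ M, ∃ (a : ℕ) (i : ℤ), a < p ∧ x = y ^ a * g ^ i := by
      intro y hyU hyM x hx
      obtain ⟨e, he⟩ := (hM y).1 hyM
      obtain ⟨f, hf⟩ := (hM x).1 hx
      obtain ⟨a, hap, had⟩ : ∃ a : ℕ, a < p ∧ (p : ℤ) ∣ (a : ℤ) * e - f := by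
        refine ⟨((f : ZMod p) * (e : ZMod p)⁻¹).val, ZMod.val_lt _, ?_⟩
        rw [← ZMod.intCast_zmod_eq_zero_iff_dvd]
        push_cast
        rw [ZMod.natCast_zmod_val, mul_assoc, inv_mul_cancel₀, mul_one, sub_self]
        rw [ne_eq, ZMod.intCast_zmod_eq_zero_iff_dvd]; exact hep y e hyU he
      obtain ⟨s, hs⟩ := had
      have h1 : (p : ℤ) ^ (b + 2) ∣ r (y ^ a) - r x := by
        have h := dvd_add (hya y e he a) (dvd_mul_right ((p : ℤ) ^ (b + 2)) s)
        refine dvd_congr h ?_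
        linear_combination hf - (p : ℤ) ^ (b + 1) * hs
      have hmem : (y ^ a)⁻¹ * x ∈ U := by
        rw [← hin]
        have h2 := hrmul ((y ^ a)⁻¹) (y ^ a)
        have h3 := hrmul ((y ^ a)⁻¹) x
        rw [inv_mul_cancel] at h2
        have h4 := (hin 1).2 (one_mem U)
        have h := dvd_add (dvd_sub (dvd_sub h2 h3) (h1.mul_left (r (y ^ a)⁻¹))) h4
        refine dvd_congr h ?_; ring
      obtain ⟨i, hi⟩ := hmem
      exact ⟨a, i, hap, by rw [show g ^ i = (y ^ a)⁻¹ * x from hi, mul_inv_cancel_left]⟩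
    -- order of `M`
    have hy₁M : y₁ ∈ M := (hM y₁).2 hy₁
    have hcard : Nat.card M = p * p ^ (b + 2) := by
      let f : Fin p × U → M := fun z =>
        ⟨y₁ ^ (z.1 : ℕ) * z.2, mul_mem (pow_mem hy₁M _) (hUM z.2.2)⟩
      have hf : Function.Bijective f := by
        refine ⟨fun z w h => ?_, fun x => ?_⟩
        · have h' : y₁ ^ (z.1 : ℕ) * (z.2 : G) = y₁ ^ (w.1 : ℕ) * (w.2 : G) := congrArg Subtype.val h
          have h1 : z.1 = w.1 := by
            refine Fin.ext ?_
            have key : ∀ a c : Fin p, (a : ℕ) ≤ (c : ℕ) → ∀ u v : U,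
                y₁ ^ (a : ℕ) * (u : G) = y₁ ^ (c : ℕ) * (v : G) → (a : ℕ) = c := by
              intro a c hac u v huv
              obtain ⟨d, hd⟩ := Nat.exists_eq_add_of_le hac
              rw [hd, pow_add, mul_assoc] at huv
              have hd' : y₁ ^ d ∈ U := by
                rw [← mul_inv_cancel_right (y₁ ^ d) (v : G), ← mul_left_cancel huv]
                exact mul_mem u.2 (inv_mem v.2)
              have h5 := Nat.eq_zero_of_dvd_of_lt (hker y₁ hy₁U hy₁M d hd') (by have := c.2; omega)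
              omega
            rcases le_total (z.1 : ℕ) w.1 with h2 | h2
            · exact key _ _ h2 _ _ h'
            · exact (key _ _ h2 _ _ h'.symm).symm
          rw [h1] at h'
          exact Prod.ext h1 (Subtype.ext (mul_left_cancel h'))
        · obtain ⟨a, i, hap, hx⟩ := hdec y₁ hy₁U hy₁M x x.2
          exact ⟨(⟨a, hap⟩, ⟨g ^ i, zpow_mem (mem_zpowers g) i⟩), Subtype.ext hx.symm⟩
      rw [← Nat.card_congr (Equiv.ofBijective f hf), Nat.card_prod, Nat.card_fin, hU,
        Nat.card_zpowers, ha]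
    -- `p`-th powers
    have hppow : ∀ y : G, y ∈ M → ∀ a : ℕ, ∃ s : ℤ, ¬ (p : ℤ) ∣ s ∧
        ∀ i : ℤ, (y ^ a * g ^ i) ^ p = (y ^ a) ^ p * g ^ ((p : ℤ) * (i * s)) := by
      intro y hyM a
      obtain ⟨e, he⟩ := (hM y).1 hyM
      refine ⟨1 - (p : ℤ) ^ b * (a * e) * (p.choose 2 : ℕ), ?_, fun i => ?_⟩
      · intro h
        have h2 : (p : ℤ) ∣ (p : ℤ) ^ b * (a * e) * (p.choose 2 : ℕ) := by
          by_cases hp2 : p = 2
          · exact Dvd.dvd.mul_right (Dvd.dvd.mul_right (dvd_pow_self _ (fun hb => hexc ⟨hp2, hb⟩)) _) _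
          · exact dvd_mul_of_dvd_right (Int.natCast_dvd_natCast.2
              (hpp.dvd_choose_self two_ne_zero (lt_of_le_of_ne hpp.two_le (Ne.symm hp2)))) _
        have h3 : (p : ℤ) ∣ 1 := by simpa using dvd_add h h2
        exact hpp.ne_one (by exact_mod_cast Int.eq_one_of_dvd_one (by positivity) h3)
      · set q : ℤ := (p : ℤ) ^ (b + 1) with hqdef
        have hcy : ∀ (w : ℤ) (x : G), x ∈ M → Commute (g ^ (q * w)) x := by
          intro w x hx
          have h1 : g ^ p ∈ zpowers (g ^ p) := mem_zpowers _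
          have h2 : g ^ (q * w) = (g ^ p) ^ ((p : ℤ) ^ b * w) := by
            rw [← zpow_natCast, ← zpow_mul, hqdef, pow_succ']; congr 1; ring
          rw [h2]
          exact ((show Commute (g ^ p) x from mem_centralizer_iff.1 hx _ h1).zpow_left _)
        have hc : g ^ i * y ^ a = y ^ a * g ^ i * g ^ (q * (-(i * (a * e)))) := by
          have e1 : y ^ a * g ^ (i + q * (-(i * (a * e)))) * (y ^ a)⁻¹ = g ^ i := by
            rw [hconj, hz]
            have h := (hya y e he a).mul_right (i + q * (-(i * (a * e))))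
            have h' := dvd_add h (hqq.mul_right (-(i * ((a * e) * (a * e)))))
            rw [← dvd_neg]
            refine dvd_congr h' ?_
            ring
          rw [mul_assoc, ← zpow_add]
          exact (mul_inv_eq_iff_eq_mul.1 e1).symm
        rw [pow_mul_of_central_commutator hc (hcy _ _ (pow_mem hyM a))
          (hcy _ _ (hUM (zpow_mem (mem_zpowers g) i))) p, mul_assoc, ← zpow_natCast (g ^ i),
          ← zpow_natCast (g ^ (q * _)), ← zpow_mul, ← zpow_mul, ← zpow_add]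
        congr 2
        rw [hqdef, pow_succ']; ring
    -- an element of order `p` outside `U`
    obtain ⟨y, hyU, hyM, hyp⟩ : ∃ y, y ∉ U ∧ y ∈ M ∧ y ^ p = 1 := by
      obtain ⟨e, he⟩ := hy₁
      have hypU : y₁ ^ p ∈ U := by
        rw [← hin]
        have h := hya y₁ e he p
        have h' := dvd_add h (dvd_mul_right ((p : ℤ) ^ (b + 2)) e)
        refine dvd_congr h' ?_
        rw [hq]; ring
      obtain ⟨j, hj⟩ := hypU
      simp only at hj
      have hpj : (p : ℤ) ∣ j := by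
        have h1 : y₁ * g ^ j * y₁⁻¹ = g ^ j := by
          rw [hj, (Commute.self_pow y₁ p).eq, mul_inv_cancel_right]
        rw [hconj, hz, ← dvd_neg, show -(j - r y₁ * j) = (r y₁ - 1) * j by ring, he, mul_assoc, hq,
          mul_comm (p : ℤ)] at h1
        have h2 := (mul_dvd_mul_iff_left (pow_ne_zero _ (by exact_mod_cast hpp.ne_zero))).1 h1
        exact ((Nat.prime_iff_prime_int.1 hpp).dvd_or_dvd h2).resolve_left (hep y₁ e hy₁U he)
      obtain ⟨j', rfl⟩ := hpj
      obtain ⟨s, hs, hpw⟩ := hppow y₁ hy₁M 1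
      obtain ⟨u, v, huv⟩ : IsCoprime s ((p : ℤ) ^ (b + 1)) :=
        (((Nat.prime_iff_prime_int.1 hpp).coprime_iff_not_dvd.2 hs).symm).pow_right
      refine ⟨y₁ * g ^ (-(j' * u)), fun h => hy₁U ?_,
        mul_mem hy₁M (hUM (zpow_mem (mem_zpowers g) _)), ?_⟩
      · simpa using mul_mem h (inv_mem (zpow_mem (mem_zpowers g) (-(j' * u))))
      · have h1 := hpw (-(j' * u))
        rw [pow_one] at h1
        rw [h1, ← hj, ← zpow_add, ← zpow_zero g, hz, hq]
        exact ⟨-(j' * v), by linear_combination (p : ℤ) * j' * huv⟩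
    set z := g ^ ((p : ℤ) ^ (b + 1)) with hzdef
    have hzM : z ∈ M := hUM (zpow_mem (mem_zpowers g) _)
    have hzp : z ^ p = 1 := by
      rw [hzdef, ← zpow_natCast, ← zpow_mul, ← zpow_zero g, hz, hq, zero_sub, dvd_neg, mul_comm]
    have hz1 : z ≠ 1 := by
      rw [hzdef, ← zpow_zero g, ne_eq, hz, hq, zero_sub, dvd_neg]
      intro ⟨c, hc⟩
      have h1 : (p : ℤ) * c = 1 := mul_left_cancel₀
        (pow_ne_zero (b + 1) (by exact_mod_cast hpp.ne_zero : (p : ℤ) ≠ 0))
        (by linear_combination -hc)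
      exact hpp.ne_one (by exact_mod_cast Int.eq_one_of_mul_eq_one_right (by positivity) h1)
    have hyz : Commute y z := by
      have hmem := mem_zpowers (g ^ p)
      have h2 : z = (g ^ p) ^ ((p : ℤ) ^ b) := by
        rw [hzdef, ← zpow_natCast, ← zpow_mul, pow_succ']
      rw [h2]
      exact ((show Commute (g ^ p) y from mem_centralizer_iff.1 hyM _ hmem).zpow_left _).symm
    have hyne : y ≠ 1 := fun h => hyU (h ▸ one_mem U)
    have hcomm : ∀ (u : zpowers y) (v : zpowers z), Commute (u : G) v := by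
      rintro ⟨_, i, rfl⟩ ⟨_, j, rfl⟩
      exact hyz.zpow_zpow i j
    let φ : zpowers y × zpowers z →* G :=
      MonoidHom.noncommCoprod (zpowers y).subtype (zpowers z).subtype hcomm
    have hoy : orderOf y = p := orderOf_eq_prime hyp hyne
    have hoz : orderOf z = p := orderOf_eq_prime hzp hz1
    have hφ : Function.Injective φ := by
      rw [injective_iff_map_eq_one]
      rintro ⟨⟨u, hu⟩, ⟨v, hv⟩⟩ h
      change u * v = 1 at h
      obtain ⟨a, ha'⟩ := mem_powers_iff_mem_zpowers.2 hu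
      simp only at ha'
      have hvU : v ∈ U := (zpowers_le.2 (zpow_mem (mem_zpowers g) _)) hv
      have hu1 : u = 1 := by
        obtain ⟨c, rfl⟩ := hker y hyU hyM a (by
          rw [ha', eq_inv_of_mul_eq_one_left h]; exact inv_mem hvU)
        rw [← ha', pow_mul, hyp, one_pow]
      rw [hu1, one_mul] at h
      exact Prod.ext (Subtype.ext hu1) (Subtype.ext h)
    have hE : Cfsg.omegaOne p M = φ.range := by
      refine le_antisymm ((closure_le _).2 ?_) ?_
      · rintro x ⟨hxM, hxp⟩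
        obtain ⟨a, i, -, rfl⟩ := hdec y hyU hyM x hxM
        obtain ⟨s, hs, hsw⟩ := hppow y hyM a
        rw [hsw, ← pow_mul, mul_comm a p, pow_mul, hyp, one_pow, one_mul, ← zpow_zero g, hz, hq,
          zero_sub, dvd_neg, mul_dvd_mul_iff_left (by exact_mod_cast hpp.ne_zero)] at hxp
        obtain ⟨c, rfl⟩ := (((Nat.prime_iff_prime_int.1 hpp).coprime_iff_not_dvd.2 hs).pow_left
          (m := b + 1)).dvd_of_dvd_mul_right hxp
        exact ⟨((⟨y ^ a, pow_mem (mem_zpowers y) a⟩ : zpowers y),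
          (⟨z ^ c, zpow_mem (mem_zpowers z) c⟩ : zpowers z)),
          by rw [zpow_mul]; rfl⟩
      · rintro x ⟨⟨⟨u, i, rfl⟩, ⟨v, j, rfl⟩⟩, rfl⟩
        exact mul_mem (zpow_mem (show y ∈ Cfsg.omegaOne p M from Subgroup.subset_closure ⟨hyM, hyp⟩) i)
          (zpow_mem (show z ∈ Cfsg.omegaOne p M from Subgroup.subset_closure ⟨hzM, hzp⟩) j)
    set E := Cfsg.omegaOne p M with hEdef
    have hEel : Cfsg.IsElementaryAbelian p E := by
      constructor
      · constructor; constructor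
        rintro ⟨x, hx⟩ ⟨x', hx'⟩
        refine Subtype.ext ?_
        change x * x' = x' * x
        rw [hE] at hx hx'
        obtain ⟨w, rfl⟩ := hx
        obtain ⟨w', rfl⟩ := hx'
        rw [← map_mul, ← map_mul]
        congr 1
        obtain ⟨⟨_, i, rfl⟩, ⟨_, j, rfl⟩⟩ := w
        obtain ⟨⟨_, i', rfl⟩, ⟨_, j', rfl⟩⟩ := w'
        exact Prod.ext (Subtype.ext ((Commute.refl y).zpow_zpow i i').eq)
          (Subtype.ext ((Commute.refl z).zpow_zpow j j').eq)
      · intro x hx
        rw [hE] at hx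
        obtain ⟨⟨⟨_, i, rfl⟩, ⟨_, j, rfl⟩⟩, rfl⟩ := hx
        rw [← map_pow]
        change (y ^ i) ^ p * (z ^ j) ^ p = 1
        rw [← zpow_natCast (y ^ i), ← zpow_natCast (z ^ j), ← zpow_mul, ← zpow_mul, mul_comm i,
          mul_comm j, zpow_mul, zpow_mul, zpow_natCast, zpow_natCast, hyp, hzp, one_zpow, one_zpow,
          one_mul]
    refine ⟨?_, hEel, ?_, ?_⟩
    · have h1 := (U.subgroupOf M).card_mul_index
      rw [Nat.card_congr (subgroupOfEquivOfLe hUM).toEquiv, hcard, hU, Nat.card_zpowers, ha,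
        mul_comm p] at h1
      exact Nat.eq_of_mul_eq_mul_left (pow_pos hpp.pos _) h1
    · rw [hE, ← Nat.card_congr (MonoidHom.ofInjective hφ).toEquiv, Nat.card_prod, Nat.card_zpowers,
        Nat.card_zpowers, hoy, hoz, sq]
    · haveI hEn : E.Normal := ⟨fun x hx w => by
        rw [hEdef, Cfsg.omegaOne] at hx ⊢
        induction hx using closure_induction with
        | mem x hx =>
          exact subset_closure ⟨‹M.Normal›.conj_mem x hx.1 w, by rw [conj_pow, hx.2, mul_one, mul_inv_cancel]⟩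
        | one => simp
        | mul x x' _ _ h h' =>
          rw [show w * (x * x') * w⁻¹ = w * x * w⁻¹ * (w * x' * w⁻¹) by group]
          exact mul_mem h h'
        | inv x _ h =>
          rw [show w * x⁻¹ * w⁻¹ = (w * x * w⁻¹)⁻¹ by group]
          exact inv_mem h⟩
      refine characteristic_iff_map_le.2 fun σ => ?_
      rintro _ ⟨x, hx, rfl⟩
      set F := E.map σ.toMonoidHom with hF
      haveI : F.Normal := hEn.map _ σ.surjective
      have hFp : ∀ w ∈ F, w ^ p = 1 := by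
        rintro _ ⟨w, hw, rfl⟩
        rw [← map_pow, hEel.2 w hw, map_one]
      have hxF : σ.toMonoidHom x ∈ F := mem_map_of_mem _ hx
      set w := σ.toMonoidHom x
      refine subset_closure ⟨(hM w).2 ?_, hFp w hxF⟩
      have h1 : w * g * w⁻¹ * g⁻¹ ∈ F := by
        rw [show w * g * w⁻¹ * g⁻¹ = w * (g * w⁻¹ * g⁻¹) by group]
        exact mul_mem hxF (‹F.Normal›.conj_mem _ (inv_mem hxF) g)
      have h2 := hFp _ h1
      rw [hr, ← zpow_sub_one, ← zpow_natCast, ← zpow_mul, ← zpow_zero g, hz, hq, zero_sub,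
        dvd_neg, mul_comm (r w - 1)] at h2
      exact (mul_dvd_mul_iff_left (by exact_mod_cast hpp.ne_zero)).1 h2
  · left
    push Not at hA
    -- `p = 2`
    have hp2 : p = 2 := by
      by_contra hp2
      obtain ⟨y, hy⟩ := hne
      obtain ⟨k, hk, hkp⟩ := hstep y hy
      refine hp2 (hA ⟨_, hk, pow_dvd_sub_one_of_pow_prime hpp hp2 ?_⟩).1
      have h := dvd_add (hrpow (y ^ p ^ k) p) ((hin _).2 hkp)
      refine dvd_congr h ?_; ring
    subst hp2
    have hB : 1 ≤ b → ∀ y, (2 : ℤ) ^ (b + 1) ∣ r y - 1 → y ∈ U := by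
      intro hb y hd
      by_contra hy
      have := hA ⟨y, hy, by exact_mod_cast hd⟩
      omega
    have hrodd : ∀ y, ∃ t : ℤ, r y = 2 * t + 1 := by
      intro y
      have h := dvd_add (hrmul y y⁻¹) (mul_inv_cancel y ▸ (hin 1).2 (one_mem U))
      obtain ⟨c, hc⟩ := (dvd_pow_self (2 : ℤ) (show b + 2 ≠ 0 by omega)).trans (by exact_mod_cast h)
      rcases Int.even_or_odd (r y) with ⟨t, ht⟩ | h'
      · rw [ht] at hc
        have : 2 * (t * r y⁻¹ - c) = 1 := by linear_combination hc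
        rcases Int.eq_one_or_neg_one_of_mul_eq_one this with h | h <;> omega
      · exact h'
    have hneg : ∀ y, y ∉ U → y ^ 2 ∈ U → (2 : ℤ) ^ (b + 1) ∣ r y + 1 := by
      intro y hy hy2
      have h := dvd_add (hrpow y 2) ((hin _).2 hy2)
      rcases two_pow_dvd_sub_or_add_one (r := r y) (c := b) (by
        push_cast at h; refine dvd_congr h ?_; ring) with hd | hd
      · rcases Nat.eq_zero_or_pos b with rfl | hb
        · have h2 := Int.dvd_add hd (by simp : (2 : ℤ) ^ (0 + 1) ∣ 2)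
          exact dvd_congr h2 (by ring)
        · exact absurd (hB hb y hd) hy
      · exact hd
    -- in `b = 0` the exponents outside `U` are `-1` modulo four
    have hb0 : b = 0 → ∀ y, y ∉ U → (4 : ℤ) ∣ r y + 1 := by
      intro hb y hy
      subst hb
      obtain ⟨t, ht⟩ := hrodd y
      have h1 : ¬ (4 : ℤ) ∣ r y - 1 := fun h => hy ((hin y).1 (by norm_num; exact h))
      omega
    have hsq : ∀ y, y ^ 2 ∈ U := by
      intro y
      by_contra hy
      obtain ⟨k, hk, hk2⟩ := hstep _ hy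
      rw [show (y ^ 2) ^ 2 ^ k = (y ^ 2 ^ k) ^ 2 by rw [← pow_mul, ← pow_mul, mul_comm]] at hk hk2
      set w := y ^ 2 ^ k
      obtain ⟨t, ht⟩ := hrodd w
      have h := hrpow w 2
      rcases Nat.eq_zero_or_pos b with rfl | hb
      · apply hk
        rw [← hin]
        norm_num at h ⊢
        rw [ht, show (2 * t + 1) ^ 2 = 4 * (t * t + t) + 1 by ring] at h
        omega
      · have h4 : (4 : ℤ) ∣ r (w ^ 2) + 1 :=
          (pow_dvd_pow (2 : ℤ) (show 2 ≤ b + 1 by omega)).trans (hneg _ hk hk2)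
        have h4' : (4 : ℤ) ∣ r w ^ 2 - r (w ^ 2) :=
          (pow_dvd_pow (2 : ℤ) (show 2 ≤ b + 2 by omega)).trans (by exact_mod_cast h)
        rw [ht, show (2 * t + 1) ^ 2 = 4 * (t * t + t) + 1 by ring] at h4'
        omega
    obtain ⟨x, hx⟩ := hne
    have hindex : U.index = 2 := by
      rw [index_eq_two_iff]
      refine ⟨x, fun y => ?_⟩
      by_cases hy : y ∈ U
      · exact Or.inr ⟨hy, fun h => hx ((U.mul_mem_cancel_left hy).1 h)⟩
      · refine Or.inl ⟨?_, hy⟩
        have hm := hrmul y x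
        rcases Nat.eq_zero_or_pos b with rfl | hb
        · rw [← hin]
          norm_num at hm ⊢
          obtain ⟨c, hc⟩ := hb0 rfl y hy
          obtain ⟨d, hd⟩ := hb0 rfl x hx
          obtain ⟨e, he⟩ := hm
          exact ⟨4 * c * d - c - d - e, by linear_combination (r x) * hc + (4 * c - 1) * hd - he⟩
        · refine hB hb _ ?_
          obtain ⟨c, hc⟩ := hneg y hy (hsq y)
          obtain ⟨d, hd⟩ := hneg x hx (hsq x)
          obtain ⟨e, he⟩ := hm
          exact ⟨(r x) * c - d - 2 * e, by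
            push_cast at he
            rw [pow_succ (2 : ℤ) (b + 1)] at he
            linear_combination (r x) * hc - hd - he⟩
    have hcard : Nat.card G = 2 ^ (b + 3) := by
      rw [← U.card_mul_index, hindex, hU, Nat.card_zpowers, ha, ← pow_succ]
    refine ⟨rfl, hcard, ?_⟩
    have hncomm : ∃ u v : G, u * v ≠ v * u := by
      by_contra h
      push Not at h
      exact hna ⟨⟨h⟩⟩
    obtain ⟨a, t, hoa, hta, hcases⟩ := H35.cyclic_maximal_two (b + 3) (by omega) hcard U
      (hU ▸ inferInstance) hindex hncomm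
    rw [show b + 3 - 1 = b + 2 by omega] at hoa
    rw [show b + 3 - 2 = b + 1 by omega] at hcases
    have hai : (zpowers a).index = 2 := by
      have h := (zpowers a).card_mul_index
      rw [Nat.card_zpowers, hoa, hcard, pow_succ 2 (b + 2)] at h
      exact Nat.eq_of_mul_eq_mul_left (pow_pos two_pos _) h
    rcases hcases with ⟨h2, hi⟩ | ⟨h2, hi⟩ | ⟨hb, -, hi⟩ | ⟨hb, h2, hi⟩
    · exact Or.inl ⟨_, H6.nonempty_equiv_dihedral (n := 2 ^ (b + 2)) (by positivity) hoa
        (by rw [← pow_two]; exact h2) hi hta (by rw [hcard, ← pow_succ'])⟩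
    · exact Or.inr (Or.inl ⟨_, H6.nonempty_equiv_quaternion (n := 2 ^ (b + 1)) (by positivity)
        (by rw [hoa, ← pow_succ']) (by rw [← pow_two]; exact h2) hi hta
        (by rw [hcard]; ring)⟩)
    · -- the modular group
      exfalso
      obtain ⟨c, hc : a ^ c = g ^ 2⟩ : g ^ 2 ∈ zpowers a := sq_mem_of_index_two hai g
      obtain ⟨d, rfl⟩ : (2 : ℤ) ∣ c := by
        rcases Int.even_or_odd c with h | ⟨d, rfl⟩
        · exact h.two_dvd
        · exfalso
          have h1 : (g ^ 2) ^ 2 ^ (b + 1) = 1 := by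
            rw [← pow_mul, ← pow_succ', ← ha, pow_orderOf_eq_one]
          rw [← hc, ← zpow_natCast, ← zpow_mul, ← orderOf_dvd_iff_zpow_eq_one, hoa] at h1
          push_cast at h1
          rw [mul_comm, pow_succ (2 : ℤ) (b + 1)] at h1
          have h3 := (mul_dvd_mul_iff_left (pow_ne_zero _ two_ne_zero)).1 h1
          omega
      have hta2 : Commute t (g ^ 2) := by
        have h1 : t * g ^ 2 * t⁻¹ = g ^ 2 := by
          rw [← hc, ← conj_zpow, hi, ← zpow_natCast, ← zpow_mul, zpow_eq_zpow_iff_modEq,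
            Int.modEq_iff_dvd, hoa]
          push_cast
          exact ⟨-d, by ring⟩
        exact mul_inv_eq_iff_eq_mul.1 h1
      have hMU : ∀ y, Commute y (g ^ 2) → y ∈ U := fun y hy => hB (by omega) y (by
        have := (hM y).1 (mem_centralizer_iff.2 (by
          rintro _ ⟨i, rfl⟩
          exact (hy.zpow_right i).eq.symm))
        exact_mod_cast this)
      have h2a : Commute a (g ^ 2) := hc ▸ (Commute.self_zpow a _)
      have htU := hMU t hta2
      have haU := hMU a h2a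
      obtain ⟨i, rfl⟩ := htU
      obtain ⟨j, rfl⟩ := haU
      rw [((Commute.refl g).zpow_zpow i j).eq, mul_inv_cancel_right, ← zpow_natCast] at hi
      have h3 : (g ^ j) ^ (1 : ℤ) = (g ^ j) ^ ((1 + 2 ^ (b + 1) : ℕ) : ℤ) := by
        rw [zpow_one]; exact hi
      rw [zpow_eq_zpow_iff_modEq, Int.modEq_iff_dvd, hoa] at h3
      push_cast at h3
      rw [pow_succ (2 : ℤ) (b + 1), add_sub_cancel_left] at h3
      obtain ⟨c', hc'⟩ := h3
      have h4 : (2 : ℤ) * c' = 1 := mul_left_cancel₀ (pow_ne_zero (b + 1) (two_ne_zero (α := ℤ)))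
        (by linear_combination -hc')
      omega
    · refine Or.inr (Or.inr ⟨b + 2, by omega, hcard, a, t, hoa, orderOf_eq_prime h2
        (fun h => hta (h ▸ one_mem _)), ?_⟩)
      rw [show b + 2 - 1 = b + 1 by omega]; exact hi

end Cfsg.Agent.H83
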