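import Cfsg.Prelude.Def_CaseTheorems
import Cfsg.Agent.H24.ExtraspecialIso

/-!
Extraspecial `2`-groups are classified by order and rank.
-/

set_option autoImplicit false

open Subgroup
open scoped commutatorElement
open Cfsg.Agent.H24

namespace Cfsg.Agent.H83

universe u v

variable {E : Type*} [Group E] [Finite E]

/-- An elementary abelian subgroup of an extraspecial group of order `2 ^ (2 n + 1)` has order at
most `2 ^ (n + 1)`. -/
theorem pRankLE_succ_of_extraspecial (h : Cfsg.IsExtraspecial 2 E) {n : ℕ}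
    (hn : Nat.card E = 2 ^ (2 * n + 1)) : Cfsg.PRankLE 2 (n + 1) E := by
  intro A hA _
  set B := A ⊔ center E with hB
  have hBB : B ≤ centralizer (B : Set E) := by
    rw [hB]
    refine sup_le (fun x hx => ?_) (center_le_centralizer _)
    rw [mem_centralizer_iff]
    intro y hy
    obtain ⟨a, ha, c, hc, rfl⟩ := mem_sup_of_normal_right.1 hy
    have h1 : a * x = x * a := congrArg Subtype.val (hA.is_comm.comm (⟨a, ha⟩ : A) ⟨x, hx⟩)
    rw [mul_assoc, (mem_center_iff.1 hc x).symm, ← mul_assoc, h1, mul_assoc]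
  have h1 := espec_card_mul_centralizer h (le_sup_right : center E ≤ B)
  have h2 := Nat.mul_le_mul_left (Nat.card B) (Subgroup.card_le_of_le hBB)
  rw [h1, hn] at h2
  have h3 : Nat.card A ≤ Nat.card B := Subgroup.card_le_of_le le_sup_left
  have h4 : Nat.card B * Nat.card B ≤ 2 ^ (n + 1) * 2 ^ (n + 1) := h2.trans (by
    rw [← pow_add, ← pow_succ']; exact Nat.pow_le_pow_right two_pos (by omega))
  exact h3.trans (Nat.mul_self_le_mul_self_iff.1 h4)

/-- Passing to the centraliser of a dihedral pair lowers the rank by one. -/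
theorem pRankLE_split (h : Cfsg.IsExtraspecial 2 E) {a b : E} (hab : ⁅a, b⁆ ≠ 1) (ha : a ^ 2 = 1)
    (hb : b ^ 2 = 1) (k : ℕ) :
    Cfsg.PRankLE 2 k (centralizer (closure ({a, b} : Set E) : Set E)) ↔
      Cfsg.PRankLE 2 (k + 1) E := by
  obtain ⟨hZD, -, -, -, hcard, -⟩ := espec_split h hab
  set D := closure ({a, b} : Set E) with hD
  set C := centralizer (D : Set E) with hC
  haveI hCn : C.Normal := Subgroup.Normal.of_commutator_le E
    (h.1.2.2.le.trans (center_le_centralizer _))
  have haD : a ∈ D := subset_closure (Set.mem_insert _ _)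
  have hbD : b ∈ D := subset_closure (Set.mem_insert_of_mem _ rfl)
  have haC : ∀ c ∈ C, Commute c a := fun c hc => (mem_centralizer_iff.1 hc a haD).symm
  have hbC : ∀ c ∈ C, Commute c b := fun c hc => (mem_centralizer_iff.1 hc b hbD).symm
  have haC' : a ∉ C := fun hc => hab (commutatorElement_eq_one_iff_mul_comm.2 (hbC a hc).eq)
  -- adjoining a commuting involution
  have hext : ∀ (A : Subgroup E) (x : E), IsMulCommutative A → (∀ y ∈ A, y ^ 2 = 1) →
      x ^ 2 = 1 → x ∉ A → (∀ y ∈ A, Commute y x) →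
      IsMulCommutative (A ⊔ zpowers x : Subgroup E) ∧
        (∀ y ∈ A ⊔ zpowers x, y ^ 2 = 1) ∧
        2 * Nat.card A ≤ Nat.card (A ⊔ zpowers x : Subgroup E) := by
    intro A x hA hA2 hx hxA hcom
    have hcen : x ∈ centralizer (A : Set E) := fun y hy => (hcom y hy).eq
    refine ⟨isMulCommutative_sup_zpowers hA hcen, ?_, ?_⟩
    · have hB := isMulCommutative_sup_zpowers hA hcen
      let S : Subgroup E :=
        { carrier := {y | y ∈ A ⊔ zpowers x ∧ y ^ 2 = 1}
          one_mem' := ⟨one_mem _, one_pow _⟩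
          mul_mem' := fun {u v} hu hv => ⟨mul_mem hu.1 hv.1, by
            have h1 : Commute u v := congrArg Subtype.val
              (hB.is_comm.comm (⟨u, hu.1⟩ : (A ⊔ zpowers x : Subgroup E)) ⟨v, hv.1⟩)
            rw [h1.mul_pow, hu.2, hv.2, one_mul]⟩
          inv_mem' := fun {u} hu => ⟨inv_mem hu.1, by rw [inv_pow, hu.2, inv_one]⟩ }
      have hle : A ⊔ zpowers x ≤ S := sup_le (fun y hy => ⟨mem_sup_left hy, hA2 y hy⟩)
        (zpowers_le.2 ⟨mem_sup_right (mem_zpowers x), hx⟩)
      exact fun y hy => (hle hy).2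
    · obtain ⟨q, hq⟩ := card_dvd_of_le (le_sup_left : A ≤ A ⊔ zpowers x)
      rw [hq, mul_comm 2]
      refine Nat.mul_le_mul_left _ ?_
      by_contra hlt
      have h0 : 0 < q := by
        rcases Nat.eq_zero_or_pos q with rfl | h0
        · rw [mul_zero] at hq; exact absurd hq Nat.card_pos.ne'
        · exact h0
      rw [show q = 1 by omega, mul_one] at hq
      exact hxA ((Subgroup.eq_of_le_of_card_ge le_sup_left hq.le).ge
        (mem_sup_right (mem_zpowers x)))
  constructor
  · -- from `C` to `E`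
    intro hk W hW hW2
    set W₀ := W ⊓ C with hW₀
    have hW₀c : IsMulCommutative W₀ := ⟨⟨fun u v => Subtype.ext
      (congrArg Subtype.val (hW.is_comm.comm (⟨u, u.2.1⟩ : W) ⟨v, v.2.1⟩) :)⟩⟩
    have hbound : ∀ U : Subgroup E, U ≤ C → IsMulCommutative U → (∀ u ∈ U, u ^ 2 = 1) →
        Nat.card U ≤ 2 ^ k := by
      intro U hU hUc hU2
      have := hk (U.subgroupOf C) ⟨⟨fun u v => Subtype.ext (Subtype.ext
        (congrArg Subtype.val (hUc.is_comm.comm (⟨u, u.2⟩ : U) ⟨v, v.2⟩) :))⟩⟩
        fun u hu => Subtype.ext (hU2 _ hu)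
      rwa [Nat.card_congr (subgroupOfEquivOfLe hU).toEquiv] at this
    have h4 : C.relIndex (W ⊔ C) ∣ 4 := by
      have h1 : C.index = 4 := by
        have := C.card_mul_index
        rw [← hcard] at this
        exact Nat.eq_of_mul_eq_mul_left Nat.card_pos (this.trans (mul_comm _ _))
      exact h1 ▸ relIndex_dvd_index_of_normal C (W ⊔ C)
    rw [relIndex_sup_right] at h4
    have hcW : Nat.card W = Nat.card W₀ * C.relIndex W := by
      rw [← card_mul_relIndex (inf_le_left : W₀ ≤ W), hW₀, inf_relIndex_left]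
    by_cases h2 : C.relIndex W ≤ 2
    · rw [hcW, pow_succ]
      exact Nat.mul_le_mul (hbound _ inf_le_right hW₀c fun u hu => hW2 u hu.1) h2
    have h4' : C.relIndex W = 4 := by
      have h5 := Nat.le_of_dvd (by norm_num) h4
      obtain ⟨c, hc⟩ := h4
      interval_cases C.relIndex W <;> omega
    have htop : W ⊔ C = ⊤ := by
      refine Subgroup.eq_top_of_le_card _ ?_
      rw [← card_mul_relIndex (le_sup_right : C ≤ W ⊔ C), relIndex_sup_right, h4', ← hcard]
      omega
    have hdec : ∀ g : E, ∃ c ∈ C, g * c ∈ W := by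
      intro g
      obtain ⟨w, hw, c, hc, rfl⟩ := mem_sup_of_normal_right.1 (htop.ge (mem_top g))
      exact ⟨c⁻¹, inv_mem hc, by rwa [mul_inv_cancel_right]⟩
    obtain ⟨c₁, hc₁, hw₁⟩ := hdec a
    obtain ⟨c₂, hc₂, hw₂⟩ := hdec b
    have hWc : ∀ u ∈ W, ∀ v ∈ W, Commute u v := fun u hu v hv =>
      (congrArg Subtype.val (hW.is_comm.comm (⟨u, hu⟩ : W) ⟨v, hv⟩) :)
    have hsq : c₁ ^ 2 = 1 := by
      have := hW2 _ hw₁
      rwa [(haC c₁ hc₁).symm.mul_pow, ha, one_mul] at this
    have hcom : ∀ y ∈ W₀, Commute y c₁ := by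
      intro y hy
      have := (haC y hy.2).inv_right.mul_right (hWc y hy.1 _ hw₁)
      rwa [inv_mul_cancel_left] at this
    have hc₁W : c₁ ∉ W₀ := by
      intro hc
      have h1 : Commute c₁ c₂ := by
        have := (hbC c₁ hc₁).inv_right.mul_right (hWc c₁ hc.1 _ hw₂)
        rwa [inv_mul_cancel_left] at this
      have h2 : a ∈ W := by
        have := mul_mem hw₁ (inv_mem hc.1)
        rwa [mul_inv_cancel_right] at this
      have h3 : Commute a b := by
        have := (hWc a h2 _ hw₂).mul_right ((haC c₂ hc₂).symm.inv_right)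
        rwa [mul_inv_cancel_right] at this
      exact hab (commutatorElement_eq_one_iff_mul_comm.2 h3.eq)
    obtain ⟨e1, e2, e3⟩ := hext W₀ c₁ hW₀c (fun u hu => hW2 u hu.1) hsq hc₁W hcom
    have := e3.trans (hbound _ (sup_le inf_le_right (zpowers_le.2 hc₁)) e1 e2)
    rw [hcW, h4', pow_succ]
    omega
  · -- from `E` to `C`
    intro hk U hU hU2
    set A := U.map C.subtype with hA
    haveI hAc : IsMulCommutative A := by rw [hA]; infer_instance
    have hA2 : ∀ y ∈ A, y ^ 2 = 1 := by
      rintro _ ⟨y, hy, rfl⟩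
      rw [← map_pow, hU2 y hy, map_one]
    have hAC : A ≤ C := map_subtype_le U
    obtain ⟨e1, e2, e3⟩ := hext A a hAc hA2 ha (fun h => haC' (hAC h))
      fun y hy => haC y (hAC hy)
    have h1 := e3.trans (hk _ e1 e2)
    rw [card_map_of_injective C.subtype_injective, pow_succ] at h1
    omega

/-- In order eight, the rank tells the dihedral kind from the quaternion kind. -/
theorem exists_dihedral_pair_iff (h : Cfsg.IsExtraspecial 2 E) (h8 : Nat.card E = 2 ^ 3) :
    (∃ a b : E, ⁅a, b⁆ ≠ 1 ∧ a ^ 2 = 1 ∧ b ^ 2 = 1) ↔ ¬ Cfsg.PRankLE 2 1 E := by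
  constructor
  · rintro ⟨a, b, hab, ha, hb⟩ hk
    have h0 := (pRankLE_split h hab ha hb 0).2 hk
    set C := centralizer (closure ({a, b} : Set E) : Set E)
    have hZC : center E ≤ C := center_le_centralizer _
    haveI : IsMulCommutative ((center E).subgroupOf C) := ⟨⟨fun u v =>
      Subtype.ext (Subtype.ext (center_comm u.2 ((v.1 : C) : E)).symm)⟩⟩
    have h1 := h0 ((center E).subgroupOf C) inferInstance fun u hu => Subtype.ext
      (pow_eq_one_of_card_eq h.2 (show (u : E) ∈ center E from hu))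
    rw [Nat.card_congr (subgroupOfEquivOfLe hZC).toEquiv, h.2] at h1
    omega
  · intro hk
    by_contra hno
    obtain ⟨a, b, hab, hc⟩ := extraspecial_eight_cases h
    rcases hc with hc | hc
    · exact hno ⟨a, b, hab, hc⟩
    obtain ⟨z, hz, hz1⟩ := espec_exists_center h
    refine hk fun A hA hA2 => ?_
    rw [pow_one, ← h.2]
    refine Subgroup.card_le_of_le fun u hu => ?_
    by_contra huZ
    obtain ⟨v, hv⟩ := espec_exists_comm_eq h huZ hz
    have hz2 : z ^ 2 = 1 := pow_eq_one_of_card_eq h.2 hz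
    have hu2 := hA2 u hu
    by_cases hv2 : v ^ 2 = 1
    · exact hno ⟨u, v, hv ▸ hz1, hu2, hv2⟩
    · have hv' : v ^ 2 = z := by
        have hmem : v ^ 2 ∈ zpowers z :=
          (zpowers_eq_of_card_prime h.2 hz hz1).symm ▸ espec_pow_mem h v
        obtain ⟨i, hi⟩ := mem_zpowers_iff.mp hmem
        rcases Int.even_or_odd i with ⟨m, rfl⟩ | ⟨m, rfl⟩
        · exfalso; apply hv2; rw [← hi, ← two_mul, zpow_mul, zpow_ofNat, hz2, one_zpow]
        · rw [← hi, zpow_add, zpow_mul, zpow_ofNat, hz2, one_zpow, one_mul, zpow_one]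
      have hvu : ⁅v, u⁆ = z := by
        rw [← commutatorElement_inv, hv, inv_eq_iff_mul_eq_one, ← sq, hz2]
      refine hno ⟨u, u * v, ?_, hu2, ?_⟩
      · rw [comm_mul_right (hv ▸ hz), commutatorElement_self, one_mul, hv]
        exact hz1
      · rw [mul_pow_of_class_two (hvu ▸ hz), hvu, hu2, hv', Nat.choose_self, pow_one, one_mul,
          ← sq, hz2]

/-- The rank is at least `n`. -/
theorem not_pRankLE_pred : ∀ (n : ℕ) (G : Type u) [Group G] [Finite G],
    Cfsg.IsExtraspecial 2 G → Nat.card G = 2 ^ (2 * n + 1) → 1 ≤ n ∧ ¬ Cfsg.PRankLE 2 (n - 1) G := by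
  intro n
  induction n using Nat.strong_induction_on with
  | _ n ih =>
    intro G _ _ h hn
    obtain ⟨m, hm, hcard⟩ := espec_card h
    obtain rfl : n = m := by
      have := Nat.pow_right_injective (le_refl 2) (hn.symm.trans hcard)
      omega
    refine ⟨hm, fun hk => ?_⟩
    rcases Nat.lt_or_ge n 2 with h2 | h2
    · obtain ⟨z, hz, hz1⟩ := espec_exists_center h
      have h1 := hk (center G) inferInstance fun u hu => pow_eq_one_of_card_eq h.2 hu
      rw [h.2, show n - 1 = 0 by omega] at h1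
      omega
    · obtain ⟨a, b, hab, ha, hb⟩ := exists_dihedral_pair h (by
        rw [hn, show (32 : ℕ) = 2 ^ 5 from rfl]
        exact Nat.pow_le_pow_right two_pos (by omega))
      obtain ⟨-, hA, -, -, hc, he⟩ := espec_split h hab
      have hC : Nat.card (centralizer (closure ({a, b} : Set G) : Set G)) = 2 ^ (2 * (n - 1) + 1) := by
        apply Nat.eq_of_mul_eq_mul_left (pow_pos two_pos 2)
        rw [hc, hn, ← pow_add]; congr 1; omega
      have hne : closure ({a, b} : Set G) ≠ ⊤ := fun e => by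
        rw [e, card_top, hn] at hA
        have := Nat.pow_right_injective (le_refl 2) hA
        omega
      refine (ih (n - 1) (by omega) _ (he hne) hC).2 ((pRankLE_split h hab ha hb (n - 1 - 1)).2 ?_)
      rw [show n - 1 - 1 + 1 = n - 1 by omega]
      exact hk

/-- Extraspecial `2`-groups of the same order and rank are isomorphic. -/
theorem iso_of_same_rank : ∀ (n : ℕ) (A : Type u) (B : Type v) [Group A] [Group B] [Finite A]
    [Finite B], Cfsg.IsExtraspecial 2 A → Cfsg.IsExtraspecial 2 B → Nat.card A = 2 ^ (2 * n + 1) →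
    Nat.card B = Nat.card A → (∀ k, Cfsg.PRankLE 2 k A ↔ Cfsg.PRankLE 2 k B) →
    Nonempty (A ≃* B) := by
  intro n
  induction n using Nat.strong_induction_on with
  | _ n ih =>
    intro A B _ _ _ _ hA hB hn hBA hk
    obtain ⟨hn1, -⟩ := not_pRankLE_pred n A hA hn
    rcases Nat.lt_or_ge n 2 with h2 | h2
    · obtain rfl : n = 1 := by omega
      have hB8 : Nat.card B = 2 ^ 3 := hBA.trans hn
      by_cases hd : Cfsg.PRankLE 2 1 A
      · have hdA := (not_congr (exists_dihedral_pair_iff hA hn)).2 (not_not.2 hd)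
        have hdB := (not_congr (exists_dihedral_pair_iff hB hB8)).2 (not_not.2 ((hk 1).1 hd))
        obtain ⟨a, b, hab, hc⟩ := extraspecial_eight_cases hA
        obtain ⟨a', b', hab', hc'⟩ := extraspecial_eight_cases hB
        exact iso_of_order_eight hA hB hBA.symm hn hab hab' (.inr
          ⟨hc.resolve_left fun h => hdA ⟨a, b, hab, h⟩,
            hc'.resolve_left fun h => hdB ⟨a', b', hab', h⟩⟩)
      · obtain ⟨a, b, hab, hc⟩ := (exists_dihedral_pair_iff hA hn).2 hd
        obtain ⟨a', b', hab', hc'⟩ :=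
          (exists_dihedral_pair_iff hB hB8).2 (fun h => hd ((hk 1).2 h))
        exact iso_of_order_eight hA hB hBA.symm hn hab hab' (.inl ⟨hc, hc'⟩)
    · have h32 : 32 ≤ Nat.card A := by
        rw [hn, show (32 : ℕ) = 2 ^ 5 from rfl]
        exact Nat.pow_le_pow_right two_pos (by omega)
      obtain ⟨a, b, hab, ha, hb⟩ := exists_dihedral_pair hA h32
      obtain ⟨a', b', hab', ha', hb'⟩ := exists_dihedral_pair hB (hBA ▸ h32)
      obtain ⟨-, hD, -, -, hc, he⟩ := espec_split hA hab
      obtain ⟨-, hD', -, -, hc', he'⟩ := espec_split hB hab'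
      have t : closure ({a, b} : Set A) ≠ ⊤ := fun e => by
        rw [e, card_top] at hD; omega
      have t' : closure ({a', b'} : Set B) ≠ ⊤ := fun e => by
        rw [e, card_top, hBA] at hD'; omega
      have hC : Nat.card (centralizer (closure ({a, b} : Set A) : Set A)) = 2 ^ (2 * (n - 1) + 1) := by
        apply Nat.eq_of_mul_eq_mul_left (pow_pos two_pos 2)
        rw [hc, hn, ← pow_add]; congr 1; omega
      refine iso_of_dihedral_split hA hB hBA.symm hab hab' ha hb ha' hb'
        (ih (n - 1) (by omega) _ _ (he t) (he' t') hC ?_ fun k => ?_)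
      · exact Nat.eq_of_mul_eq_mul_left (pow_pos two_pos 2) (hc'.trans (hBA.trans hc.symm))
      · rw [pRankLE_split hA hab ha hb, pRankLE_split hB hab' ha' hb']
        exact hk (k + 1)

end Cfsg.Agent.H83
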