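import Cfsg.Agent.H19.Frattini
import Mathlib

/-!
A Chevalley–Warning type bound: if the squares of a finite 2-group lie in a central elementary
subgroup `E`, then `|G| |Z(G)|` is at most `(|E| · #{x | x² = 1})²`.
-/

set_option autoImplicit false

namespace Cfsg.Agent.H83

variable {G : Type*} [Group G] [Finite G]

/-- The number of elements squaring into `E'`. -/
noncomputable def sqCount (E' : Subgroup G) : ℕ := Nat.card {x : G // x * x ∈ E'}

theorem mem_sup_zpowers_iff {E X : Subgroup G} (hEc : E ≤ Subgroup.center G)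
    (hE2 : ∀ e ∈ E, e * e = 1) (hX : X ≤ E) {a : G} (ha : a ∈ E) {x : G} :
    x ∈ X ⊔ Subgroup.zpowers a ↔ x ∈ X ∨ x * a ∈ X := by
  haveI : X.Normal := ⟨fun y hy g => by
    rw [Subgroup.mem_center_iff.1 (hEc (hX hy)) g, mul_inv_cancel_right]; exact hy⟩
  constructor
  · intro hx
    obtain ⟨y, hy, e, he, rfl⟩ := Subgroup.mem_sup_of_normal_left.1 hx
    obtain ⟨m, rfl⟩ := Subgroup.mem_zpowers_iff.1 he
    rcases Int.even_or_odd m with ⟨i, rfl⟩ | ⟨i, rfl⟩
    · left
      rw [← two_mul, zpow_mul, zpow_two, hE2 a ha, one_zpow, mul_one]; exact hy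
    · right
      rw [zpow_add_one, zpow_mul, zpow_two, hE2 a ha, one_zpow, one_mul, mul_assoc, hE2 a ha, mul_one]
      exact hy
  · rintro (h | h)
    · exact Subgroup.mem_sup_left h
    · have := Subgroup.mul_mem _ (Subgroup.mem_sup_left h)
        (Subgroup.mem_sup_right (Subgroup.mem_zpowers a) : a ∈ X ⊔ Subgroup.zpowers a)
      rwa [mul_assoc, hE2 a ha, mul_one] at this

/-- The signed count over a hyperplane of `E` is divisible by a large power of 2. -/
theorem two_pow_dvd_hyperplane (hG : IsPGroup 2 G) (E : Subgroup G) (hEc : E ≤ Subgroup.center G)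
    (hE2 : ∀ e ∈ E, e * e = 1) (hsq : ∀ x, x * x ∈ E) (H : Subgroup G) (hH : H ≤ E)
    (hH2 : H.relIndex E = 2) {k z : ℕ} (hk : Nat.card G = 2 ^ k)
    (hz : Nat.card (Subgroup.center G) = 2 ^ z) :
    2 ^ ((k + z + 1) / 2 - 1) ∣ sqCount H := by
  classical
  haveI : Fact (Nat.Prime 2) := ⟨Nat.prime_two⟩
  haveI : E.Normal := ⟨fun y hy g => by
    rw [Subgroup.mem_center_iff.1 (hEc hy) g, mul_inv_cancel_right]; exact hy⟩
  have hcen : ∀ a ∈ E, ∀ g : G, g * a = a * g := fun a ha g => Subgroup.mem_center_iff.1 (hEc ha) g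
  have hiff : ∀ a ∈ E, ∀ b ∈ E, (a * b ∈ H ↔ (a ∈ H ↔ b ∈ H)) := fun a ha b hb => by
    exact Subgroup.mul_mem_iff_of_index_two (H := H.subgroupOf E) hH2 (a := ⟨a, ha⟩) (b := ⟨b, hb⟩)
  let ε : G → ℤ := fun a => if a ∈ H then 1 else -1
  have hε : ∀ a ∈ E, ∀ b ∈ E, ε (a * b) = ε a * ε b := fun a ha b hb => by
    have h := hiff a ha b hb
    by_cases h1 : a ∈ H <;> by_cases h2 : b ∈ H <;> simp [ε, h1, h2, h]
  have hε1 : ∀ a, ε a * ε a = 1 := fun a => by by_cases h : a ∈ H <;> simp [ε, h]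
  let w : G → G → G := fun x u => u⁻¹ * x⁻¹ * u * x
  have hw : ∀ x u, w x u ∈ E := by
    intro x u
    have hc : ∀ a b : G ⧸ E, a * b = b * a := by
      intro a b
      have h2 : ∀ c : G ⧸ E, c * c = 1 := fun c => by
        obtain ⟨g, rfl⟩ := QuotientGroup.mk_surjective c
        exact (QuotientGroup.eq_one_iff _).2 (hsq g)
      rw [← inv_eq_of_mul_eq_one_right (h2 (a * b)), mul_inv_rev, inv_eq_of_mul_eq_one_right (h2 b),
        inv_eq_of_mul_eq_one_right (h2 a)]
    rw [← QuotientGroup.eq_one_iff]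
    show ((u⁻¹ * x⁻¹ * u * x : G) : G ⧸ E) = 1
    rw [QuotientGroup.mk_mul, QuotientGroup.mk_mul, QuotientGroup.mk_mul, mul_assoc _ (u : G ⧸ E),
      hc (u : G ⧸ E), QuotientGroup.mk_inv, QuotientGroup.mk_inv]
    group
  let χ : G → ℤ := fun x => ε (x * x)
  have hχ : ∀ x u, χ x * χ (x * u) = χ u * ε (w x u) := by
    intro x u
    have e : x * u * (x * u) = x * x * (u * u * w x u) := by
      calc x * u * (x * u) = x * x * (u * (u⁻¹ * (x⁻¹ * u * x)) * u) := by group
        _ = x * x * (u * (w x u * u)) := by simp only [w]; group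
        _ = x * x * (u * u * w x u) := by rw [← hcen _ (hw x u) u]; group
    show χ x * ε (x * u * (x * u)) = _
    rw [e, hε _ (hsq x) _ (E.mul_mem (hsq u) (hw x u)), hε _ (hsq u) _ (hw x u), ← mul_assoc]
    show χ x * χ x * (χ u * ε (w x u)) = _
    rw [show χ x * χ x = 1 from hε1 _, one_mul]
  have hwl : ∀ x y u, w (x * y) u = w y u * w x u := by
    intro x y u
    calc w (x * y) u = u⁻¹ * y⁻¹ * (u * w x u * y) := by simp only [w]; group
      _ = u⁻¹ * y⁻¹ * (u * (y * w x u)) := by rw [mul_assoc u, ← hcen _ (hw x u) y]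
      _ = w y u * w x u := by simp only [w]; group
  have hwr : ∀ x u v, w x (u * v) = w x v * w x u := by
    intro x u v
    calc w x (u * v) = v⁻¹ * w x u * x⁻¹ * v * x := by simp only [w]; group
      _ = w x u * v⁻¹ * x⁻¹ * v * x := by rw [hcen _ (hw x u) v⁻¹]
      _ = w x u * w x v := by simp only [w]; group
      _ = w x v * w x u := hcen _ (hw x v) _
  let R : Subgroup G :=
    { carrier := {u | ∀ x, w x u ∈ H}
      one_mem' := fun x => by simp [w, H.one_mem]
      mul_mem' := fun {u v} hu hv x => by rw [hwr]; exact H.mul_mem (hv x) (hu x)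
      inv_mem' := fun {u} hu x => by
        have h1 := hwr x u u⁻¹
        rw [mul_inv_cancel, show w x 1 = 1 by simp [w]] at h1
        rw [eq_inv_of_mul_eq_one_left h1.symm]
        exact H.inv_mem (hu x) }
  have hRZ : Subgroup.center G ≤ R := fun u hu x => by
    show u⁻¹ * x⁻¹ * u * x ∈ H
    rw [mul_assoc u⁻¹, Subgroup.mem_center_iff.1 hu x⁻¹]
    simpa [mul_assoc] using H.one_mem
  haveI := Fintype.ofFinite G
  have hinner : ∀ u : G, ∑ x : G, ε (w x u) = if u ∈ R then (Nat.card G : ℤ) else 0 := by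
    intro u
    by_cases hu : u ∈ R
    · rw [if_pos hu, Nat.card_eq_fintype_card, Finset.sum_eq_card_nsmul (b := (1 : ℤ))]
      · simp
      · intro x _
        simp [ε, hu x]
    · rw [if_neg hu]
      obtain ⟨y, hy⟩ : ∃ y, w y u ∉ H := by
        by_contra h
        push Not at h
        exact hu h
      have hy' : ε (w y u) = -1 := by simp [ε, hy]
      have e : ∑ x : G, ε (w x u) = ∑ x : G, ε (w (x * y) u) :=
        (Fintype.sum_equiv (Equiv.mulRight y) _ _ (fun x => rfl)).symm
      have e2 : ∑ x : G, ε (w (x * y) u) = -∑ x : G, ε (w x u) := by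
        rw [← Finset.sum_neg_distrib]
        refine Finset.sum_congr rfl fun x _ => ?_
        rw [hwl, hε _ (hw y u) _ (hw x u), hy', neg_one_mul]
      omega
  have hsq2 : (∑ x, χ x) ^ 2 = Nat.card G * ∑ u ∈ Finset.univ.filter (· ∈ R), χ u := by
    calc (∑ x, χ x) ^ 2 = ∑ x, ∑ y, χ x * χ y := by rw [sq, Finset.sum_mul_sum]
      _ = ∑ x, ∑ u, χ x * χ (x * u) :=
          Finset.sum_congr rfl fun x _ => (Fintype.sum_equiv (Equiv.mulLeft x) _ _ (fun u => rfl)).symm
      _ = ∑ u, ∑ x, χ u * ε (w x u) := by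
          rw [Finset.sum_comm]
          exact Finset.sum_congr rfl fun u _ => Finset.sum_congr rfl fun x _ => hχ x u
      _ = ∑ u, if u ∈ R then (Nat.card G : ℤ) * χ u else 0 :=
          Finset.sum_congr rfl fun u _ => by
            rw [← Finset.mul_sum, hinner]
            split <;> ring
      _ = _ := by rw [← Finset.sum_filter, Finset.mul_sum]
  have hS : ∑ x, χ x = 2 * (sqCount H : ℤ) - Nat.card G := by
    have : ∀ x, χ x = 2 * (if x * x ∈ H then (1 : ℤ) else 0) - 1 := fun x => by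
      by_cases h : x * x ∈ H <;> simp [χ, ε, h]
    simp only [this]
    rw [Finset.sum_sub_distrib, ← Finset.mul_sum, Finset.sum_boole, sqCount, Nat.card_eq_fintype_card,
      Fintype.card_subtype, Nat.card_eq_fintype_card]
    simp
  set s := (k + z + 1) / 2 with hs
  have hzk : z ≤ k := by
    have := Subgroup.card_subgroup_dvd_card (Subgroup.center G)
    rw [hz, hk] at this
    exact (Nat.pow_dvd_pow_iff_le_right Nat.one_lt_two).1 this
  have hdvd : (2 : ℤ) ^ s ∣ ∑ x, χ x := by
    by_cases hall : ∀ u ∈ R, χ u = 1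
    · obtain ⟨r, hr⟩ := IsPGroup.iff_card.1 (hG.to_subgroup R)
      have hzr : z ≤ r := by
        have := Subgroup.card_dvd_of_le hRZ
        rw [hz, hr] at this
        exact (Nat.pow_dvd_pow_iff_le_right Nat.one_lt_two).1 this
      have hsum : ∑ u ∈ Finset.univ.filter (· ∈ R), χ u = (2 ^ r : ℕ) := by
        rw [Finset.sum_eq_card_nsmul (b := (1 : ℤ)) (fun u hu => hall u (Finset.mem_filter.1 hu).2),
          ← hr, Nat.card_eq_fintype_card, Fintype.card_subtype]
        simp
      rw [hsum, hk] at hsq2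
      have hn : (∑ x, χ x).natAbs ^ 2 = 2 ^ (k + r) := by
        have h1 : (((∑ x, χ x).natAbs ^ 2 : ℕ) : ℤ) = ((2 ^ (k + r) : ℕ) : ℤ) := by
          push_cast
          rw [sq_abs, hsq2]
          push_cast
          ring
        exact_mod_cast h1
      obtain ⟨t, -, ht⟩ := (Nat.dvd_prime_pow Nat.prime_two).1 (hn ▸ dvd_pow_self _ two_ne_zero)
      rw [ht, ← pow_mul] at hn
      have htt := Nat.pow_right_injective le_rfl hn
      have h1 : ((2 ^ s : ℕ) : ℤ) ∣ ∑ x, χ x := by
        rw [Int.natCast_dvd, ht]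
        exact pow_dvd_pow 2 (by omega)
      simpa using h1
    · push Not at hall
      obtain ⟨v, hv, hv1⟩ := hall
      have hv' : χ v = -1 := by
        have h : χ v = 1 ∨ χ v = -1 := by
          by_cases h : v * v ∈ H <;> simp [χ, ε, h]
        exact h.resolve_left hv1
      have e : ∑ u ∈ Finset.univ.filter (· ∈ R), χ (u * v) = ∑ u ∈ Finset.univ.filter (· ∈ R), χ u :=
        Finset.sum_equiv (Equiv.mulRight v) (fun u => by
          simp only [Finset.mem_filter, Finset.mem_univ, true_and, Equiv.coe_mulRight]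
          exact ⟨fun h => R.mul_mem h hv, fun h => by
            simpa using R.mul_mem h (R.inv_mem hv)⟩) (fun u _ => rfl)
      have hneg : ∀ u ∈ Finset.univ.filter (· ∈ R), χ (u * v) = -χ u := by
        intro u _
        have h1 := hχ u v
        rw [show ε (w u v) = 1 by simp [ε, hv u], mul_one, hv'] at h1
        calc χ (u * v) = χ u * χ u * χ (u * v) := by rw [show χ u * χ u = 1 from hε1 _, one_mul]
          _ = -χ u := by rw [mul_assoc, h1, mul_neg, mul_one]
      rw [Finset.sum_congr rfl hneg, Finset.sum_neg_distrib] at e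
      have h0 : ∑ u ∈ Finset.univ.filter (· ∈ R), χ u = 0 := by omega
      rw [h0, mul_zero] at hsq2
      rw [eq_zero_of_pow_eq_zero hsq2]
      exact dvd_zero _
  have hG2 : (2 : ℤ) ^ s ∣ (Nat.card G : ℤ) := by
    rw [hk]
    push_cast
    exact pow_dvd_pow 2 (by omega)
  have h2 : (2 : ℤ) ^ s ∣ 2 * (sqCount H : ℤ) := by
    have := dvd_add (hS ▸ hdvd) hG2
    simpa using this
  have h3 : 2 ^ s ∣ 2 * sqCount H := by exact_mod_cast h2
  rcases Nat.eq_zero_or_pos s with h0 | h0
  · rw [h0]; simp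
  · rw [show s = (s - 1) + 1 by omega, pow_succ'] at h3
    exact Nat.dvd_of_mul_dvd_mul_left two_pos h3

/-- Divisibility of all square counts. -/
theorem two_pow_dvd_sqCount (hG : IsPGroup 2 G) (E : Subgroup G) (hEc : E ≤ Subgroup.center G)
    (hE2 : ∀ e ∈ E, e * e = 1) (hsq : ∀ x, x * x ∈ E) {k z : ℕ} (hk : Nat.card G = 2 ^ k)
    (hz : Nat.card (Subgroup.center G) = 2 ^ z) (i : ℕ) :
    ∀ E' : Subgroup G, E' ≤ E → E'.relIndex E = 2 ^ i → 2 ^ ((k + z + 1) / 2 - i) ∣ sqCount E' := by
  classical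
  induction i using Nat.strong_induction_on with
  | _ i ih =>
  intro E' hE' hidx
  match i, ih, hidx with
  | 0, _, hidx =>
    have hle : E ≤ E' := Subgroup.relIndex_eq_one.1 hidx
    have : sqCount E' = Nat.card G :=
      Nat.card_congr (Equiv.subtypeUnivEquiv fun x => hle (hsq x))
    rw [this, hk]
    have hzk : z ≤ k := by
      have := Subgroup.card_subgroup_dvd_card (Subgroup.center G)
      rw [hz, hk] at this
      exact (Nat.pow_dvd_pow_iff_le_right Nat.one_lt_two).1 this
    exact pow_dvd_pow 2 (by omega)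
  | 1, _, hidx => exact two_pow_dvd_hyperplane hG E hEc hE2 hsq E' hE' (by simpa using hidx) hk hz
  | i + 2, ih, hidx =>
    have hstep : ∀ X : Subgroup G, X ≤ E → ∀ a ∈ E, a ∉ X →
        (X ⊔ Subgroup.zpowers a).relIndex E * 2 = X.relIndex E := by
      intro X hX a ha haX
      haveI : X.Normal := ⟨fun y hy g => by
        rw [Subgroup.mem_center_iff.1 (hEc (hX hy)) g, mul_inv_cancel_right]; exact hy⟩
      rw [mul_comm, ← H19.relIndex_sup_zpowers X Nat.prime_two (s := a)
        (by rw [sq, hE2 a ha]; exact X.one_mem) haX,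
        Subgroup.relIndex_mul_relIndex _ _ _ le_sup_left (sup_le hX (Subgroup.zpowers_le.2 ha))]
    have hex : ∀ X : Subgroup G, ∀ j : ℕ, X.relIndex E = 2 ^ (j + 1) → ∃ a ∈ E, a ∉ X := by
      intro X j hj
      by_contra h
      push Not at h
      rw [Subgroup.relIndex_eq_one.2 h] at hj
      have := Nat.one_lt_two_pow (show j + 1 ≠ 0 by omega)
      omega
    obtain ⟨a, ha, haX⟩ := hex E' (i + 1) hidx
    have hA := hstep E' hE' a ha haX
    rw [hidx, pow_succ _ (i + 1)] at hA
    have hA' := Nat.eq_of_mul_eq_mul_right two_pos hA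
    set A := E' ⊔ Subgroup.zpowers a with hAdef
    have hAE : A ≤ E := sup_le hE' (Subgroup.zpowers_le.2 ha)
    obtain ⟨b, hb, hbA⟩ := hex A i hA'
    have hab : a * b ∈ E := E.mul_mem ha hb
    have hAiff : ∀ y, y ∈ A ↔ y ∈ E' ∨ y * a ∈ E' := fun y => mem_sup_zpowers_iff hEc hE2 hE' ha
    have hbX : b ∉ E' := fun h => hbA (Subgroup.mem_sup_left h)
    have habX : a * b ∉ E' := fun h => hbA (by
      refine (hAiff b).2 (Or.inr ?_)
      rw [← Subgroup.mem_center_iff.1 (hEc hb) a]; exact h)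
    set B := E' ⊔ Subgroup.zpowers b with hBdef
    set C := E' ⊔ Subgroup.zpowers (a * b) with hCdef
    set D := A ⊔ Subgroup.zpowers b with hDdef
    have hB := hstep E' hE' b hb hbX
    have hC := hstep E' hE' (a * b) hab habX
    have hD := hstep A hAE b hb hbA
    rw [hidx, pow_succ _ (i + 1)] at hB hC
    rw [hA', pow_succ _ i] at hD
    have hB' := Nat.eq_of_mul_eq_mul_right two_pos hB
    have hC' := Nat.eq_of_mul_eq_mul_right two_pos hC
    have hD' := Nat.eq_of_mul_eq_mul_right two_pos hD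
    have dA := ih (i + 1) (by omega) A hAE hA'
    have dB := ih (i + 1) (by omega) B (sup_le hE' (Subgroup.zpowers_le.2 hb)) hB'
    have dC := ih (i + 1) (by omega) C (sup_le hE' (Subgroup.zpowers_le.2 hab)) hC'
    have dD := ih i (by omega) D (sup_le hAE (Subgroup.zpowers_le.2 hb)) hD'
    haveI := Fintype.ofFinite G
    have hcount : ∀ X : Subgroup G, sqCount X = ∑ x : G, if x * x ∈ X then 1 else 0 := fun X => by
      rw [Finset.sum_boole, sqCount, Nat.card_eq_fintype_card, Fintype.card_subtype]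
      rfl
    have key : sqCount A + sqCount B + sqCount C = 2 * sqCount E' + sqCount D := by
      simp only [hcount, Finset.mul_sum, ← Finset.sum_add_distrib]
      refine Finset.sum_congr rfl fun x _ => ?_
      set y := x * x with hy
      have hBiff : y ∈ B ↔ y ∈ E' ∨ y * b ∈ E' := mem_sup_zpowers_iff hEc hE2 hE' hb
      have hCiff : y ∈ C ↔ y ∈ E' ∨ y * (a * b) ∈ E' := mem_sup_zpowers_iff hEc hE2 hE' hab
      have hDiff : y ∈ D ↔ y ∈ A ∨ y * b ∈ A := mem_sup_zpowers_iff hEc hE2 hAE hb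
      rw [hAiff, hAiff] at hDiff
      have hcomm : y * b * a = y * (a * b) := by
        rw [mul_assoc, Subgroup.mem_center_iff.1 (hEc ha) b]
      rw [hcomm] at hDiff
      have i1 : y ∈ E' → ¬ y * a ∈ E' ∧ ¬ y * b ∈ E' ∧ ¬ y * (a * b) ∈ E' := fun h =>
        ⟨fun h' => haX ((E'.mul_mem_cancel_left h).1 h'), fun h' => hbX ((E'.mul_mem_cancel_left h).1 h'),
          fun h' => habX ((E'.mul_mem_cancel_left h).1 h')⟩
      have hinv2 : ∀ e ∈ E, e⁻¹ = e := fun e he => inv_eq_of_mul_eq_one_right (hE2 e he)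
      have i2 : y * a ∈ E' → ¬ y * b ∈ E' ∧ ¬ y * (a * b) ∈ E' := fun h => by
        constructor
        · intro h'
          have := E'.mul_mem (E'.inv_mem h) h'
          rw [mul_inv_rev, hinv2 a ha, mul_assoc, inv_mul_cancel_left] at this
          exact habX this
        · intro h'
          have := E'.mul_mem (E'.inv_mem h) h'
          rw [← mul_assoc y, inv_mul_cancel_left] at this
          exact hbX this
      have i3 : y * b ∈ E' → ¬ y * (a * b) ∈ E' := fun h h' => by
        have := E'.mul_mem (E'.inv_mem h) h'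
        rw [mul_inv_rev, mul_assoc, inv_mul_cancel_left, Subgroup.mem_center_iff.1 (hEc hb) a,
          inv_mul_cancel_left] at this
        exact haX this
      have hAy := hAiff y
      by_cases h0 : y ∈ E'
      · simp [hAy, hBiff, hCiff, hDiff, h0]
      by_cases h1 : y * a ∈ E'
      · simp [hAy, hBiff, hCiff, hDiff, h0, h1, i2 h1]
      by_cases h2 : y * b ∈ E'
      · simp [hAy, hBiff, hCiff, hDiff, h0, h1, h2, i3 h2]
      by_cases h3 : y * (a * b) ∈ E' <;> simp [hAy, hBiff, hCiff, hDiff, h0, h1, h2, h3]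
    set s := (k + z + 1) / 2
    rcases Nat.lt_or_ge (i + 1) s with hlt | hge
    · have h' : 2 ^ (s - (i + 1)) ∣ 2 * sqCount E' := by
        have h1 : 2 ^ (s - (i + 1)) ∣ 2 * sqCount E' + sqCount D := key ▸ dvd_add (dvd_add dA dB) dC
        exact (Nat.dvd_add_left ((pow_dvd_pow 2 (by omega)).trans dD)).1 h1
      rw [show s - (i + 1) = (s - (i + 2)) + 1 by omega, pow_succ'] at h'
      exact Nat.dvd_of_mul_dvd_mul_left two_pos h'
    · rw [show s - (i + 2) = 0 by omega]
      exact one_dvd _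

/-- `|G| |Z(G)| ≤ (|E| |D|)²` where `D = {x | x² = 1}` and all squares lie in the central elementary `E`. -/
theorem card_mul_center_le (hG : IsPGroup 2 G) (E : Subgroup G) (hEc : E ≤ Subgroup.center G)
    (hE2 : ∀ e ∈ E, e * e = 1) (hsq : ∀ x, x * x ∈ E) (D : Subgroup G)
    (hD : ∀ x, x ∈ D ↔ x * x = 1) :
    Nat.card G * Nat.card (Subgroup.center G) ≤ (Nat.card E * Nat.card D) ^ 2 := by
  haveI : Fact (Nat.Prime 2) := ⟨Nat.prime_two⟩
  obtain ⟨k, hk⟩ := IsPGroup.iff_card.1 hG
  obtain ⟨z, hz⟩ := IsPGroup.iff_card.1 (hG.to_subgroup (Subgroup.center G))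
  obtain ⟨m, hm⟩ := IsPGroup.iff_card.1 (hG.to_subgroup E)
  obtain ⟨a, ha⟩ := IsPGroup.iff_card.1 (hG.to_subgroup D)
  have h := two_pow_dvd_sqCount hG E hEc hE2 hsq hk hz m ⊥ bot_le (by rw [Subgroup.relIndex_bot_left, hm])
  have hc : sqCount (⊥ : Subgroup G) = 2 ^ a := by
    rw [← ha]
    exact Nat.card_congr (Equiv.subtypeEquivRight fun x => by rw [Subgroup.mem_bot, hD])
  rw [hc, Nat.pow_dvd_pow_iff_le_right Nat.one_lt_two] at h
  rw [hk, hz, hm, ha, ← pow_add, ← pow_add, ← pow_mul]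
  exact Nat.pow_le_pow_right two_pos (by omega)

end Cfsg.Agent.H83
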