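import Cfsg.Agent.H83.Minimal
import Cfsg.Agent.H83.LocalLemmas
import Cfsg.Agent.H83.SquareBound
import Mathlib

/-! 3-groups acting without fixed points on 2-groups of small rank. -/

set_option autoImplicit false
open scoped commutatorElement

namespace Cfsg.Agent.H83

/-- A group acting freely on the nonidentity elements has order dividing `|Q| - 1`. -/
theorem card_dvd_pred_of_free {B Q : Type*} [Group B] [Group Q] [Finite B] [Finite Q] (φ : B →* MulAut Q)
    (h : ∀ b : B, b ≠ 1 → ∀ x : Q, x ≠ 1 → φ b x ≠ x) : Nat.card B ∣ Nat.card Q - 1 := by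
  classical
  letI : MulAction B {x : Q // x ≠ 1} :=
    { smul := fun b x => ⟨φ b x.1, fun hh => x.2 (by simpa using hh)⟩
      one_smul := fun x => Subtype.ext (show φ 1 x.1 = x.1 by rw [map_one]; rfl)
      mul_smul := fun a b x => Subtype.ext (show φ (a * b) x.1 = φ a (φ b x.1) by rw [map_mul]; rfl) }
  haveI := Fintype.ofFinite Q
  have e1 : Nat.card {x : Q // x ≠ 1} = Nat.card Q - 1 := by
    rw [Nat.card_eq_fintype_card, Nat.card_eq_fintype_card, Fintype.card_subtype_compl,
      Fintype.card_subtype_eq]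
  rw [← e1, Nat.card_congr (MulAction.selfEquivSigmaOrbits B {x : Q // x ≠ 1})]
  haveI := Fintype.ofFinite (Quotient (MulAction.orbitRel B {x : Q // x ≠ 1}))
  rw [Nat.card_sigma]
  refine Finset.dvd_sum fun ω _ => ?_
  have hbot : MulAction.stabilizer B (Quotient.out ω) = ⊥ := (Subgroup.eq_bot_iff_forall _).2 fun b hb => by
    by_contra hb1
    exact h b hb1 _ (Quotient.out ω).2 (congrArg Subtype.val (MulAction.mem_stabilizer_iff.1 hb))
  rw [Nat.card_coe_set_eq, ← MulAction.index_stabilizer, hbot, Subgroup.index_bot]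

variable {G : Type*} [Group G] [Finite G]

/-- A minimal invariant subgroup on which `A` acts nontrivially, with the facts needed about it:
`F = Φ(U)`, the fixed point dichotomy, and the structure of `F`. -/
theorem exists_minimal_invariant (B A P : Subgroup G) (hP : IsPGroup 2 P)
    (hBP : B ≤ Subgroup.normalizer (P : Set G)) (hAB : A ≤ B) (hBc : IsMulCommutative B)
    (hB2 : (Nat.card B).Coprime 2) (hnt : ⁅P, A⁆ ≠ ⊥) :
    ∃ U F : Subgroup G, U ≤ P ∧ F < U ∧ B ≤ Subgroup.normalizer (U : Set G) ∧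
      B ≤ Subgroup.normalizer (F : Set G) ∧ ¬ A ≤ Subgroup.centralizer (U : Set G) ∧
      U ≤ Subgroup.centralizer (F : Set G) ∧ (∀ u ∈ U, u * u ∈ F) ∧ (F.subgroupOf U).Normal ∧
      (∀ b ∈ B, (∀ u ∈ U, ⁅b, u⁆ ∈ F → u ∈ F) ∨ b ∈ Subgroup.centralizer (U : Set G)) ∧
      Cfsg.IsElementaryAbelian 2 F ∧ (F = ⊥ → Cfsg.IsElementaryAbelian 2 U) := by
  classical
  haveI : Fact (Nat.Prime 2) := ⟨Nat.prime_two⟩
  obtain ⟨U, hUP, hUmin⟩ := Finite.exists_le_minimal
    (p := fun U : Subgroup G => U ≤ P ∧ B ≤ Subgroup.normalizer (U : Set G) ∧ ⁅U, A⁆ ≠ ⊥)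
    (a := P) ⟨le_rfl, hBP, hnt⟩
  obtain ⟨-, hBU, hUnt⟩ := hUmin.prop
  have hcB : ∀ a ∈ B, ∀ b ∈ B, a * b = b * a := fun a ha b hb =>
    congrArg Subtype.val (hBc.is_comm.comm ⟨a, ha⟩ ⟨b, hb⟩)
  obtain ⟨-, -, hFlt, hBF, -, hUF, hcomm, hor, hirr, -, -⟩ := minimal_action B A U (hP.to_le hUP) hBU hAB
    (Subgroup.le_normalizer_iff.2 fun b hb a ha => by
      rw [hcB b hb a (hAB ha), mul_inv_cancel_right]; exact ha)
    (hB2.coprime_dvd_left (Subgroup.card_dvd_of_le hAB)) hUnt
    (fun V hV hBV => by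
      by_contra h
      exact hV.not_ge (hUmin.le_of_le ⟨hV.le.trans hUP, hBV, h⟩ hV.le))
  set F := (frattini U).map U.subtype with hF
  have hFU : F ≤ U := hFlt.le
  have hUFn : U ≤ Subgroup.normalizer (F : Set G) :=
    le_normalizer_of_commutator_le hFU hcomm
  have hsq : ∀ u ∈ U, u * u ∈ F := fun u hu => by
    have := Subgroup.mem_map_of_mem U.subtype
      ((H19.commutator_pow_mem_frattini (hP.to_le hUP)).2 ⟨u, hu⟩)
    rw [sq] at this
    exact this
  have hFe : Cfsg.IsElementaryAbelian 2 F := by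
    refine ⟨⟨⟨fun a b => Subtype.ext ((Subgroup.mem_centralizer_iff.1 (hUF (hFU a.2)) b b.2).symm)⟩⟩,
      fun a ha => ?_⟩
    rcases hor with he | ⟨-, hZ, hC⟩
    · exact he.2 a (hFU ha)
    · have e : ⁅U, U⁆ = F := by
        rw [← Subgroup.map_subtype_commutator, hC, ← hZ]
      rw [← e] at ha
      rw [Subgroup.commutator_def] at ha
      induction ha using Subgroup.closure_induction with
      | mem x hx =>
        obtain ⟨a, ha, b, hb, rfl⟩ := hx
        have hc : ⁅a, b⁆ ∈ F := e ▸ Subgroup.commutator_mem_commutator ha hb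
        have h1 : ⁅a * a, b⁆ = 1 := commutatorElement_eq_one_iff_mul_comm.2
          (Subgroup.mem_centralizer_iff.1 (hUF hb) _ (hsq a ha))
        have h2 : ⁅a * a, b⁆ = ⁅a, b⁆ * ⁅a, b⁆ := by
          calc ⁅a * a, b⁆ = a * ⁅a, b⁆ * a⁻¹ * ⁅a, b⁆ := by simp only [commutatorElement_def]; group
            _ = ⁅a, b⁆ * ⁅a, b⁆ := by
              rw [← Subgroup.mem_centralizer_iff.1 (hUF ha) _ hc, mul_inv_cancel_right]
        rw [sq, ← h2, h1]
      | one => exact one_pow 2
      | mul x y hx hy ihx ihy =>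
        have hx' : x ∈ ⁅U, U⁆ := hx
        have hy' : y ∈ ⁅U, U⁆ := hy
        rw [e] at hx' hy'
        have hc : Commute x y := (Subgroup.mem_centralizer_iff.1 (hUF (hFU hy')) x hx')
        rw [hc.mul_pow, ihx, ihy, one_mul]
      | inv x _ ihx => rw [inv_pow, ihx, inv_one]
  refine ⟨U, F, hUP, hFlt, hBU, hBF, fun h => hUnt ?_, hUF, hsq,
    (Subgroup.normal_subgroupOf_iff_le_normalizer hFU).2 hUFn, ?_, hFe, ?_⟩
  · rw [Subgroup.commutator_comm]
    exact Subgroup.commutator_eq_bot_iff_le_centralizer.2 h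
  · intro b hb
    set C := U ⊓ Subgroup.centralizer ({b} : Set G) with hC
    have hBC : B ≤ Subgroup.normalizer (C : Set G) := le_normalizer_inf hBU
      (Subgroup.le_normalizer_iff.2 fun a ha x hx => by
        rw [Subgroup.mem_centralizer_singleton_iff] at hx ⊢
        have hab := hcB a ha b hb
        have hab' : a⁻¹ * b = b * a⁻¹ := hcB _ (B.inv_mem ha) b hb
        calc a * x * a⁻¹ * b = a * x * (a⁻¹ * b) := by group
          _ = a * (x * b) * a⁻¹ := by rw [hab']; group
          _ = (a * b) * x * a⁻¹ := by rw [hx]; group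
          _ = b * (a * x * a⁻¹) := by rw [hab]; group)
    rcases hirr (F ⊔ C) le_sup_left (sup_le hFU inf_le_left) (le_normalizer_sup hBF hBC) with h | h
    · left
      intro u hu hbu
      have hbU : Subgroup.zpowers b ≤ Subgroup.normalizer (U : Set G) := Subgroup.zpowers_le.2 (hBU hb)
      have hbF : Subgroup.zpowers b ≤ Subgroup.normalizer (F : Set G) := Subgroup.zpowers_le.2 (hBF hb)
      haveI : (F.subgroupOf U).Normal := (Subgroup.normal_subgroupOf_iff_le_normalizer hFU).2 hUFn
      set Lf := secAct (V := U) (W := F) hbU hbF with hLf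
      have hz : ∀ z ∈ Subgroup.zpowers b, ⁅z, u⁆ ∈ F := by
        let S : Subgroup (Subgroup.zpowers b : Subgroup G) :=
          { carrier := {z | Lf z ((⟨u, hu⟩ : U) : U ⧸ F.subgroupOf U) = ((⟨u, hu⟩ : U) : U ⧸ F.subgroupOf U)}
            one_mem' := by simp
            mul_mem' := fun {x y} (hx : _ = _) (hy : _ = _) => by
              show Lf (x * y) _ = _
              rw [map_mul, MulAut.mul_apply, hy, hx]
            inv_mem' := fun {x} (hx : _ = _) => by
              show Lf x⁻¹ _ = _
              conv_lhs => rw [← hx]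
              rw [← MulAut.mul_apply, ← map_mul, inv_mul_cancel, map_one, MulAut.one_apply] }
        have hbS : (⟨b, Subgroup.mem_zpowers b⟩ : Subgroup.zpowers b) ∈ S := by
          show Lf _ _ = _
          rw [hLf, secAct_mk, sec_mk_eq, conjRestrict_apply]
          exact hbu
        intro z hz
        obtain ⟨m, rfl⟩ := Subgroup.mem_zpowers_iff.1 hz
        have h1 := S.zpow_mem hbS m
        change Lf _ _ = _ at h1
        rw [hLf, secAct_mk, sec_mk_eq, conjRestrict_apply, Subgroup.coe_zpow] at h1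
        rw [commutatorElement_def]
        exact h1
      have hcop : (Nat.card (Subgroup.zpowers b)).Coprime (Nat.card U) := by
        obtain ⟨k, hk⟩ := IsPGroup.iff_card.1 (hP.to_le hUP)
        rw [hk]
        exact (hB2.coprime_dvd_left (Subgroup.card_dvd_of_le (Subgroup.zpowers_le.2 hb))).pow_right k
      obtain ⟨c, hc, huc⟩ := H20.exists_fixed_mem_coset hcop (Or.inl inferInstance) hFU hbF hu
        (fun a ha => by
          have h1 := hz a ha
          have h2 := (Subgroup.mem_normalizer_iff''.1 (hUFn hu) _).1 h1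
          rw [commutatorElement_def] at h2
          simpa [mul_assoc] using h2)
      have hcF : c ∈ F := h.le (Subgroup.mem_sup_right (show c ∈ C from
        ⟨hc.1, Subgroup.mem_centralizer_singleton_iff.2
          (Subgroup.mem_centralizer_iff.1 hc.2 b (Subgroup.mem_zpowers b)).symm⟩))
      have := F.mul_mem hcF (F.inv_mem huc)
      simpa using this
    · right
      refine Subgroup.mem_centralizer_iff.2 fun u hu => ?_
      have h1 : C.subgroupOf U = ⊤ := by
        refine frattini_nongenerating (Subgroup.map_injective U.subtype_injective ?_)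
        rw [Subgroup.map_sup, Subgroup.map_subgroupOf_eq_of_le inf_le_left, ← MonoidHom.range_eq_map,
          Subgroup.range_subtype, sup_comm]
        exact h
      exact Subgroup.mem_centralizer_singleton_iff.1 (Subgroup.subgroupOf_eq_top.1 h1 hu).2
  · intro hbot
    refine ⟨⟨⟨fun a b => Subtype.ext ?_⟩⟩, fun a ha => ?_⟩
    · have := hcomm (Subgroup.commutator_mem_commutator a.2 b.2)
      rw [hbot, Subgroup.mem_bot] at this
      exact commutatorElement_eq_one_iff_mul_comm.1 this
    · have := hsq a ha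
      rw [hbot, Subgroup.mem_bot] at this
      rw [sq, this]

/-- A 2-group with squares in a central subgroup `F` of order 4 and no involution outside it has order
at most 64. -/
theorem card_le_of_no_outer_involution {U F : Subgroup G} (hU : IsPGroup 2 U) (hFU : F ≤ U)
    (hc : U ≤ Subgroup.centralizer (F : Set G)) (hsq : ∀ u ∈ U, u * u ∈ F)
    (hFe : Cfsg.IsElementaryAbelian 2 F) (hF : Nat.card F = 4)
    (hinv : ∀ u ∈ U, u * u = 1 → u ∈ F) : Nat.card U ≤ 64 := by
  have hZ : F.subgroupOf U ≤ Subgroup.center U := fun a ha => Subgroup.mem_center_iff.2 fun g =>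
    Subtype.ext (Subgroup.mem_centralizer_iff.1 (hc g.2) a ha).symm
  have h := card_mul_center_le hU (F.subgroupOf U) hZ
    (fun e he => Subtype.ext (by rw [Subgroup.coe_mul, ← sq]; exact hFe.2 _ he))
    (fun x => hsq x x.2) (F.subgroupOf U)
    (fun x => ⟨fun hx => Subtype.ext (by rw [Subgroup.coe_mul, ← sq]; exact hFe.2 _ hx),
      fun hx => hinv x x.2 (congrArg Subtype.val hx)⟩)
  rw [Nat.card_congr (Subgroup.subgroupOfEquivOfLe hFU).toEquiv, hF] at h
  have h4 : 4 ≤ Nat.card (Subgroup.center U) := by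
    rw [← hF, ← Nat.card_congr (Subgroup.subgroupOfEquivOfLe hFU).toEquiv]
    exact Subgroup.card_le_of_le hZ
  nlinarith

end Cfsg.Agent.H83
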