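import Cfsg.Agent.H21.FrobeniusStructure

/-!
A Frobenius group `K R` acting coprimely on an abelian group with `C_V(R)` of prime order:
the image of the kernel is abelian.
-/

set_option autoImplicit false

namespace Cfsg.Agent.H83

section

variable {G V : Type*} [Group G] [Finite G] [CommGroup V] (φ : G →* MulAut V)

/-- The product over the orbit of a subgroup is a homomorphism. -/
noncomputable def orbProd (L : Subgroup G) [Fintype L] : V →* V where
  toFun x := ∏ l : L, φ l x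
  map_one' := by simp
  map_mul' x y := by simp [Finset.prod_mul_distrib]

variable (L : Subgroup G) [Fintype L]

omit [Finite G] in
theorem orbProd_apply_mem (x : V) {l : G} (hl : l ∈ L) :
    φ l (orbProd φ L x) = orbProd φ L x := by
  change φ l (∏ m : L, φ m x) = ∏ m : L, φ m x
  rw [map_prod]
  refine Fintype.prod_equiv (Equiv.mulLeft (⟨l, hl⟩ : L)) _ _ fun m => ?_
  rw [Equiv.coe_mulLeft, Subgroup.coe_mul, map_mul]
  rfl

omit [Finite G] in
theorem orbProd_comp_mem (x : V) {l : G} (hl : l ∈ L) :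
    orbProd φ L (φ l x) = orbProd φ L x := by
  change ∏ m : L, φ m (φ l x) = ∏ m : L, φ m x
  refine Fintype.prod_equiv (Equiv.mulRight (⟨l, hl⟩ : L)) _ _ fun m => ?_
  rw [Equiv.coe_mulRight, Subgroup.coe_mul, map_mul]
  rfl

omit [Finite G] in
theorem orbProd_conj (x : V) {g : G} (hg : g ∈ Subgroup.normalizer (L : Set G)) :
    φ g (orbProd φ L x) = orbProd φ L (φ g x) := by
  change φ g (∏ m : L, φ m x) = ∏ m : L, φ m (φ g x)
  rw [map_prod]
  refine Fintype.prod_equiv
    ⟨fun m => ⟨g * m * g⁻¹, (Subgroup.mem_normalizer_iff.1 hg m).1 m.2⟩,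
      fun m => ⟨g⁻¹ * m * g, (Subgroup.mem_normalizer_iff''.1 hg m).1 m.2⟩,
      fun m => Subtype.ext (by simp [mul_assoc]), fun m => Subtype.ext (by simp [mul_assoc])⟩ _ _
    fun m => ?_
  simp [← MulAut.mul_apply, ← map_mul]

/-- The partition identity of a Frobenius group `L R`, on a module. -/
theorem pow_card_mul_orbProd (R : Subgroup G) [Fintype R]
    (hRL : R ≤ Subgroup.normalizer (L : Set G))
    (hfpf : ∀ r ∈ R, r ≠ 1 → ∀ l ∈ L, r * l * r⁻¹ = l → l = 1) (x : V) :
    x ^ Fintype.card L * orbProd φ L (orbProd φ R x) =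
      (∏ l : L, φ l (orbProd φ R (φ (l : G)⁻¹ x))) * orbProd φ L x := by
  classical
  have hterm : ∀ r : R, r ≠ 1 →
      ∏ l : L, φ ((l : G) * r * (l : G)⁻¹) x = orbProd φ L (φ r x) := by
    intro r hr
    let f : L → L := fun l => ⟨(l : G) * r * (l : G)⁻¹ * (r : G)⁻¹, by
      rw [show (l : G) * r * (l : G)⁻¹ * (r : G)⁻¹ = (l : G) * ((r : G) * (l : G)⁻¹ * (r : G)⁻¹) by group]
      exact L.mul_mem l.2 ((Subgroup.mem_normalizer_iff.1 (hRL r.2) _).1 (L.inv_mem l.2))⟩
    have hf : Function.Injective f := by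
      intro a b h
      have h' : (a : G) * r * (a : G)⁻¹ = (b : G) * r * (b : G)⁻¹ :=
        mul_right_cancel (congrArg Subtype.val h)
      refine Subtype.ext (inv_mul_eq_one.1 (hfpf r r.2 (fun e => hr (Subtype.ext e)) _
        (L.mul_mem (L.inv_mem b.2) a.2) ?_)).symm
      calc (r : G) * ((b : G)⁻¹ * a) * (r : G)⁻¹
          = (b : G)⁻¹ * ((b : G) * r * (b : G)⁻¹) * a * (r : G)⁻¹ := by group
        _ = (b : G)⁻¹ * a := by rw [← h']; group
    refine Fintype.prod_bijective f (Finite.injective_iff_bijective.1 hf) _ _ fun l => ?_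
    simp [f, ← MulAut.mul_apply, ← map_mul]
  have h1 : (∏ l : L, φ l (orbProd φ R (φ (l : G)⁻¹ x)))
      = ∏ r : R, ∏ l : L, φ ((l : G) * r * (l : G)⁻¹) x := by
    rw [Finset.prod_comm]
    refine Finset.prod_congr rfl fun l _ => ?_
    change φ l (∏ r : R, φ r (φ (l : G)⁻¹ x)) = _
    rw [map_prod]
    exact Finset.prod_congr rfl fun r _ => by simp [mul_assoc]
  have h2 : orbProd φ L (orbProd φ R x) = ∏ r : R, orbProd φ L (φ r x) := map_prod _ _ _
  rw [h1, h2, ← Finset.mul_prod_erase _ _ (Finset.mem_univ (1 : R)),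
    ← Finset.mul_prod_erase _ (fun r : R => ∏ l : L, φ ((l : G) * r * (l : G)⁻¹) x)
      (Finset.mem_univ (1 : R)),
    Finset.prod_congr rfl fun r hr => hterm r (Finset.ne_of_mem_erase hr)]
  simp only [OneMemClass.coe_one, mul_one, mul_inv_cancel, map_one, MulAut.one_apply,
    Finset.prod_const, Finset.card_univ]
  rw [mul_comm (orbProd φ L x) (∏ r ∈ Finset.univ.erase (1 : R), orbProd φ L (φ r x)), ← mul_assoc]

end

/-- The kernel of a Frobenius group acts as an abelian group if `C_V(R)` is generated by every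
non-trivial one of its elements. -/
theorem kernel_commutes {G V : Type*} [Group G] [Finite G] [CommGroup V] [Finite V]
    (φ : G →* MulAut V) (K R : Subgroup G) [K.Normal] (hnil : Group.IsNilpotent K)
    (hfpf : ∀ r ∈ R, r ≠ 1 → ∀ l ∈ K, r * l * r⁻¹ = l → l = 1)
    (hcop : (Nat.card V).Coprime (Nat.card K)) (w : V) (hwR : ∀ r ∈ R, φ r w = w)
    (hcyc : ∀ x : V, (∀ r ∈ R, φ r x = x) → x ∈ Subgroup.zpowers w)
    (hgen : ∀ x ∈ Subgroup.zpowers w, x ≠ 1 → w ∈ Subgroup.zpowers x) :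
    ∀ a ∈ K, ∀ b ∈ K, φ (a * b) = φ (b * a) := by
  classical
  by_contra hne
  haveI := Fintype.ofFinite G
  -- the preimage of the centre of the image of `K`
  let Z : Subgroup G :=
    { carrier := {z | z ∈ K ∧ ∀ k ∈ K, Commute (φ z) (φ k)}
      one_mem' := ⟨K.one_mem, fun k _ => by rw [map_one]; exact Commute.one_left _⟩
      mul_mem' := fun {a b} ha hb => ⟨K.mul_mem ha.1 hb.1, fun k hk => by
        rw [map_mul]; exact (ha.2 k hk).mul_left (hb.2 k hk)⟩
      inv_mem' := fun {a} ha => ⟨K.inv_mem ha.1, fun k hk => by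
        rw [map_inv]; exact (ha.2 k hk).inv_left⟩ }
  have hZK : Z ≤ K := fun z hz => hz.1
  have hRN : ∀ (g : G) (z : G), z ∈ Z → g * z * g⁻¹ ∈ Z := by
    intro g z hz
    refine ⟨‹K.Normal›.conj_mem z hz.1 g, fun k hk => ?_⟩
    have h := hz.2 (g⁻¹ * k * g) (by simpa using ‹K.Normal›.conj_mem k hk g⁻¹)
    have := h.map (MulAut.conj (φ g)).toMonoidHom
    simpa [MulAut.conj_apply, mul_assoc] using this
  haveI : Z.Normal := ⟨fun z hz g => hRN g z hz⟩
  have hZnt : ∃ z ∈ Z, φ z ≠ 1 := by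
    set Kb := K.map φ
    haveI : Group.IsNilpotent Kb :=
      Group.nilpotent_of_surjective (φ.subgroupMap K) (φ.subgroupMap_surjective K)
    haveI : Nontrivial Kb := by
      rw [Subgroup.nontrivial_iff_ne_bot]
      intro h
      refine hne fun a ha b hb => ?_
      have h1 : ∀ c ∈ K, φ c = 1 := fun c hc =>
        Subgroup.mem_bot.1 (h.le (Subgroup.mem_map_of_mem φ hc))
      rw [h1 _ (K.mul_mem ha hb), h1 _ (K.mul_mem hb ha)]
    obtain ⟨c, hc, hc1⟩ := (Subgroup.bot_or_exists_ne_one _).resolve_left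
      (Group.IsNilpotent.center_ne_bot Kb)
    obtain ⟨z, hz, hzc⟩ := c.2
    refine ⟨z, ⟨hz, fun k hk => ?_⟩, fun h1 => hc1 (Subtype.ext (hzc.symm.trans h1))⟩
    have := congrArg Subtype.val (Subgroup.mem_center_iff.1 hc ⟨φ k, Subgroup.mem_map_of_mem φ hk⟩)
    rw [hzc]
    exact this.symm
  let D : Subgroup V := Subgroup.closure (Set.range fun z : Z => φ z w)
  let F : Subgroup V :=
    { carrier := {x | ∀ z ∈ Z, φ z x = x}
      one_mem' := fun z _ => map_one _
      mul_mem' := fun {a b} ha hb z hz => by rw [map_mul, ha z hz, hb z hz]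
      inv_mem' := fun {a} ha z hz => by rw [map_inv, ha z hz] }
  have hDinv : ∀ z ∈ Z, ∀ d ∈ D, φ z d ∈ D := by
    intro z hz d hd
    induction hd using Subgroup.closure_induction with
    | mem x hx =>
      obtain ⟨z', rfl⟩ := hx
      exact Subgroup.subset_closure ⟨⟨z, hz⟩ * z', by simp⟩
    | one => rw [map_one]; exact D.one_mem
    | mul x y _ _ hx hy => rw [map_mul]; exact D.mul_mem hx hy
    | inv x _ hx => rw [map_inv]; exact D.inv_mem hx
  have hwD : w ∈ D := Subgroup.subset_closure ⟨1, by simp⟩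
  have hcopn : ∀ L : Subgroup G, L ≤ K → (Nat.card V).Coprime (Fintype.card L) := fun L hL => by
    rw [← Nat.card_eq_fintype_card]
    exact hcop.coprime_dvd_right (Subgroup.card_dvd_of_le hL)
  have hpow : ∀ (U : Subgroup V) (L : Subgroup G), L ≤ K → ∀ x, x ^ Fintype.card L ∈ U → x ∈ U := by
    intro U L hL x hx
    obtain ⟨m, hm⟩ := exists_pow_eq_self_of_coprime
      (((hcopn L hL).coprime_dvd_left (orderOf_dvd_natCard x)).symm)
    exact hm ▸ U.pow_mem hx m
  -- `V = F D`
  have htop : ∀ x : V, x ∈ F ⊔ D := by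
    intro x
    refine hpow _ Z hZK x ?_
    have h := pow_card_mul_orbProd φ Z R (Subgroup.normalizer_eq_top (H := Z) ▸ le_top)
      (fun r hr h1 l hl => hfpf r hr h1 l (hZK hl)) x
    rw [← eq_mul_inv_iff_mul_eq] at h
    rw [h]
    refine Subgroup.mul_mem _ (Subgroup.mul_mem _ (Subgroup.prod_mem _ fun l _ => ?_) ?_)
      (Subgroup.inv_mem _ ?_)
    · refine Subgroup.mem_sup_right (hDinv l l.2 _ ?_)
      exact (Subgroup.zpowers_le.2 hwD) (hcyc _ fun r hr => orbProd_apply_mem φ R _ hr)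
    · exact Subgroup.mem_sup_left fun z hz => orbProd_apply_mem φ Z _ hz
    · exact Subgroup.mem_sup_left fun z hz => orbProd_apply_mem φ Z _ hz
  -- `F ∩ C(R) = 1`
  have hFR : ∀ x ∈ F, (∀ r ∈ R, φ r x = x) → x = 1 := by
    intro x hx hxR
    by_contra hx1
    have hwF : w ∈ F := (Subgroup.zpowers_le.2 hx) (hgen x (hcyc x hxR) hx1)
    have hall : ∀ y, y ∈ F := fun y => by
      refine (sup_le le_rfl ((Subgroup.closure_le F).2 ?_)) (htop y)
      rintro _ ⟨z, rfl⟩
      change φ z w ∈ F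
      rw [hwF z z.2]; exact hwF
    obtain ⟨z, hz, hz1⟩ := hZnt
    exact hz1 (MulEquiv.ext fun y => hall y z hz)
  have hFinv : ∀ g : G, ∀ x ∈ F, φ g x ∈ F := by
    intro g x hx z hz
    have := hx (g⁻¹ * z * g) (by simpa using ‹Z.Normal›.conj_mem z hz g⁻¹)
    conv_rhs => rw [← this]
    simp [mul_assoc]
  have hFK : ∀ x ∈ F, ∀ k ∈ K, φ k x = x := by
    intro x hx
    have hR1 : ∀ y ∈ F, orbProd φ R y = 1 := fun y hy => hFR _
      (Subgroup.prod_mem _ fun r _ => hFinv r y hy) fun r hr => orbProd_apply_mem φ R _ hr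
    have h := pow_card_mul_orbProd φ K R (Subgroup.normalizer_eq_top (H := K) ▸ le_top) hfpf x
    rw [hR1 x hx, map_one, mul_one] at h
    rw [Finset.prod_eq_one (fun l _ => by rw [hR1 _ (hFinv _ x hx), map_one]), one_mul] at h
    intro k hk
    let U : Subgroup V :=
      { carrier := {y | φ k y = y}
        one_mem' := map_one _
        mul_mem' := fun {a b} ha hb => by
          change φ k (a * b) = a * b
          rw [map_mul, ha, hb]
        inv_mem' := fun {a} ha => by
          change φ k a⁻¹ = a⁻¹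
          rw [map_inv, ha] }
    exact hpow U K le_rfl x (show φ k (x ^ Fintype.card K) = x ^ Fintype.card K by
      rw [h]; exact orbProd_apply_mem φ K x hk)
  have hZw : orbProd φ Z w = 1 := hFR _ (fun z hz => orbProd_apply_mem φ Z _ hz) fun r hr => by
    rw [orbProd_conj φ Z w (Subgroup.normalizer_eq_top (H := Z) ▸ Subgroup.mem_top r), hwR r hr]
  have hZD : ∀ d ∈ D, orbProd φ Z d = 1 := by
    have : D ≤ (orbProd φ Z).ker := (Subgroup.closure_le _).2 (by
      rintro _ ⟨z, rfl⟩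
      change orbProd φ Z (φ z w) = 1
      rw [orbProd_comp_mem φ Z w z.2, hZw])
    exact fun d hd => this hd
  have hkw : ∀ k ∈ K, φ k w ∈ D := by
    intro k hk
    obtain ⟨f, hf, d, hd, he⟩ := Subgroup.mem_sup.1 (htop (φ k w))
    have h1 : orbProd φ Z (φ k w) = 1 := by
      change ∏ z : Z, φ z (φ k w) = 1
      have hz : ∀ z : Z, φ z (φ k w) = φ k (φ z w) := fun z =>
        congrArg (fun e : MulAut V => e w) (z.2.2 k hk).eq
      rw [Finset.prod_congr rfl fun z _ => hz z, ← map_prod]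
      change φ k (orbProd φ Z w) = 1
      rw [hZw, map_one]
    rw [← he, map_mul, hZD d hd, mul_one] at h1
    have h2 : f ^ Fintype.card Z = 1 := by
      rw [← h1]
      change _ = ∏ z : Z, φ z f
      rw [Finset.prod_congr rfl fun (z : Z) _ => hf z z.2, Finset.prod_const, Finset.card_univ]
    have hf1 : f = 1 := Subgroup.mem_bot.1 (hpow ⊥ Z hZK f (h2 ▸ Subgroup.one_mem _))
    rw [← he, hf1, one_mul]; exact hd
  have hT : ∀ d ∈ D, ∃ T : V →* V, T w = d ∧
      ∀ U : V →* V, (∀ z ∈ Z, ∀ y, U (φ z y) = φ z (U y)) → ∀ y, U (T y) = T (U y) := by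
    intro d hd
    induction hd using Subgroup.closure_induction with
    | mem x hx =>
      obtain ⟨z, rfl⟩ := hx
      exact ⟨(φ z).toMonoidHom, rfl, fun U hU y => hU z z.2 y⟩
    | one => exact ⟨1, rfl, fun U _ y => by simp⟩
    | mul x y _ _ hx hy =>
      obtain ⟨S, hS, hS'⟩ := hx
      obtain ⟨T, hT, hT'⟩ := hy
      exact ⟨S * T, by simp [hS, hT], fun U hU y => by simp [hS' U hU y, hT' U hU y]⟩
    | inv x _ hx =>
      obtain ⟨S, hS, hS'⟩ := hx
      exact ⟨S⁻¹, by simp [hS], fun U hU y => by simp [hS' U hU y]⟩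
  apply hne
  intro a ha b hb
  have hZk : ∀ k ∈ K, ∀ z ∈ Z, ∀ y, φ k (φ z y) = φ z (φ k y) := fun k hk z hz y =>
    (congrArg (fun e : MulAut V => e y) (hz.2 k hk).eq).symm
  obtain ⟨A, hA, hA'⟩ := hT _ (hkw a ha)
  obtain ⟨B, hB, hB'⟩ := hT _ (hkw b hb)
  have hBZ : ∀ z ∈ Z, ∀ y, B (φ z y) = φ z (B y) := fun z hz y =>
    (hB' (φ z).toMonoidHom (fun z' hz' y => hZk z (hZK hz) z' hz' y) y).symm
  have hw : φ a (φ b w) = φ b (φ a w) := by
    have e1 : φ a (φ b w) = B (A w) := by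
      rw [← hB, hA]; exact hB' (φ a).toMonoidHom (hZk a ha) w
    have e2 : φ b (φ a w) = A (B w) := by
      rw [← hA, hB]; exact hA' (φ b).toMonoidHom (hZk b hb) w
    rw [e1, e2]
    exact hA' B hBZ w
  refine MulEquiv.ext fun y => ?_
  obtain ⟨f, hf, d, hd, rfl⟩ := Subgroup.mem_sup.1 (htop y)
  rw [map_mul (φ (a * b)), map_mul (φ (b * a)), hFK f hf _ (K.mul_mem ha hb), hFK f hf _ (K.mul_mem hb ha)]
  congr 1
  induction hd using Subgroup.closure_induction with
  | mem x hx =>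
    obtain ⟨z, rfl⟩ := hx
    simp only [map_mul, MulAut.mul_apply, hZk _ hb _ z.2, hZk _ ha _ z.2, hw]
  | one => rw [map_one, map_one]
  | mul x y _ _ hx hy => rw [map_mul (φ (a * b)), map_mul (φ (b * a)), hx, hy]
  | inv x _ hx => rw [map_inv, map_inv, hx]

end Cfsg.Agent.H83
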