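import Cfsg.Agent.H19.Frattini
import Cfsg.Prelude.Def_Transfer
import Mathlib

/-! Involutions in 2-groups with Frattini subgroup of order two: the signed count squared. -/

set_option autoImplicit false

namespace Cfsg.Agent.H83

variable {G : Type*} [Group G] [Finite G]

/-- The count `j` of solutions of `x² = 1` satisfies `(2j - |G|)² ∈ {0, |G| |Z(G)|}` when `|Φ(G)| = 2`. -/
theorem involution_count_sq (hG : IsPGroup 2 G) (hΦ : Nat.card (frattini G) = 2) :
    2 * (Nat.card {x : G // x ^ 2 = 1} : ℤ) = Nat.card G ∨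
      (2 * (Nat.card {x : G // x ^ 2 = 1} : ℤ) - Nat.card G) ^ 2 =
        (Nat.card G * Nat.card (Subgroup.center G) : ℕ) := by
  classical
  haveI : Fact (Nat.Prime 2) := ⟨Nat.prime_two⟩
  obtain ⟨hcomm, hsq⟩ := H19.commutator_pow_mem_frattini hG
  obtain ⟨z, hzne, hzall⟩ : ∃ z : frattini G, z ≠ 1 ∧ ∀ y : frattini G, y = 1 ∨ y = z := by
    obtain ⟨a, b, hab, hu⟩ := Nat.card_eq_two_iff.1 hΦ
    have hall : ∀ y : frattini G, y = a ∨ y = b := fun y => by
      have : y ∈ ({a, b} : Set (frattini G)) := hu ▸ Set.mem_univ y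
      simpa using this
    rcases hall 1 with h | h
    · exact ⟨b, fun e => hab (h.symm.trans e.symm), fun y => (hall y).imp_left fun e => e.trans h.symm⟩
    · exact ⟨a, fun e => hab (e.trans h), fun y => (hall y).symm.imp_left fun e => e.trans h.symm⟩
  have hmem : ∀ a ∈ frattini G, a = 1 ∨ a = (z : G) := fun a ha => by
    rcases hzall ⟨a, ha⟩ with h | h
    · exact Or.inl (congrArg Subtype.val h)
    · exact Or.inr (congrArg Subtype.val h)
  have hz1 : (z : G) ≠ 1 := fun h => hzne (Subtype.ext h)
  have hzc : ∀ g : G, g * (z : G) = (z : G) * g := fun g => by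
    haveI : (frattini G).Characteristic := frattini_characteristic
    rcases hmem _ ((inferInstance : (frattini G).Normal).conj_mem _ z.2 g) with h | h
    · refine absurd ?_ hz1
      calc (z : G) = g⁻¹ * (g * z * g⁻¹) * g := by group
        _ = 1 := by rw [h]; group
    · exact mul_inv_eq_iff_eq_mul.1 h
  have hcen : ∀ a ∈ frattini G, ∀ g : G, g * a = a * g := fun a ha g => by
    rcases hmem a ha with rfl | rfl
    · rw [mul_one, one_mul]
    · exact hzc g
  let ε : G → ℤ := fun a => if a = 1 then 1 else -1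
  have hε : ∀ a ∈ frattini G, ∀ b ∈ frattini G, ε (a * b) = ε a * ε b := by
    intro a ha b hb
    rcases hmem a ha with rfl | rfl
    · simp [ε]
    rcases hmem b hb with rfl | rfl
    · simp [ε]
    rcases hmem _ (Subgroup.mul_mem _ z.2 z.2) with h | h
    · simp [ε, h, hz1]
    · exact absurd (mul_eq_left.1 h) hz1
  let w : G → G → G := fun x u => u⁻¹ * x⁻¹ * u * x
  have hw : ∀ x u, w x u ∈ frattini G := fun x u => hcomm (by
    rw [commutator_def]
    have := Subgroup.commutator_mem_commutator (Subgroup.mem_top u⁻¹) (Subgroup.mem_top x⁻¹)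
    simpa [commutatorElement_def] using this)
  let χ : G → ℤ := fun x => ε (x * x)
  have hχ1 : ∀ x, χ x * χ x = 1 := fun x => by
    by_cases h : x * x = 1 <;> simp [χ, ε, h]
  have hχ : ∀ x u, χ x * χ (x * u) = χ u * ε (w x u) := by
    intro x u
    have hx2 : x * x ∈ frattini G := by simpa [sq] using hsq x
    have hu2 : u * u ∈ frattini G := by simpa [sq] using hsq u
    have e : x * u * (x * u) = x * x * (u * u * w x u) := by
      calc x * u * (x * u) = x * x * (u * (u⁻¹ * (x⁻¹ * u * x)) * u) := by group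
        _ = x * x * (u * (w x u * u)) := by simp only [w]; group
        _ = x * x * (u * u * w x u) := by rw [← hcen _ (hw x u) u]; group
    show χ x * ε (x * u * (x * u)) = _
    rw [e, hε _ hx2 _ (Subgroup.mul_mem _ hu2 (hw x u)), hε _ hu2 _ (hw x u), ← mul_assoc]
    show χ x * χ x * (χ u * ε (w x u)) = _
    rw [hχ1, one_mul]
  have hwmul : ∀ x y u, w (x * y) u = w y u * w x u := by
    intro x y u
    calc w (x * y) u = u⁻¹ * y⁻¹ * (u * w x u * y) := by simp only [w]; group
      _ = u⁻¹ * y⁻¹ * (u * (y * w x u)) := by rw [mul_assoc u, ← hcen _ (hw x u) y]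
      _ = w y u * w x u := by simp only [w]; group
  haveI := Fintype.ofFinite G
  have hinner : ∀ u : G, ∑ x : G, ε (w x u) = if u ∈ Subgroup.center G then (Nat.card G : ℤ) else 0 := by
    intro u
    by_cases hu : u ∈ Subgroup.center G
    · rw [if_pos hu, Nat.card_eq_fintype_card, Finset.sum_eq_card_nsmul (b := (1 : ℤ))]
      · simp
      · intro x _
        have : w x u = 1 := by
          simp only [w]
          rw [mul_assoc u⁻¹, Subgroup.mem_center_iff.1 hu x⁻¹]
          group
        simp [ε, this]
    · rw [if_neg hu]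
      obtain ⟨y, hy⟩ : ∃ y, w y u ≠ 1 := by
        by_contra h
        push Not at h
        refine hu (Subgroup.mem_center_iff.2 fun g => ?_)
        calc g * u = g * u * w g u := by rw [h g, mul_one]
          _ = u * g := by simp only [w]; group
      have hy' : ε (w y u) = -1 := by simp [ε, hy]
      have e : ∑ x : G, ε (w x u) = ∑ x : G, ε (w (x * y) u) :=
        (Fintype.sum_equiv (Equiv.mulRight y) _ _ (fun x => rfl)).symm
      have e2 : ∑ x : G, ε (w (x * y) u) = -∑ x : G, ε (w x u) := by
        rw [← Finset.sum_neg_distrib]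
        refine Finset.sum_congr rfl fun x _ => ?_
        rw [hwmul, hε _ (hw y u) _ (hw x u), hy', neg_one_mul]
      omega
  have hsq2 : (∑ x, χ x) ^ 2 = Nat.card G * ∑ u ∈ Finset.univ.filter (· ∈ Subgroup.center G), χ u := by
    calc (∑ x, χ x) ^ 2 = ∑ x, ∑ y, χ x * χ y := by rw [sq, Finset.sum_mul_sum]
      _ = ∑ x, ∑ u, χ x * χ (x * u) :=
          Finset.sum_congr rfl fun x _ => (Fintype.sum_equiv (Equiv.mulLeft x) _ _ (fun u => rfl)).symm
      _ = ∑ u, ∑ x, χ u * ε (w x u) := by
          rw [Finset.sum_comm]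
          exact Finset.sum_congr rfl fun u _ => Finset.sum_congr rfl fun x _ => hχ x u
      _ = ∑ u, if u ∈ Subgroup.center G then (Nat.card G : ℤ) * χ u else 0 :=
          Finset.sum_congr rfl fun u _ => by
            rw [← Finset.mul_sum, hinner]
            split <;> ring
      _ = _ := by rw [← Finset.sum_filter, Finset.mul_sum]
  have hS : ∑ x, χ x = 2 * (Nat.card {x : G // x ^ 2 = 1} : ℤ) - Nat.card G := by
    have : ∀ x, χ x = 2 * (if x ^ 2 = 1 then (1 : ℤ) else 0) - 1 := fun x => by
      by_cases h : x * x = 1 <;> simp [χ, ε, sq, h]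
    simp only [this]
    rw [Finset.sum_sub_distrib, ← Finset.mul_sum, Finset.sum_boole, Nat.card_eq_fintype_card,
      Fintype.card_subtype, Nat.card_eq_fintype_card]
    simp
  rw [hS] at hsq2
  by_cases hall : ∀ u ∈ Subgroup.center G, u * u = 1
  · right
    rw [hsq2, Nat.cast_mul]
    congr 1
    rw [Finset.sum_eq_card_nsmul (b := (1 : ℤ))]
    · rw [Nat.card_eq_fintype_card, Fintype.card_subtype]
      simp
    · intro u hu
      simp [χ, ε, hall u (Finset.mem_filter.1 hu).2]
  · left
    push Not at hall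
    obtain ⟨v, hv, hv1⟩ := hall
    have h0 : ∑ u ∈ Finset.univ.filter (· ∈ Subgroup.center G), χ u = 0 := by
      have e : ∑ u ∈ Finset.univ.filter (· ∈ Subgroup.center G), χ (u * v) =
          ∑ u ∈ Finset.univ.filter (· ∈ Subgroup.center G), χ u :=
        Finset.sum_equiv (Equiv.mulRight v) (fun u => by
          simp only [Finset.mem_filter, Finset.mem_univ, true_and, Equiv.coe_mulRight]
          exact ⟨fun h => Subgroup.mul_mem _ h hv, fun h => by
            simpa using Subgroup.mul_mem _ h (Subgroup.inv_mem _ hv)⟩) (fun u _ => rfl)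
      have hneg : ∀ u ∈ Finset.univ.filter (· ∈ Subgroup.center G), χ (u * v) = -χ u := by
        intro u hu
        have hw1 : w u v = 1 := by
          simp only [w]
          rw [mul_assoc v⁻¹, Subgroup.mem_center_iff.1 hv u⁻¹]
          group
        have h1 := hχ u v
        rw [hw1, show ε 1 = 1 by simp [ε], mul_one, show χ v = -1 by simp [χ, ε, hv1]] at h1
        calc χ (u * v) = χ u * χ u * χ (u * v) := by rw [hχ1, one_mul]
          _ = -χ u := by rw [mul_assoc, h1, mul_neg, mul_one]
      rw [Finset.sum_congr rfl hneg, Finset.sum_neg_distrib] at e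
      omega
    rw [h0, mul_zero] at hsq2
    have := eq_zero_of_pow_eq_zero hsq2
    omega

end Cfsg.Agent.H83
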