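import Cfsg.Prelude.Def_LocalEven
import Cfsg.Agent.H72.PCore
import Cfsg.Agent.H58.TI
import Cfsg.Agent.H83.Basic

/-!
Maximal `p`-local subgroups in groups of local characteristic `p`.
-/

set_option autoImplicit false

open Subgroup

namespace Cfsg.Agent.H83

variable {G : Type*} [Group G] [Finite G] {p : ℕ} [Fact p.Prime]

/-- A maximal `p`-local subgroup. -/
def IsMaxLocal (p : ℕ) (M : Subgroup G) : Prop :=
  (∃ T : Subgroup G, IsPGroup p T ∧ T ≠ ⊥ ∧ M = normalizer (T : Set G)) ∧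
    ∀ L : Subgroup G, (∃ T : Subgroup G, IsPGroup p T ∧ T ≠ ⊥ ∧ L = normalizer (T : Set G)) →
      M ≤ L → L = M

theorem exists_maxLocal_ge {T : Subgroup G} (hT : IsPGroup p T) (hne : T ≠ ⊥) :
    ∃ M : Subgroup G, IsMaxLocal p M ∧ normalizer (T : Set G) ≤ M := by
  obtain ⟨M, hle, hM, hmax⟩ := Finite.exists_le_maximal
    (p := fun L : Subgroup G => ∃ T : Subgroup G, IsPGroup p T ∧ T ≠ ⊥ ∧ L = normalizer (T : Set G))
    (a := normalizer (T : Set G)) ⟨T, hT, hne, rfl⟩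
  exact ⟨M, ⟨hM, fun L hL hML => le_antisymm (hmax hL hML) hML⟩, hle⟩

theorem IsMaxLocal.centralizer_pCore_le (hloc : Cfsg.IsOfLocalCharacteristic p G) {M : Subgroup G}
    (hM : IsMaxLocal p M) :
    centralizer (Cfsg.pCore p M : Set M) ≤ Cfsg.pCore p M := by
  obtain ⟨T, hT, hne, rfl⟩ := hM.1
  exact hloc.2 T hT hne

theorem IsMaxLocal.pCoreOf_ne_bot {M : Subgroup G} (hM : IsMaxLocal p M) :
    Cfsg.pCoreOf p M ≠ ⊥ := by
  obtain ⟨T, hT, hne, rfl⟩ := hM.1
  exact fun h => hne (le_bot_iff.1 (h ▸ H72.le_pCoreOf le_normalizer le_rfl hT))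

theorem pCore_characteristic (H : Type*) [Group H] : (Cfsg.pCore p H).Characteristic :=
  characteristic_iff_map_eq.2 fun e => H72.pCore_map_equiv e p

theorem IsMaxLocal.normalizer_eq (hloc : Cfsg.IsOfLocalCharacteristic p G) {M A : Subgroup G}
    (hM : IsMaxLocal p M) (hA : A ≠ ⊥) (hAM : A ≤ M) (hMA : M ≤ normalizer (A : Set G)) :
    normalizer (A : Set G) = M := by
  have hX : Cfsg.pCoreOf p A ≠ ⊥ := by
    intro h
    haveI hn : (A.subgroupOf M).Normal := normal_subgroupOf_of_le_normalizer hMA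
    haveI := H72.pCore_normal (G := M) p
    set X := A ⊓ Cfsg.pCoreOf p M with hXdef
    have hXb : X = ⊥ := by
      refine le_bot_iff.1 (h ▸ H72.le_pCoreOf inf_le_left ?_
        ((H72.pCoreOf_isPGroup p M).to_le inf_le_right))
      intro a ha
      have ha1 : a ∈ normalizer (A : Set G) := le_normalizer ha
      have ha2 : a ∈ normalizer (Cfsg.pCoreOf p M : Set G) :=
        H72.le_normalizer_pCoreOf p M (hAM ha)
      rw [mem_normalizer_iff] at ha1 ha2 ⊢
      exact fun x => and_congr (ha1 x) (ha2 x)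
    have hinf : A.subgroupOf M ⊓ Cfsg.pCore p M = ⊥ := by
      rw [eq_bot_iff_forall]
      rintro x ⟨h1, h2⟩
      exact Subtype.ext (mem_bot.1 (hXb ▸ (⟨h1, ⟨x, h2, rfl⟩⟩ : (x : G) ∈ X)))
    have hle : A.subgroupOf M ≤ centralizer (Cfsg.pCore p M : Set M) := fun a ha c hc =>
      ((commute_of_normal_of_disjoint _ _ hn inferInstance (disjoint_iff.2 hinf) a c ha hc).eq).symm
    have hAO : A.subgroupOf M ≤ Cfsg.pCore p M := hle.trans (hM.centralizer_pCore_le hloc)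
    rw [inf_eq_left.2 hAO, subgroupOf_eq_bot] at hinf
    exact hA (disjoint_self.1 (hinf.mono_right hAM))
  have h1 : normalizer (A : Set G) ≤ normalizer (Cfsg.pCoreOf p A : Set G) :=
    normalizer_le_map_char A _ (pCore_characteristic A)
  exact le_antisymm (h1.trans (hM.2 _ ⟨_, H72.pCoreOf_isPGroup p A, hX, rfl⟩ (hMA.trans h1)).le) hMA

theorem IsMaxLocal.normalizer_self (hloc : Cfsg.IsOfLocalCharacteristic p G) {M : Subgroup G}
    (hM : IsMaxLocal p M) : normalizer (M : Set G) = M :=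
  hM.normalizer_eq hloc (fun h => hM.pCoreOf_ne_bot (le_bot_iff.1 (h ▸ H72.pCoreOf_le p M)))
    le_rfl le_normalizer

theorem IsMaxLocal.map_conj {M : Subgroup G} (hM : IsMaxLocal p M) (g : G) :
    IsMaxLocal p (M.map (MulAut.conj g).toMonoidHom) := by
  have key : ∀ (h : G) {L : Subgroup G},
      (∃ T : Subgroup G, IsPGroup p T ∧ T ≠ ⊥ ∧ L = normalizer (T : Set G)) →
      ∃ T : Subgroup G, IsPGroup p T ∧ T ≠ ⊥ ∧
        L.map (MulAut.conj h).toMonoidHom = normalizer (T : Set G) := by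
    rintro h _ ⟨T, hT, hne, rfl⟩
    refine ⟨T.map (MulAut.conj h).toMonoidHom, hT.map _, ?_, map_equiv_normalizer_eq T (MulAut.conj h)⟩
    rwa [ne_eq, map_eq_bot_iff_of_injective _ (MulAut.conj h).injective]
  refine ⟨key g hM.1, fun L hL hle => ?_⟩
  have hinv : ∀ (h : G) (K : Subgroup G),
      (K.map (MulAut.conj h).toMonoidHom).map (MulAut.conj h⁻¹).toMonoidHom = K := fun h K => by
    rw [Subgroup.map_map]
    convert Subgroup.map_id K
    ext x; simp [mul_assoc]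
  have h1 := hM.2 _ (key g⁻¹ hL) ((hinv g M).ge.trans (map_mono hle))
  have h2 := hinv g⁻¹ L
  rw [inv_inv, h1] at h2
  exact h2.symm

/-- A primitive pair of characteristic `p` unless every maximal local subgroup is strongly
embedded. -/
theorem exists_mutual_pair (hloc : Cfsg.IsOfLocalCharacteristic p G) {M₀ L₀ T₀ : Subgroup G}
    (hM₀ : IsMaxLocal p M₀) (hL₀ : IsMaxLocal p L₀) (hne₀ : M₀ ≠ L₀) (hT₀ : IsPGroup p T₀)
    (hT₀1 : T₀ ≠ ⊥) (hT₀le : T₀ ≤ M₀ ⊓ L₀) :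
    ∃ M L : Subgroup G, IsMaxLocal p M ∧ IsMaxLocal p L ∧ M ≠ L ∧
      Cfsg.pCoreOf p M ≤ L ∧ Cfsg.pCoreOf p L ≤ M := by
  classical
  obtain ⟨⟨M, L, T⟩, ⟨hM, hL, hne, hT, hT1, hTle⟩, hmax⟩ := Set.exists_max_image
    {x : Subgroup G × Subgroup G × Subgroup G | IsMaxLocal p x.1 ∧ IsMaxLocal p x.2.1 ∧
      x.1 ≠ x.2.1 ∧ IsPGroup p x.2.2 ∧ x.2.2 ≠ ⊥ ∧ x.2.2 ≤ x.1 ⊓ x.2.1}
    (fun x => Nat.card x.2.2) (Set.toFinite _)
    ⟨(M₀, L₀, T₀), hM₀, hL₀, hne₀, hT₀, hT₀1, hT₀le⟩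
  -- `O_p` lies in every maximal `p`-subgroup
  have hcore : ∀ (K : Subgroup G), T ≤ K →
      (∀ P : Subgroup G, IsPGroup p P → P ≤ K → ¬ T < P) → Cfsg.pCoreOf p K ≤ T := by
    intro K hTK hKmax
    let S : Sylow p K := ⟨T.subgroupOf K, hT.of_equiv (subgroupOfEquivOfLe hTK).symm, by
      intro Q hQ hle
      by_contra hneq
      refine hKmax (Q.map K.subtype) (hQ.map _) (map_subtype_le Q) (lt_of_le_of_ne ?_ fun e => ?_)
      · exact fun x hx => ⟨⟨x, hTK hx⟩, hle hx, rfl⟩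
      · refine hneq ?_
        rw [e, subgroupOf, comap_map_eq_self_of_injective K.subtype_injective]⟩
    rintro _ ⟨x, hx, rfl⟩
    exact H72.pCore_le_sylow S hx
  obtain ⟨H, hH, hNH⟩ := exists_maxLocal_ge hT hT1
  -- growing inside `M` forces `H = M`
  have hgrow : ∀ K : Subgroup G, IsMaxLocal p K → T ≤ K → ∀ P : Subgroup G, IsPGroup p P → P ≤ K →
      T < P → K = H ∧ ∃ s ∈ K, s ∈ normalizer (T : Set G) ∧ s ∉ T ∧
        IsPGroup p (T ⊔ zpowers s : Subgroup G) := by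
    intro K hK hTK P hP hPK hlt
    obtain ⟨s, hsP, hsT, hsN⟩ := H58.exists_normalizing_not_mem hP hlt
    have hT' : IsPGroup p (T ⊔ zpowers s : Subgroup G) :=
      hP.to_le (sup_le hlt.le (zpowers_le.2 hsP))
    refine ⟨?_, s, hPK hsP, hsN, hsT, hT'⟩
    by_contra hKH
    have h1 := hmax (K, H, T ⊔ zpowers s) ⟨hK, hH, hKH, hT',
      fun h => hT1 (le_bot_iff.1 (h ▸ le_sup_left)),
      sup_le (le_inf hTK (le_normalizer.trans hNH))
        (zpowers_le.2 ⟨hPK hsP, hNH hsN⟩)⟩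
    exact hsT ((Subgroup.eq_of_le_of_card_ge le_sup_left h1).ge (mem_sup_right (mem_zpowers s)))
  by_cases hMmax : ∀ P : Subgroup G, IsPGroup p P → P ≤ M → ¬ T < P
  · by_cases hLmax : ∀ P : Subgroup G, IsPGroup p P → P ≤ L → ¬ T < P
    · exact ⟨M, L, hM, hL, hne, (hcore M (hTle.trans inf_le_left) hMmax).trans (hTle.trans inf_le_right),
        (hcore L (hTle.trans inf_le_right) hLmax).trans (hTle.trans inf_le_left)⟩
    · push Not at hLmax
      obtain ⟨P, hP, hPL, hlt⟩ := hLmax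
      obtain ⟨-, s, hsL, hsN, hsT, hTs⟩ := hgrow L hL (hTle.trans inf_le_right) P hP hPL hlt
      have hsM : s ∉ M := fun h => hMmax (T ⊔ zpowers s) hTs
        (sup_le (hTle.trans inf_le_left) (zpowers_le.2 h))
        (lt_of_le_of_ne le_sup_left fun e => hsT (e.ge (mem_sup_right (mem_zpowers s))))
      have hTs' : T.map (MulAut.conj s).toMonoidHom = T :=
        mem_normalizer_iff_map_conj_eq.1 hsN
      have hTM := hTle.trans inf_le_left
      have hM' : T ≤ M.map (MulAut.conj s).toMonoidHom := hTs'.ge.trans (map_mono hTM)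
      refine ⟨M, _, hM, hM.map_conj s, fun e => hsM ?_, (hcore M hTM hMmax).trans hM', ?_⟩
      · exact (hM.normalizer_self hloc).le (mem_normalizer_iff_map_conj_eq.2 e.symm)
      · rw [H72.pCoreOf_map_equiv]
        exact ((map_mono (hcore M hTM hMmax)).trans hTs'.le).trans hTM
  · push Not at hMmax
    obtain ⟨P, hP, hPM, hlt⟩ := hMmax
    obtain ⟨hMH, s, hsM, hsN, hsT, hTs⟩ := hgrow M hM (hTle.trans inf_le_left) P hP hPM hlt
    have hTL := hTle.trans inf_le_right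
    have hLmax : ∀ Q : Subgroup G, IsPGroup p Q → Q ≤ L → ¬ T < Q := fun Q hQ hQL hlt' =>
      hne (hMH.trans (hgrow L hL hTL Q hQ hQL hlt').1.symm)
    have hsL : s ∉ L := fun h => hLmax (T ⊔ zpowers s) hTs
      (sup_le hTL (zpowers_le.2 h))
      (lt_of_le_of_ne le_sup_left fun e => hsT (e.ge (mem_sup_right (mem_zpowers s))))
    have hTs' : T.map (MulAut.conj s).toMonoidHom = T :=
      mem_normalizer_iff_map_conj_eq.1 hsN
    have hL' : T ≤ L.map (MulAut.conj s).toMonoidHom := hTs'.ge.trans (map_mono hTL)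
    refine ⟨L, _, hL, hL.map_conj s, fun e => hsL ?_, (hcore L hTL hLmax).trans hL', ?_⟩
    · exact (hL.normalizer_self hloc).le (mem_normalizer_iff_map_conj_eq.2 e.symm)
    · rw [H72.pCoreOf_map_equiv]
      exact ((map_mono (hcore L hTL hLmax)).trans hTs'.le).trans hTL

/-- Primitive pair or strongly embedded maximal local subgroups. -/
theorem primitive_pair_or_strongly_embedded (hloc : Cfsg.IsOfLocalCharacteristic p G)
    (hOp : Cfsg.pCore p G = ⊥) :
    (∃ M₁ M₂ : Subgroup G, M₁ ≠ M₂ ∧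
      (∀ A : Subgroup G, A ≠ ⊥ → A ≤ M₁ ⊓ M₂ →
        (M₁ ≤ normalizer (A : Set G) → M₂ ⊓ normalizer (A : Set G) = M₁ ⊓ M₂) ∧
        (M₂ ≤ normalizer (A : Set G) → M₁ ⊓ normalizer (A : Set G) = M₁ ⊓ M₂)) ∧
      centralizer (Cfsg.pCore p M₁ : Set M₁) ≤ Cfsg.pCore p M₁ ∧
      centralizer (Cfsg.pCore p M₂ : Set M₂) ≤ Cfsg.pCore p M₂ ∧
      Cfsg.pCoreOf p M₁ ⊔ Cfsg.pCoreOf p M₂ ≤ M₁ ⊓ M₂) ∨
    (∀ M : Subgroup G, IsMaxLocal p M → M ≠ ⊤ ∧ p ∣ Nat.card M ∧
      ∀ g : G, g ∉ M → ¬ p ∣ Nat.card (M ⊓ M.map (MulAut.conj g).toMonoidHom : Subgroup G)) := by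
  by_cases hall : ∀ M : Subgroup G, IsMaxLocal p M → ∀ g : G, g ∉ M →
      ¬ p ∣ Nat.card (M ⊓ M.map (MulAut.conj g).toMonoidHom : Subgroup G)
  · refine Or.inr fun M hM => ⟨?_, ?_, hall M hM⟩
    · obtain ⟨T, hT, hne, rfl⟩ := hM.1
      intro htop
      haveI : T.Normal := normalizer_eq_top_iff.1 htop
      exact hne (le_bot_iff.1 (hOp ▸ H72.le_pCore inferInstance hT))
    · obtain ⟨T, hT, hne, rfl⟩ := hM.1
      obtain ⟨k, hk⟩ := IsPGroup.iff_card.1 hT
      refine dvd_trans ?_ (card_dvd_of_le (le_normalizer (H := T)))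
      rw [hk]
      refine dvd_pow_self p fun h => hne ?_
      rw [h, pow_zero] at hk
      exact Subgroup.eq_bot_of_card_eq T hk
  · push Not at hall
    obtain ⟨M₀, hM₀, g, hg, hdvd⟩ := hall
    haveI : Finite (M₀ ⊓ M₀.map (MulAut.conj g).toMonoidHom : Subgroup G) := inferInstance
    obtain ⟨x, hx⟩ := exists_prime_orderOf_dvd_card' p hdvd
    have hx' : orderOf (x : G) = p := by rw [Subgroup.orderOf_coe, hx]
    have hne : M₀ ≠ M₀.map (MulAut.conj g).toMonoidHom := fun e => hg (by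
      rw [← hM₀.normalizer_self hloc]; exact mem_normalizer_iff_map_conj_eq.2 e.symm)
    obtain ⟨M, L, hM, hL, hML, h1, h2⟩ := exists_mutual_pair hloc hM₀ (hM₀.map_conj g) hne
      (T₀ := zpowers (x : G)) (IsPGroup.of_card (n := 1) (by rw [Nat.card_zpowers, hx', pow_one]))
      (fun h => by
        rw [zpowers_eq_bot] at h
        rw [h, orderOf_one] at hx'
        exact (Fact.out : p.Prime).ne_one hx'.symm)
      (zpowers_le.2 x.2)
    refine Or.inl ⟨M, L, hML, fun A hA hAle => ⟨fun h => ?_, fun h => ?_⟩,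
      hM.centralizer_pCore_le hloc, hL.centralizer_pCore_le hloc,
      sup_le (le_inf (H72.pCoreOf_le p M) h1) (le_inf h2 (H72.pCoreOf_le p L))⟩
    · rw [hM.normalizer_eq hloc hA (hAle.trans inf_le_left) h, inf_comm]
    · rw [hL.normalizer_eq hloc hA (hAle.trans inf_le_right) h]

end Cfsg.Agent.H83
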