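import Cfsg.Agent.H83.LocalLemmas
import Mathlib

/-! A subgroup `W` with the squared offender bound, normalised where the Thompson subgroup is,
is normalised by every good group over the Sylow 2-subgroup. -/

set_option autoImplicit false
open scoped commutatorElement

namespace Cfsg.Agent.H83

variable {G : Type*} [Group G]

theorem le_normalizer_map_subtype {L : Subgroup G} (R : Subgroup L) [R.Normal] :
    L ≤ Subgroup.normalizer ((R.map L.subtype : Subgroup G) : Set G) := by
  refine (Subgroup.normal_subgroupOf_iff_le_normalizer (Subgroup.map_subtype_le R)).1 ?_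
  rw [show (R.map L.subtype).subgroupOf L = R from Subgroup.comap_map_eq_self_of_injective L.subtype_injective R]
  infer_instance

theorem subgroupOf_map_eq {L : Subgroup G} (R : Subgroup L) : (R.map L.subtype).subgroupOf L = R :=
  Subgroup.comap_map_eq_self_of_injective L.subtype_injective R

/-- `O₂` of a quotient is trivial under the Frattini dichotomy. -/
theorem pCore_quotient_eq_bot_of_dichotomy [Finite G] {S L : Subgroup G} (hS : SylTwo S L)
    (hdich : ∀ R : Subgroup G, R ≤ L → L ≤ Subgroup.normalizer (R : Set G) → L ≤ R ⊔ S ∨ R ⊓ S ≤ oTwo L)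
    (K : Subgroup L) [K.Normal] (hQK : oTwo L ≤ K.map L.subtype) (hne : ¬ L ≤ K.map L.subtype ⊔ S) :
    Cfsg.pCore 2 (L ⧸ K) = ⊥ := by
  refine pCore_quotient_eq_bot hS K fun R hRn _ hsup => ?_
  haveI := hRn
  rcases hdich _ (Subgroup.map_subtype_le R) (le_normalizer_map_subtype R) with h | h
  · refine absurd (h.trans (sup_le ?_ le_sup_right)) hne
    refine (Subgroup.map_mono hsup).trans ?_
    rw [Subgroup.map_sup]
    refine sup_le (le_trans ?_ le_sup_right) le_sup_left
    refine (Subgroup.map_mono inf_le_left).trans ?_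
    rw [Subgroup.map_subgroupOf_eq_of_le hS.1]
  · intro x hx
    have := hQK (h ⟨Subgroup.mem_map_of_mem _ hx.2, hx.1⟩)
    exact (Subgroup.mem_map_iff_mem L.subtype_injective).1 this

set_option maxHeartbeats 2000000 in
/-- The main step: a subgroup with the offender bound normalised by `L ⊓ N(J(S))` for every good `L`
over `S` is normalised by every good `L` over `S`. -/
theorem le_normalizer_of_bound [Finite G] {S W : Subgroup G} (hW : Cfsg.IsElementaryAbelian 2 W)
    (hWS : W ≤ S) (hSW : S ≤ Subgroup.normalizer (W : Set G)) (hb : HasBound S W)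
    (hY : ∀ L : Subgroup G, Good L → SylTwo S L →
      L ⊓ Subgroup.normalizer (thJ S : Set G) ≤ Subgroup.normalizer (W : Set G))
    {L : Subgroup G} (hL : Good L) (hS : SylTwo S L) : L ≤ Subgroup.normalizer (W : Set G) := by
  classical
  haveI : Fact (Nat.Prime 2) := ⟨Nat.prime_two⟩
  induction hn : Nat.card L using Nat.strong_induction_on generalizing L with
  | _ n ih =>
  subst hn
  by_contra hLW
  set Q := oTwo L with hQdef
  have hQS : Q ≤ S := oTwo_le_sylTwo hS
  have hQn : L ≤ Subgroup.normalizer (Q : Set G) := oTwo_normalized L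
  have hQ2 : IsPGroup 2 Q := isPGroup_oTwo L
  have hQW : Q ≤ Subgroup.normalizer (W : Set G) := hQS.trans hSW
  have hWQ : W ≤ Q := le_oTwo_of_bound hL hS hW hWS hSW hb
  -- Frattini dichotomy
  have hsmall : ∀ H : Subgroup G, S ≤ H → H ≤ L → ¬ L ≤ H → H ≤ Subgroup.normalizer (W : Set G) := by
    intro H hSH hHL hne
    refine ih (Nat.card H) ?_ (good_of_le hL hS hSH hHL) (sylTwo_of_le hS hSH hHL) rfl
    exact lt_of_not_ge fun h => hne (Subgroup.eq_of_le_of_card_ge hHL h).ge
  have hdich : ∀ R : Subgroup G, R ≤ L → L ≤ Subgroup.normalizer (R : Set G) →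
      L ≤ R ⊔ S ∨ R ⊓ S ≤ Q := by
    intro R hRL hRn
    by_cases hsup : L ≤ R ⊔ S
    · exact Or.inl hsup
    right
    have hRW := hsmall (R ⊔ S) le_sup_right (sup_le hRL hS.1) hsup
    set N := L ⊓ Subgroup.normalizer ((S ⊓ R : Subgroup G) : Set G) with hN
    have hSN : S ≤ N := le_inf hS.1 (le_normalizer_inf Subgroup.le_normalizer (hS.1.trans hRn))
    have hNW : ¬ N ≤ Subgroup.normalizer (W : Set G) := fun h => hLW fun l hl => by
      obtain ⟨r, hr, m, hm, rfl⟩ := frattini_arg hS hRL hRn hl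
      exact Subgroup.mul_mem _ (hRW ((le_sup_left : R ≤ R ⊔ S) hr)) (h hm)
    have hLN : L ≤ N := by
      by_contra h
      exact hNW (hsmall N hSN inf_le_left h)
    rw [inf_comm]
    exact le_oTwo (inf_le_right.trans hRL) (hLN.trans inf_le_right) (hS.2.1.to_le inf_le_left)
  -- conjugates of `W` and their join `F`
  have hWc : ∀ l ∈ L, conjSub l W ≤ Q := fun l hl => conjSub_le (hQn hl) hWQ
  have hbc : ∀ l ∈ L, HasBound Q (conjSub l W) := fun l hl => hasBound_conjSub hQS hb (hQn hl)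
  have hcomm : ∀ l ∈ L, ∀ k ∈ L, conjSub k W ≤ Subgroup.centralizer (conjSub l W : Set G) := by
    intro l hl k hk
    have key : ∀ l ∈ L, ∀ k ∈ L, (Subgroup.centralizer (conjSub l W : Set G)).relIndex (conjSub k W) ^ 2 ≤
        (Subgroup.centralizer (conjSub k W : Set G)).relIndex (conjSub l W) := by
      intro l hl k hk
      have h := hbc l hl _ (hWc k hk) (actsElementary_of_elementary (conjSub_elementary hW) _)
      rwa [Subgroup.inf_relIndex_left, Subgroup.inf_relIndex_left] at h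
    have h1 := key l hl k hk
    have h2 := key k hk l hl
    set u := (Subgroup.centralizer (conjSub l W : Set G)).relIndex (conjSub k W)
    set v := (Subgroup.centralizer (conjSub k W : Set G)).relIndex (conjSub l W)
    have hu : u = 1 := by
      have hu0 : 0 < u := Nat.pos_of_ne_zero Subgroup.index_ne_zero_of_finite
      have h3 : u ^ 2 ^ 2 ≤ u := by
        calc u ^ 2 ^ 2 = (u ^ 2) ^ 2 := by ring
          _ ≤ v ^ 2 := Nat.pow_le_pow_left h1 2
          _ ≤ u := h2
      by_contra hne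
      have : u ^ 1 < u ^ 2 ^ 2 := Nat.pow_lt_pow_right (by omega) (by norm_num)
      rw [pow_one] at this
      omega
    exact Subgroup.relIndex_eq_one.1 hu
  set s : Set (Subgroup G) := (fun l => conjSub l W) '' (L : Set G) with hs
  set F := sSup s with hF
  have hFe : Cfsg.IsElementaryAbelian 2 F := elementary_sSup
    (by rintro _ ⟨l, -, rfl⟩; exact conjSub_elementary hW)
    (by
      rintro _ ⟨l, hl, rfl⟩ _ ⟨k, hk, rfl⟩ a ha b hb'
      exact (Subgroup.mem_centralizer_iff.1 (hcomm l hl k hk hb') a ha))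
  have hFQ : F ≤ Q := sSup_le (by rintro _ ⟨l, hl, rfl⟩; exact hWc l hl)
  have hFb : HasBound Q F := hasBound_sSup (by rintro _ ⟨l, hl, rfl⟩; exact hbc l hl)
  have hWF : W ≤ F := le_sSup ⟨1, L.one_mem, conjSub_one W⟩
  have hFn : L ≤ Subgroup.normalizer (F : Set G) := by
    have key : ∀ g ∈ L, conjSub g F ≤ F := fun g hg => by
      rw [conjSub, Subgroup.map_le_iff_le_comap]
      refine sSup_le ?_
      rintro _ ⟨l, hl, rfl⟩
      rw [← Subgroup.map_le_iff_le_comap]
      show conjSub g (conjSub l W) ≤ F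
      rw [conjSub_conjSub]
      exact le_sSup ⟨g * l, L.mul_mem hg hl, rfl⟩
    intro g hg
    refine Subgroup.mem_normalizer_iff_map_conj_eq.2 (le_antisymm (key g hg) fun x hx => ?_)
    have := key g⁻¹ (L.inv_mem hg) (conj_mem_conjSub hx)
    exact mem_conjSub.2 (by simpa using this)
  have hFW : ¬ F ≤ W := fun h => hLW fun l hl => by
    have e : F = W := le_antisymm h hWF
    exact e ▸ hFn hl
  have hFL : F ≤ L := hFQ.trans (oTwo_le L)
  -- the top factor
  set F1 := ⁅F, Q⁆ with hF1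
  have hF1n : L ≤ Subgroup.normalizer (F1 : Set G) := le_normalizer_commutator hFn hQn
  have hQF : Q ≤ Subgroup.normalizer (F : Set G) := (oTwo_le L).trans hFn
  have hF1F : F1 ≤ F := H20.commutator_le_of_le_normalizer hQF
  haveI : (F1.subgroupOf F).Normal :=
    (Subgroup.normal_subgroupOf_iff_le_normalizer hF1F).2 (hFL.trans hF1n)
  have hFsq : ∀ v ∈ F, v * v ∈ F1 := fun v hv => by
    rw [mul_self_of_elementary hFe hv]; exact F1.one_mem
  letI : CommGroup (F ⧸ F1.subgroupOf F) :=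
    { (inferInstance : Group (F ⧸ F1.subgroupOf F)) with mul_comm := comm_of_sq (section_sq hFsq) }
  set φ : L →* MulAut (F ⧸ F1.subgroupOf F) := secAct hFn hF1n with hφ
  set N := φ.ker.map L.subtype with hN
  have hNn : L ≤ Subgroup.normalizer (N : Set G) := le_normalizer_map_subtype φ.ker
  have hNmem : ∀ n ∈ N, ∀ f ∈ F, ⁅n, f⁆ ∈ F1 := by
    rintro _ ⟨n, hn, rfl⟩ f hf
    exact mem_secAct_ker.1 hn f hf
  have hQN : Q ≤ N := by
    intro q hq
    refine ⟨⟨q, oTwo_le L hq⟩, mem_secAct_ker.2 fun f hf => ?_, rfl⟩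
    rw [← commutatorElement_inv]
    exact F1.inv_mem (Subgroup.commutator_mem_commutator hf hq)
  have hNS : ¬ L ≤ N ⊔ S := by
    intro hle
    refine hFW (le_of_le_sup_commutator hQ2 hFQ hQF hQW (sSup_le ?_))
    rintro _ ⟨l, hl, rfl⟩
    have hM : N ⊔ S ≤ Subgroup.normalizer ((W ⊔ F1 : Subgroup G) : Set G) := by
      refine sup_le ?_ (le_normalizer_sup hSW (hS.1.trans hF1n))
      refine Subgroup.le_normalizer_iff.2 fun m hm x hx => ?_
      have hxF : x ∈ F := (sup_le hWF hF1F) hx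
      have e : m * x * m⁻¹ = ⁅m, x⁆ * x := by rw [commutatorElement_def]; group
      rw [e]
      exact Subgroup.mul_mem _ (Subgroup.mem_sup_right (hNmem m hm x hxF)) hx
    exact (Subgroup.map_mono le_sup_left).trans (Subgroup.mem_normalizer_iff_map_conj_eq.1 (hM (hle hl))).le
  have hNS' : N ⊓ S ≤ Q := (hdich N (Subgroup.map_subtype_le _) hNn).resolve_left hNS
  have hO : Cfsg.pCore 2 (L ⧸ φ.ker) = ⊥ := pCore_quotient_eq_bot_of_dichotomy hS hdich φ.ker hQN hNS
  -- the centraliser of `F`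
  set R := L ⊓ Subgroup.centralizer (F : Set G) with hR
  have hRS : R ⊓ S ≤ Q := by
    refine (hdich R inf_le_left (le_normalizer_inf Subgroup.le_normalizer
      (hFn.trans (normalizer_le_normalizer_centralizer F)))).resolve_left fun h => hLW (h.trans (sup_le ?_ hSW))
    exact inf_le_right.trans ((Subgroup.centralizer_le hWF).trans (Subgroup.centralizer_le_normalizer _))
  obtain ⟨A, hA, hAF⟩ : ∃ A ∈ maxElem S, ¬ A ≤ Subgroup.centralizer (F : Set G) := by
    by_contra h
    push Not at h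
    have hJQ : thJ S ≤ Q :=
      (le_inf (le_inf ((thJ_le S).trans hS.1) (sSup_le h)) (thJ_le S) : thJ S ≤ R ⊓ S).trans hRS
    have e : thJ Q = thJ S := thJ_eq_of_le hQS hJQ (maxElem_nonempty S)
    refine hLW (le_trans ?_ (hY L hL hS))
    exact le_inf le_rfl (hQn.trans (e ▸ normalizer_le_thJ Q))
  have hAS : A ≤ S := hA.1
  have hAL : A ≤ L := hAS.trans hS.1
  set CF := Subgroup.centralizer (F : Set G) with hCF
  set CA := Subgroup.centralizer (A : Set G) with hCA
  set c := Q.relIndex A with hc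
  set s' := CF.relIndex (A ⊓ Q) with hs'
  set T := CA.relIndex F with hT
  have hcs : CF.relIndex A = s' * c := by
    have h1 : (CF ⊓ Q).relIndex A = CF.relIndex A := by
      rw [← Subgroup.inf_relIndex_right, ← Subgroup.inf_relIndex_right CF A]
      congr 1
      exact le_antisymm (inf_le_inf_right _ inf_le_left)
        (le_inf (le_inf inf_le_left fun x hx => hRS ⟨⟨hAL hx.2, hx.1⟩, hAS hx.2⟩) inf_le_right)
    rw [← h1, ← Subgroup.relIndex_inf_mul_relIndex, inf_comm Q A]
  have b1 : T ≤ c * s' := by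
    have h := exchange hA hFe (hFQ.trans hQS)
    rw [Subgroup.inf_relIndex_left, Subgroup.inf_relIndex_left] at h
    rw [mul_comm, ← hcs]; exact h
  set CB := Subgroup.centralizer ((A ⊓ Q : Subgroup G) : Set G) with hCB
  have b2 : s' ^ 2 ≤ CB.relIndex F := by
    have h := hFb _ inf_le_right (actsElementary_of_elementary (elementary_mono hA.2.1 inf_le_left) F)
    rwa [Subgroup.inf_relIndex_left, Subgroup.inf_relIndex_left] at h
  have hT0 : CB.relIndex F ≤ T :=
    Subgroup.relIndex_le_of_le_left (Subgroup.centralizer_le inf_le_left) Subgroup.index_ne_zero_of_finite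
  set mkF := QuotientGroup.mk' (F1.subgroupOf F) with hmkF
  set X := (F ⊓ CA) ⊔ F1 with hX
  have hkA : φ.ker.relIndex (A.subgroupOf L) = c := by
    rw [← subgroupOf_map_eq φ.ker, Subgroup.relIndex_subgroupOf hAL, hc,
      ← Subgroup.inf_relIndex_right, ← Subgroup.inf_relIndex_right Q A]
    congr 1
    exact le_antisymm (le_inf (fun x hx => hNS' ⟨hx.1, hAS hx.2⟩) inf_le_right)
      (inf_le_inf_right _ hQN)
  have hb3 := bound_quot hL φ (section_sq hFsq) hO (A.subgroupOf L)
    (fun a ha b hb' => by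
      rw [← map_mul, ← map_mul]
      exact congrArg φ (Subtype.ext (comm_of_elementary hA.2.1 ha hb')))
    (fun a ha => by
      rw [← map_mul, show a * a = 1 from Subtype.ext (mul_self_of_elementary hA.2.1 ha), map_one])
  rw [hkA] at hb3
  have hfixX : (fixedSub φ ((A.subgroupOf L : Subgroup L) : Set L)).index ≤ X.relIndex F := by
    refine fixed_index_le_relIndex φ mkF (QuotientGroup.mk'_surjective _) _ X ?_
    intro a ha x hx
    rw [hmkF, QuotientGroup.mk'_apply, hφ, secAct_mk, sec_mk_eq, conjRestrict_apply]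
    obtain ⟨u, hu, v, hv, e⟩ := exists_mul_of_mem_sup
      ((inf_le_left : F ⊓ CA ≤ F).trans (hFL.trans hF1n)) hx
    have hau : (a : G) * u * (a : G)⁻¹ = u := by
      have e' : (a : G) * u = u * (a : G) := Subgroup.mem_centralizer_iff.1 hu.2 _ ha
      rw [e', mul_inv_cancel_right]
    have hav : (a : G) * v * (a : G)⁻¹ ∈ F1 := (Subgroup.mem_normalizer_iff.1 (hF1n a.2) v).1 hv
    have e1 : (a : G) * (x : G) * (a : G)⁻¹ * (x : G)⁻¹ = u * ((a : G) * v * (a : G)⁻¹ * v⁻¹) * u⁻¹ := by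
      rw [← e]
      calc (a : G) * (u * v) * (a : G)⁻¹ * (u * v)⁻¹
          = ((a : G) * u * (a : G)⁻¹) * ((a : G) * v * (a : G)⁻¹) * v⁻¹ * u⁻¹ := by group
        _ = u * ((a : G) * v * (a : G)⁻¹ * v⁻¹) * u⁻¹ := by rw [hau]; group
    rw [e1]
    exact (Subgroup.mem_normalizer_iff.1 (hF1n (hFL hu.1)) _).1 (F1.mul_mem hav (F1.inv_mem hv))
  have hsplit : T = (F ⊓ CA).relIndex X * X.relIndex F := by
    rw [Subgroup.relIndex_mul_relIndex _ _ _ le_sup_left (sup_le inf_le_left hF1F),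
      Subgroup.inf_relIndex_left]
  have b3 : c ^ 2 ≤ X.relIndex F := hb3.1.trans hfixX
  have hpX : 0 < (F ⊓ CA).relIndex X := Nat.pos_of_ne_zero Subgroup.index_ne_zero_of_finite
  have hXT : X.relIndex F ≤ T := hsplit ▸ Nat.le_mul_of_pos_left _ hpX
  have hc0 : 0 < c := Nat.pos_of_ne_zero Subgroup.index_ne_zero_of_finite
  have hs0 : 0 < s' := Nat.pos_of_ne_zero Subgroup.index_ne_zero_of_finite
  have hcs' : c = s' := by
    refine le_antisymm (Nat.le_of_mul_le_mul_left ?_ hc0) (Nat.le_of_mul_le_mul_right ?_ hs0)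
    · calc c * c = c ^ 2 := (sq c).symm
        _ ≤ c * s' := b3.trans (hXT.trans b1)
    · calc s' * s' = s' ^ 2 := (sq s').symm
        _ ≤ c * s' := b2.trans (hT0.trans b1)
  have hTc : T = c ^ 2 := le_antisymm (by rw [sq]; exact b1.trans_eq (by rw [← hcs'])) (b3.trans hXT)
  have hXc : X.relIndex F = c ^ 2 := le_antisymm (hTc ▸ hXT) b3
  have hT0c : CB.relIndex F = c ^ 2 := le_antisymm (hTc ▸ hT0) (hcs' ▸ b2)
  have hF1A : F1 ≤ CA := by
    have h1 : (F ⊓ CA).relIndex X = 1 := by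
      rw [hXc, hTc] at hsplit
      exact (Nat.mul_eq_right (by positivity)).1 hsplit.symm
    exact (le_sup_right : F1 ≤ X).trans ((Subgroup.relIndex_eq_one.1 h1).trans inf_le_right)
  have hKB : F ⊓ CB ≤ CA := by
    have h1 : CA.relIndex (CB ⊓ F) * CB.relIndex F = T := by
      rw [Subgroup.relIndex_inf_mul_relIndex, inf_eq_left.2 (show CA ≤ CB from Subgroup.centralizer_le (inf_le_left : A ⊓ Q ≤ A))]
    rw [hT0c, hTc] at h1
    rw [inf_comm]
    exact Subgroup.relIndex_eq_one.1 ((Nat.mul_eq_right (by positivity)).1 h1)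
  have hc1 : c ≠ 1 := fun h => hAF (by
    have hT1 : T = 1 := by rw [hTc, h, one_pow]
    exact fun a ha => Subgroup.mem_centralizer_iff.2 fun f hf =>
      (Subgroup.mem_centralizer_iff.1 ((Subgroup.relIndex_eq_one.1 hT1 : F ≤ CA) hf) a ha).symm)
  -- `K = C_F(A)` and its centraliser in `Q`
  set K := F ⊓ CA with hK
  have hF1K : F1 ≤ K := le_inf hF1F hF1A
  have hQK : ∀ q ∈ Q, ∀ k ∈ K, q * k * q⁻¹ ∈ K := fun q hq k hk => by
    have h1 : ⁅k, q⁆ ∈ K := hF1K (Subgroup.commutator_mem_commutator hk.1 hq)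
    have e : q * k * q⁻¹ = ⁅k, q⁆⁻¹ * k := by rw [commutatorElement_def]; group
    rw [e]
    exact K.mul_mem (K.inv_mem h1) hk
  set B' := Q ⊓ Subgroup.centralizer (K : Set G) with hB'
  set D := Q ⊓ CF with hD
  have hDn : Q ≤ Subgroup.normalizer (D : Set G) :=
    le_normalizer_inf Subgroup.le_normalizer (hQF.trans (normalizer_le_normalizer_centralizer F))
  have hB'b : ∀ b ∈ B', ∀ f ∈ F, ∃ u ∈ K, b * f * b⁻¹ = u * f ∧ ∀ d ∈ B', d * u * d⁻¹ = u := by
    intro b hb' f hf
    have h1 : ⁅f, b⁆⁻¹ ∈ K := K.inv_mem (hF1K (Subgroup.commutator_mem_commutator hf hb'.1))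
    refine ⟨⁅f, b⁆⁻¹, h1, by rw [commutatorElement_def]; group, fun d hd => ?_⟩
    rw [← Subgroup.mem_centralizer_iff.1 hd.2 _ h1, mul_inv_cancel_right]
  have hact : ActsElementary B' F := by
    constructor
    · intro b hb' d hd
      have ebd : ∀ f ∈ F, (b * d) * f * (b * d)⁻¹ = (d * b) * f * (d * b)⁻¹ := by
        intro f hf
        obtain ⟨u, hu, eu, hu'⟩ := hB'b b hb' f hf
        obtain ⟨v, hv, ev, hv'⟩ := hB'b d hd f hf
        calc (b * d) * f * (b * d)⁻¹ = b * (d * f * d⁻¹) * b⁻¹ := by group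
          _ = (b * v * b⁻¹) * (b * f * b⁻¹) := by rw [ev]; group
          _ = v * (u * f) := by rw [hv' b hb', eu]
          _ = u * (v * f) := by
            rw [← mul_assoc, ← mul_assoc, comm_of_elementary hFe hv.1 hu.1]
          _ = (d * u * d⁻¹) * (d * f * d⁻¹) := by rw [hu' d hd, ev]
          _ = (d * b) * f * (d * b)⁻¹ := by
            calc (d * u * d⁻¹) * (d * f * d⁻¹) = d * (u * f) * d⁻¹ := by group
              _ = (d * b) * f * (d * b)⁻¹ := by rw [← eu]; group
      refine Subgroup.mem_centralizer_iff.2 fun f hf => ?_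
      have hdb : (d * b)⁻¹ ∈ Q := Q.inv_mem (Q.mul_mem hd.1 hb'.1)
      have e := ebd ((d * b)⁻¹ * f * ((d * b)⁻¹)⁻¹) ((Subgroup.mem_normalizer_iff.1 (hQF hdb) f).1 hf)
      have e2 : b * d * b⁻¹ * d⁻¹ * f * (b * d * b⁻¹ * d⁻¹)⁻¹ = f := by
        calc b * d * b⁻¹ * d⁻¹ * f * (b * d * b⁻¹ * d⁻¹)⁻¹
            = (b * d) * ((d * b)⁻¹ * f * ((d * b)⁻¹)⁻¹) * (b * d)⁻¹ := by group
          _ = (d * b) * ((d * b)⁻¹ * f * ((d * b)⁻¹)⁻¹) * (d * b)⁻¹ := e
          _ = f := by group
      exact (mul_inv_eq_iff_eq_mul.1 e2).symm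
    · intro b hb'
      refine Subgroup.mem_centralizer_iff.2 fun f hf => ?_
      obtain ⟨u, hu, eu, hu'⟩ := hB'b b hb' f hf
      have e2 : b * b * f * (b * b)⁻¹ = f := by
        calc b * b * f * (b * b)⁻¹ = b * (b * f * b⁻¹) * b⁻¹ := by group
          _ = (b * u * b⁻¹) * (b * f * b⁻¹) := by nth_rewrite 1 [eu]; group
          _ = f := by rw [hu' b hb', eu, ← mul_assoc, mul_self_of_elementary hFe hu.1, one_mul]
      exact (mul_inv_eq_iff_eq_mul.1 e2).symm
  set M := (A ⊓ Q) ⊔ D with hM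
  have hAQB : A ⊓ Q ≤ B' := fun x hx => ⟨hx.2, Subgroup.mem_centralizer_iff.2 fun k hk =>
    (Subgroup.mem_centralizer_iff.1 hk.2 x hx.1).symm⟩
  have hDB : D ≤ B' := inf_le_inf_left _ (Subgroup.centralizer_le inf_le_left)
  have hDX : ∀ X' : Subgroup G, X' ≤ Q → D.relIndex X' = CF.relIndex X' := fun X' hX' => by
    rw [← Subgroup.inf_relIndex_right, ← Subgroup.inf_relIndex_right CF]
    congr 1
    rw [hD, inf_assoc, inf_eq_right.2 (inf_le_right.trans hX')]
  have hBM : B' ≤ M := by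
    have h := hFb B' inf_le_left hact
    rw [Subgroup.inf_relIndex_left, Subgroup.inf_relIndex_left] at h
    have h1 : CF.relIndex B' ^ 2 ≤ c ^ 2 := by
      refine h.trans ((Subgroup.relIndex_le_of_le_left ?_ Subgroup.index_ne_zero_of_finite).trans
        ((Subgroup.inf_relIndex_left F CA).le.trans hTc.le))
      exact fun k hk => Subgroup.mem_centralizer_iff.2 fun b hb' =>
        (Subgroup.mem_centralizer_iff.1 hb'.2 k hk).symm
    have h2 : CF.relIndex B' ≤ c := (Nat.pow_le_pow_iff_left two_ne_zero).1 h1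
    have h3 := Subgroup.relIndex_mul_relIndex D M B' le_sup_right (sup_le hAQB hDB)
    have h4 : c ≤ D.relIndex M := by
      rw [hcs', hs', ← hDX _ inf_le_right]
      exact Subgroup.relIndex_le_of_le_right le_sup_left Subgroup.index_ne_zero_of_finite
    rw [hDX B' inf_le_left] at h3
    have h5 : c * M.relIndex B' ≤ c * 1 := by
      rw [mul_one]
      exact (Nat.mul_le_mul_right _ h4).trans (h3.le.trans h2)
    exact Subgroup.relIndex_eq_one.1 (le_antisymm (Nat.le_of_mul_le_mul_left h5 hc0)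
      (Nat.pos_of_ne_zero Subgroup.index_ne_zero_of_finite))
  have hAQc : ∀ a ∈ A, ∀ q ∈ Q, ⁅a, q⁆ ∈ B' := by
    intro a ha q hq
    refine ⟨?_, Subgroup.mem_centralizer_iff.2 fun k hk => ?_⟩
    · rw [commutatorElement_def]
      exact Q.mul_mem ((Subgroup.mem_normalizer_iff.1 (hQn (hAL ha)) q).1 hq) (Q.inv_mem hq)
    · have hk' := hQK q⁻¹ (Q.inv_mem hq) k hk
      rw [inv_inv] at hk'
      have hinv : a⁻¹ = a := inv_eq_of_mul_eq_one_right (mul_self_of_elementary hA.2.1 ha)
      have e1 : a * (q⁻¹ * k * q) * a⁻¹ = q⁻¹ * k * q := by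
        rw [Subgroup.mem_centralizer_iff.1 hk'.2 a ha, mul_inv_cancel_right]
      have e1' : a⁻¹ * (q⁻¹ * k * q) * a = q⁻¹ * k * q := by
        conv_lhs => rw [← e1]
        group
      have e2 : ⁅a, q⁆ * k * ⁅a, q⁆⁻¹ = k := by
        rw [commutatorElement_def]
        calc a * q * a⁻¹ * q⁻¹ * k * (a * q * a⁻¹ * q⁻¹)⁻¹
            = a * q * (a⁻¹ * (q⁻¹ * k * q) * a) * q⁻¹ * a⁻¹ := by group
          _ = a * k * a⁻¹ := by rw [e1']; group
          _ = k := by rw [Subgroup.mem_centralizer_iff.1 hk.2 a ha, mul_inv_cancel_right]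
      exact (mul_inv_eq_iff_eq_mul.1 e2).symm
  -- the Frattini quotient of `Q` modulo `C_Q(F)`
  set Φ := (frattini Q).map Q.subtype with hΦ
  set P' := Φ ⊔ D with hP'
  have hΦn : L ≤ Subgroup.normalizer (Φ : Set G) :=
    hQn.trans (normalizer_le_map_char Q _ frattini_characteristic)
  have hDnL : L ≤ Subgroup.normalizer (D : Set G) :=
    le_normalizer_inf hQn (hFn.trans (normalizer_le_normalizer_centralizer F))
  have hP'n : L ≤ Subgroup.normalizer (P' : Set G) := le_normalizer_sup hΦn hDnL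
  have hP'Q : P' ≤ Q := sup_le (Subgroup.map_subtype_le _) inf_le_left
  haveI : (P'.subgroupOf Q).Normal :=
    (Subgroup.normal_subgroupOf_iff_le_normalizer hP'Q).2 ((oTwo_le L).trans hP'n)
  have hfr := H19.commutator_pow_mem_frattini (hQ2 : IsPGroup 2 Q)
  have hQsq : ∀ v ∈ Q, v * v ∈ P' := fun v hv => by
    have := Subgroup.mem_map_of_mem Q.subtype (hfr.2 ⟨v, hv⟩)
    rw [sq] at this
    exact Subgroup.mem_sup_left this
  letI : CommGroup (Q ⧸ P'.subgroupOf Q) :=
    { (inferInstance : Group (Q ⧸ P'.subgroupOf Q)) with mul_comm := comm_of_sq (section_sq hQsq) }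
  set φ0 : L →* MulAut (Q ⧸ P'.subgroupOf Q) := secAct hQn hP'n with hφ0
  set N0 := φ0.ker.map L.subtype with hN0
  have hQN0 : Q ≤ N0 := by
    intro q hq
    refine ⟨⟨q, oTwo_le L hq⟩, mem_secAct_ker.2 fun v hv => ?_, rfl⟩
    refine Subgroup.mem_sup_left (Subgroup.mem_map_of_mem Q.subtype (x := ⁅(⟨q, hq⟩ : Q), (⟨v, hv⟩ : Q)⁆) (hfr.1 ?_))
    rw [commutator_def]
    exact Subgroup.commutator_mem_commutator (Subgroup.mem_top _) (Subgroup.mem_top _)
  by_cases hN0S : L ≤ N0 ⊔ S
  swap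
  · have hO0 := pCore_quotient_eq_bot_of_dichotomy hS hdich φ0.ker hQN0 hN0S
    have hN0' : N0 ⊓ S ≤ Q :=
      (hdich N0 (Subgroup.map_subtype_le _) (le_normalizer_map_subtype φ0.ker)).resolve_left hN0S
    have hkA0 : φ0.ker.relIndex (A.subgroupOf L) = c := by
      rw [← subgroupOf_map_eq φ0.ker, Subgroup.relIndex_subgroupOf hAL, hc,
        ← Subgroup.inf_relIndex_right, ← Subgroup.inf_relIndex_right Q A]
      congr 1
      exact le_antisymm (le_inf (fun x hx => hN0' ⟨hx.1, hAS hx.2⟩) inf_le_right)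
        (inf_le_inf_right _ hQN0)
    have hb4 := (bound_quot hL φ0 (section_sq hQsq) hO0 (A.subgroupOf L)
      (fun a ha b hb' => by
        rw [← map_mul, ← map_mul]
        exact congrArg φ0 (Subtype.ext (comm_of_elementary hA.2.1 ha hb')))
      (fun a ha => by
        rw [← map_mul, show a * a = 1 from Subtype.ext (mul_self_of_elementary hA.2.1 ha), map_one])).2
    rw [hkA0] at hb4
    set mkQ := QuotientGroup.mk' (P'.subgroupOf Q) with hmkQ
    have hcs2 := commSub_card_le_relIndex φ0 mkQ (QuotientGroup.mk'_surjective _)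
      ((A.subgroupOf L : Subgroup L) : Set L) (A ⊓ Q) D inf_le_right
      (fun x hx => (QuotientGroup.eq_one_iff x).2 (Subgroup.mem_sup_right hx))
      (fun a ha v => by
        obtain ⟨x, hx, d, hd, e⟩ := exists_mul_of_mem_sup (inf_le_right.trans hDn)
          (hBM (hAQc a ha v v.2))
        refine ⟨⟨x, hx.2⟩, hx, ?_⟩
        rw [delta_apply, hmkQ, hφ0, QuotientGroup.mk'_apply, QuotientGroup.mk'_apply, secAct_mk,
          ← QuotientGroup.mk_div]
        have hdQ : d ∈ Q := hd.1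
        have : (conjRestrict hQn a v / v : Q) = (⟨x, hx.2⟩ : Q) * ⟨d, hdQ⟩ := Subtype.ext (by
          show ((conjRestrict hQn a v / v : Q) : G) = x * d
          rw [e]
          simp [conjRestrict_apply, commutatorElement_def, div_eq_mul_inv])
        rw [this, QuotientGroup.mk_mul]
        exact mul_eq_left.2 ((QuotientGroup.eq_one_iff (⟨d, hdQ⟩ : Q)).2 (Subgroup.mem_sup_right hd)))
    have h6 : c ^ 2 ≤ c := by
      refine hb4.trans (hcs2.trans ?_)
      rw [hDX _ inf_le_right, ← hs', hcs']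
    exact hc1 (le_antisymm (by nlinarith) hc0)
  -- odd order elements of the Fitting subgroup preserve `K`
  haveI := hL.1
  set π := QuotientGroup.mk' φ.ker with hπ
  set ψ := QuotientGroup.kerLift φ with hψ
  have hψπ : ∀ l, ψ (π l) = φ l := fun l => rfl
  have hψinj := QuotientGroup.kerLift_injective φ
  haveI := H19.fitting_normal (L ⧸ φ.ker)
  set FH := Cfsg.fittingSubgroup (L ⧸ φ.ker) with hFH
  have hFHodd : Odd (Nat.card FH) := fitting_odd hO
  set P0 := φ0.ker.map π with hP0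
  haveI : P0.Normal := (MonoidHom.normal_ker φ0).map π (QuotientGroup.mk'_surjective _)
  set Sb := (S.subgroupOf L).map π with hSb
  have htop : P0 ⊔ Sb = ⊤ := by
    have h1 : φ0.ker ⊔ S.subgroupOf L = ⊤ := by
      refine Subgroup.map_injective L.subtype_injective ?_
      rw [Subgroup.map_sup, Subgroup.map_subgroupOf_eq_of_le hS.1, ← MonoidHom.range_eq_map,
        Subgroup.range_subtype]
      exact le_antisymm (sup_le (Subgroup.map_subtype_le _) hS.1) hN0S
    rw [hP0, hSb, ← Subgroup.map_sup, h1, Subgroup.map_top_of_surjective _ (QuotientGroup.mk'_surjective _)]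
  obtain ⟨k2, hk2⟩ : ∃ k, P0.index = 2 ^ k := by
    have hSb2 : IsPGroup 2 Sb := ((hS.2.1.of_equiv (Subgroup.subgroupOfEquivOfLe hS.1).symm)).map π
    obtain ⟨m, hm⟩ := IsPGroup.iff_card.1 hSb2
    have h1 : P0.index ∣ 2 ^ m := by
      rw [← hm, ← Subgroup.relIndex_top_right, ← htop, Subgroup.relIndex_sup_left]
      exact Subgroup.relIndex_dvd_card _ _
    obtain ⟨k, -, hk⟩ := (Nat.dvd_prime_pow Nat.prime_two).1 h1
    exact ⟨k, hk⟩
  have hlift : ∀ h ∈ FH, ∃ y : L, π y = h ∧ y ∈ φ0.ker ∧ Odd (orderOf (y : G)) := by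
    intro h hh
    have hodd : Odd (orderOf h) := hFHodd.of_dvd_nat (Subgroup.orderOf_dvd_natCard _ hh)
    obtain ⟨j, hj⟩ := exists_pow_eq_self_of_coprime (n := 2 ^ k2) (x := h)
      ((Nat.coprime_two_left.2 hodd).pow_left k2)
    have hP : h ∈ P0 := hj ▸ P0.pow_mem (hk2 ▸ P0.pow_index_mem h) j
    obtain ⟨y0, hy0, rfl⟩ := hP
    obtain ⟨k, m, hm, e⟩ := Nat.exists_eq_two_pow_mul_odd (orderOf_pos (y0 : G)).ne'
    obtain ⟨i, hi⟩ := exists_pow_eq_self_of_coprime (n := 2 ^ k) (x := π y0)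
      ((Nat.coprime_two_left.2 hodd).pow_left k)
    refine ⟨(y0 ^ 2 ^ k) ^ i, by rw [map_pow, map_pow, hi], Subgroup.pow_mem _ (Subgroup.pow_mem _ hy0 _) i, ?_⟩
    refine hm.of_dvd_nat (orderOf_dvd_of_pow_eq_one ?_)
    rw [Subgroup.coe_pow, Subgroup.coe_pow, ← pow_mul, ← pow_mul,
      show 2 ^ k * (i * m) = 2 ^ k * m * i by ring, pow_mul, ← e, pow_orderOf_eq_one, one_pow]
  set Kb := (K.subgroupOf F).map mkF with hKb
  have hpres : ∀ h ∈ FH, ∀ u ∈ Kb, ψ h u ∈ Kb := by
    intro h hh u hu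
    obtain ⟨y, rfl, hyk, hyodd⟩ := hlift h hh
    obtain ⟨w, hw, rfl⟩ := hu
    have hQy : Q ≤ D ⊔ (Q ⊓ Subgroup.centralizer ({(y : G)} : Set G)) :=
      le_sup_centralizer_of_trivial_mod hQ2 inf_le_left hyodd (hQn y.2) (hDnL y.2) hDn (fun q hq => by
        rw [← commutatorElement_inv]
        exact Subgroup.inv_mem _ (mem_secAct_ker.1 hyk q hq))
    refine ⟨conjRestrict hFn y w, ⟨(conjRestrict hFn y w).2, ?_⟩, rfl⟩
    refine hKB ⟨(conjRestrict hFn y w).2, Subgroup.mem_centralizer_iff.2 fun q hq => ?_⟩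
    have hqmem := hQy hq.2
    rw [sup_comm] at hqmem
    obtain ⟨z, hz, d, hd, e⟩ := exists_mul_of_mem_sup (inf_le_left.trans hDn) hqmem
    set f := conjRestrict hFn y w with hf
    have hdf : d * (f : G) = (f : G) * d := (Subgroup.mem_centralizer_iff.1 hd.2 _ f.2).symm
    have hdw : d * (w : G) = (w : G) * d := (Subgroup.mem_centralizer_iff.1 hd.2 _ w.2).symm
    have hzy : z * (y : G) = (y : G) * z := Subgroup.mem_centralizer_singleton_iff.1 hz.2
    have hqw : q * (w : G) = (w : G) * q := Subgroup.mem_centralizer_iff.1 hw.2 q hq.1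
    have hzw : z * (w : G) = (w : G) * z := by
      rw [← e, mul_assoc, hdw, ← mul_assoc, ← mul_assoc] at hqw
      exact mul_right_cancel hqw
    have hyz : (y : G)⁻¹ * z = z * (y : G)⁻¹ := by
      calc (y : G)⁻¹ * z = (y : G)⁻¹ * (z * y) * (y : G)⁻¹ := by group
        _ = z * (y : G)⁻¹ := by rw [hzy]; group
    rw [← e]
    show z * d * ((y : G) * w * (y : G)⁻¹) = (y : G) * w * (y : G)⁻¹ * (z * d)
    calc z * d * ((y : G) * w * (y : G)⁻¹)
        = z * (((y : G) * w * (y : G)⁻¹) * d) := by rw [mul_assoc, ← conjRestrict_apply hFn, hdf]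
      _ = (z * y) * w * (y : G)⁻¹ * d := by group
      _ = (y : G) * (z * w) * (y : G)⁻¹ * d := by rw [hzy]; group
      _ = (y : G) * w * ((y : G)⁻¹ * z) * d := by rw [hzw, hyz]; group
      _ = (y : G) * w * (y : G)⁻¹ * (z * d) := by group
  -- the pointwise stabiliser of `K̄` in the Fitting subgroup
  let Fix : Subgroup (L ⧸ φ.ker) :=
    { carrier := {h | ∀ u ∈ Kb, ψ h u = u}
      one_mem' := fun u _ => by simp
      mul_mem' := fun {g h} hg hh u hu => by rw [map_mul, MulAut.mul_apply, hh u hu, hg u hu]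
      inv_mem' := fun {g} hg u hu => by
        conv_lhs => rw [← hg u hu]
        rw [← MulAut.mul_apply, ← map_mul, inv_mul_cancel, map_one, MulAut.one_apply] }
  set E := FH ⊓ Fix with hE
  set Ab := (A.subgroupOf L).map π with hAb
  have hAb2 : ∀ a ∈ Ab, a * a = 1 := by
    rintro _ ⟨a, ha, rfl⟩
    rw [← map_mul, show a * a = 1 from Subtype.ext (mul_self_of_elementary hA.2.1 ha), map_one]
  have hAbc : ∀ a ∈ Ab, ∀ b ∈ Ab, a * b = b * a := by
    rintro _ ⟨a, ha, rfl⟩ _ ⟨b, hb', rfl⟩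
    rw [← map_mul, ← map_mul]
    exact congrArg π (Subtype.ext (comm_of_elementary hA.2.1 ha hb'))
  have hAfix : ∀ a ∈ Ab, ∀ u ∈ Kb, ψ a u = u := by
    rintro _ ⟨a, ha, rfl⟩ _ ⟨w, hw, rfl⟩
    rw [hψπ, hφ, hmkF, QuotientGroup.mk'_apply, secAct_mk]
    refine congrArg _ (Subtype.ext ?_)
    have e' : (a : G) * (w : G) = (w : G) * (a : G) := Subgroup.mem_centralizer_iff.1 hw.2 _ ha
    rw [conjRestrict_apply, e', mul_inv_cancel_right]
  obtain ⟨e0, he0, he01⟩ : ∃ e ∈ E, e ≠ 1 := by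
    by_contra h
    push Not at h
    have hA1 : ∀ a ∈ Ab, a = 1 := by
      intro a ha
      refine eq_one_of_centralizes_fitting hO (hAb2 a ha) fun x hx => ?_
      have hinv : a⁻¹ = a := inv_eq_of_mul_eq_one_right (hAb2 a ha)
      have hxa : a * x * a⁻¹ ∈ FH := ‹FH.Normal›.conj_mem x hx a
      have h1 : a * x * a⁻¹ * x⁻¹ ∈ E := by
        refine ⟨FH.mul_mem hxa (FH.inv_mem hx), fun u hu => ?_⟩
        have hu' := hpres x⁻¹ (FH.inv_mem hx) u hu
        have e3 : ψ x (ψ x⁻¹ u) = u := by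
          rw [← MulAut.mul_apply, ← map_mul, mul_inv_cancel, map_one, MulAut.one_apply]
        rw [map_mul, map_mul, map_mul, MulAut.mul_apply, MulAut.mul_apply, MulAut.mul_apply, hinv,
          hAfix a ha _ hu', e3, hAfix a ha u hu]
      have h2 := h _ h1
      rw [mul_inv_eq_one, mul_inv_eq_iff_eq_mul] at h2
      exact h2
    refine hc1 ?_
    rw [← hkA, Subgroup.relIndex_eq_one]
    intro a ha
    have := hA1 _ (Subgroup.mem_map_of_mem π ha)
    rwa [hπ, QuotientGroup.mk'_apply, QuotientGroup.eq_one_iff] at this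
  set T' := commSub ψ ((E : Subgroup (L ⧸ φ.ker)) : Set (L ⧸ φ.ker)) with hT'
  have hT'ne : ¬ T' ≤ ⊥ := by
    intro h
    refine he01 (hψinj ?_)
    rw [map_one]
    refine MulEquiv.ext fun u => ?_
    have h2 := h (delta_mem_commSub (φ := ψ) he0 u)
    rw [Subgroup.mem_bot, delta_apply, div_eq_one] at h2
    exact h2
  have hinvT : ∀ a ∈ (Ab : Set (L ⧸ φ.ker)), ∀ u ∈ T', ψ a u ∈ T' := by
    intro a ha u hu
    induction hu using Subgroup.closure_induction with
    | mem u hu =>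
      obtain ⟨e, he, v, rfl⟩ := hu
      have he' : a * e * a⁻¹ ∈ E := by
        refine ⟨‹FH.Normal›.conj_mem e he.1 a, fun k hk => ?_⟩
        rw [map_mul, map_mul, MulAut.mul_apply, MulAut.mul_apply,
          hAfix a⁻¹ (Subgroup.inv_mem _ ha) k hk, he.2 k hk, hAfix a ha k hk]
      have := delta_mem_commSub (φ := ψ) he' (ψ a v)
      rw [delta_apply, ← MulAut.mul_apply, ← map_mul, inv_mul_cancel_right, map_mul,
        MulAut.mul_apply, ← map_div, ← delta_apply] at this
      exact this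
    | one => rw [map_one]; exact T'.one_mem
    | mul u v _ _ hu hv => rw [map_mul]; exact T'.mul_mem hu hv
    | inv u _ hu => rw [map_inv]; exact T'.inv_mem hu
  obtain ⟨w, hwT, hw1, hwfix⟩ := exists_fixed_mod ψ (section_sq hFsq) (Ab : Set (L ⧸ φ.ker))
    hAb2 hAbc T' ⊥ hinvT (fun b _ w hw => by rw [Subgroup.mem_bot] at hw ⊢; rw [hw, map_one]) hT'ne
  have hfixeq : fixedSub ψ (Ab : Set (L ⧸ φ.ker)) = Kb := by
    have hle : Kb ≤ fixedSub ψ (Ab : Set (L ⧸ φ.ker)) := fun u hu a ha => hAfix a ha u hu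
    have hfix2 : fixedSub φ ((A.subgroupOf L : Subgroup L) : Set L) =
        fixedSub ψ (Ab : Set (L ⧸ φ.ker)) := by
      ext v
      rw [mem_fixedSub, mem_fixedSub]
      constructor
      · rintro h _ ⟨a, ha, rfl⟩; exact h a ha
      · exact fun h a ha => h _ ⟨a, ha, rfl⟩
    have h1 : c ^ 2 ≤ (fixedSub ψ (Ab : Set (L ⧸ φ.ker))).index := hfix2 ▸ hb3.1
    have h2 : Kb.index ≤ c ^ 2 := by
      rw [← hTc, hT, ← Subgroup.inf_relIndex_left F CA]
      exact Nat.le_of_dvd (Nat.pos_of_ne_zero Subgroup.index_ne_zero_of_finite)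
        (Subgroup.index_map_dvd _ (QuotientGroup.mk'_surjective _))
    refine (Subgroup.eq_of_le_of_card_ge hle ?_).symm
    have e1 := Kb.card_mul_index
    have e2 := (fixedSub ψ (Ab : Set (L ⧸ φ.ker))).card_mul_index
    have hpos : 0 < Kb.index := Nat.pos_of_ne_zero Subgroup.index_ne_zero_of_finite
    refine Nat.le_of_mul_le_mul_right ?_ hpos
    calc Nat.card (fixedSub ψ (Ab : Set (L ⧸ φ.ker))) * Kb.index
        ≤ Nat.card (fixedSub ψ (Ab : Set (L ⧸ φ.ker))) * (fixedSub ψ (Ab : Set (L ⧸ φ.ker))).index :=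
          Nat.mul_le_mul_left _ (h2.trans h1)
      _ = Nat.card Kb * Kb.index := e2.trans e1.symm
  have hwK : w ∈ Kb := by
    rw [← hfixeq]
    intro a ha
    have h := hwfix a ha
    rw [Subgroup.mem_bot, delta_apply, div_eq_one] at h
    exact h
  have hwE : ∀ e ∈ E, ψ e w = w := fun e he => he.2 w hwK
  haveI : Fintype E := Fintype.ofFinite E
  let Nm : (F ⧸ F1.subgroupOf F) →* (F ⧸ F1.subgroupOf F) :=
    { toFun := fun v => ∏ e : E, ψ (e : L ⧸ φ.ker) v
      map_one' := by simp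
      map_mul' := fun u v => by simp [Finset.prod_mul_distrib] }
  have hT'ker : T' ≤ Nm.ker := by
    refine (Subgroup.closure_le _).2 ?_
    rintro _ ⟨e, he, v, rfl⟩
    rw [SetLike.mem_coe, MonoidHom.mem_ker, delta_apply, map_div, div_eq_one]
    show ∏ x : E, ψ (x : L ⧸ φ.ker) (ψ e v) = ∏ x : E, ψ (x : L ⧸ φ.ker) v
    refine Fintype.prod_equiv (Equiv.mulRight (⟨e, he⟩ : E)) _ _ fun x => ?_
    rw [Equiv.coe_mulRight, Subgroup.coe_mul, map_mul, MulAut.mul_apply]
  have h0 : ∏ x : E, ψ (x : L ⧸ φ.ker) w = 1 := hT'ker hwT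
  rw [Finset.prod_congr rfl (fun (x : E) _ => hwE x x.2), Finset.prod_const, Finset.card_univ,
    ← Nat.card_eq_fintype_card] at h0
  obtain ⟨i, hi⟩ := hFHodd.of_dvd_nat (Subgroup.card_dvd_of_le (inf_le_left : E ≤ FH))
  rw [hi, pow_succ, pow_mul, sq, section_sq hFsq, one_pow, one_mul] at h0
  exact hw1 (Subgroup.mem_bot.2 h0)

end Cfsg.Agent.H83
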