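import Cfsg.Agent.H19.PiSeparable
import Cfsg.Agent.H84.PSolvable
import Cfsg.Agent.H20.SchurZassenhaus
import Mathlib

/-! `p`-complements of `p`-soluble groups: existence and dominance. -/

set_option autoImplicit false

namespace Cfsg.Agent.H83

universe u

/-- The order of a subgroup prime to `p` divides the order of any subgroup of `p`-power index. -/
theorem card_dvd_of_pPower_index {G : Type*} [Group G] [Finite G] {p : ℕ} (U H : Subgroup G) {n : ℕ}
    (hU : (Nat.card U).Coprime p) (hH : H.index = p ^ n) : Nat.card U ∣ Nat.card H := by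
  have h1 := U.card_subgroup_dvd_card
  rw [← H.card_mul_index, hH] at h1
  exact (hU.pow_right n).dvd_of_dvd_mul_right h1

theorem exists_pComplement {G : Type*} [Group G] [Finite G] {p : ℕ} [hp : Fact p.Prime]
    (hG : Cfsg.IsPSolvable p G) :
    ∃ H : Subgroup G, (Nat.card H).Coprime p ∧ ∃ n : ℕ, H.index = p ^ n := by
  obtain ⟨n, K, h0, hn, hmono, hnor, hstep⟩ := hG
  obtain ⟨H, hH1, hH2⟩ := H19.piHall_exists_of_series (π := {q : ℕ | q ≠ p})
    ⟨n, K, h0, hn, hmono, hnor, fun i => by
      rcases hstep i with ⟨m, hm⟩ | hc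
      · exact Or.inr fun q hq hd => not_not.2 ((Nat.prime_dvd_prime_iff_eq hq hp.out).1
          (hq.dvd_of_dvd_pow (hm ▸ hd)))
      · exact Or.inl fun q hq hd hqp => hp.out.one_lt.ne' (Nat.eq_one_of_dvd_coprimes hc (hqp ▸ hd) dvd_rfl)⟩
  refine ⟨H, (Nat.coprime_comm).1 (hp.out.coprime_iff_not_dvd.2 fun hd => hH1 p hp.out hd rfl),
    H.index.factorization p, ?_⟩
  refine (Nat.eq_pow_of_factorization_eq_single ?_ ?_)
  · exact Subgroup.index_ne_zero_of_finite
  · ext q
    by_cases hqp : q = p
    · subst hqp; simp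
    · rw [Finsupp.single_eq_of_ne hqp]
      by_cases hq : q.Prime
      · exact Nat.factorization_eq_zero_of_not_dvd fun hd => hH2 q hq hqp hd
      · exact Nat.factorization_eq_zero_of_not_prime _ hq

/-- In a `p`-soluble group every `p'`-subgroup is conjugate into any given `p`-complement. -/
theorem pComplement_dominant {G : Type u} [Group G] [Finite G] {p : ℕ} [hp : Fact p.Prime]
    (hG : Cfsg.IsPSolvable p G) (H : Subgroup G) (hH : (Nat.card H).Coprime p) {n : ℕ}
    (hHi : H.index = p ^ n) (U : Subgroup G) (hU : (Nat.card U).Coprime p) :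
    ∃ g : G, U.map (MulAut.conj g).toMonoidHom ≤ H := by
  revert hG H hH n hHi U hU
  induction hc : Nat.card G using Nat.strong_induction_on generalizing G with
  | _ c ih =>
    subst hc
    intro hG H hH n hHi U hU
    rcases subsingleton_or_nontrivial G with hs | hs
    · refine ⟨1, fun x _ => ?_⟩
      rw [Subsingleton.elim x 1]
      exact H.one_mem
    -- reduction modulo a normal subgroup
    have step : ∀ N : Subgroup G, N.Normal → N ≠ ⊥ →
        ∃ g : G, U.map (MulAut.conj g).toMonoidHom ≤ H ⊔ N := by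
      intro N hN hN0
      haveI := hN
      set q := QuotientGroup.mk' N with hq
      have hsurj := QuotientGroup.mk'_surjective N
      have hlt : Nat.card (G ⧸ N) < Nat.card G := H19.card_quotient_lt N hN0
      obtain ⟨j, -, hj⟩ := (Nat.dvd_prime_pow hp.out).1 (hHi ▸ H.index_map_dvd hsurj)
      obtain ⟨gb, hgb⟩ := ih _ hlt (G := G ⧸ N) rfl (H84.isPSolvable_of_surjective q hsurj hG)
        (H.map q) (hH.coprime_dvd_left (Subgroup.card_map_dvd H q)) hj
        (U.map q) (hU.coprime_dvd_left (Subgroup.card_map_dvd U q))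
      obtain ⟨g, rfl⟩ := hsurj gb
      refine ⟨g, ?_⟩
      rintro _ ⟨u, hu, rfl⟩
      have h1 : q (g * u * g⁻¹) ∈ H.map q := hgb ⟨q u, Subgroup.mem_map_of_mem q hu, by simp [hq]⟩
      have h2 : g * u * g⁻¹ ∈ (H.map q).comap q := h1
      rwa [Subgroup.comap_map_eq, hq, QuotientGroup.ker_mk'] at h2
    rcases H84.pCore_ne_bot_or_pPrimeCore_ne_bot hG with hN0 | hN0
    · haveI := H19.pCore_normal p G
      set N := Cfsg.pCore p G with hN
      have hNp : IsPGroup p N := H19.pCore_isPGroup p
      obtain ⟨g, hg⟩ := step N inferInstance hN0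
      set U' := U.map (MulAut.conj g).toMonoidHom with hU'
      have hU'c : Nat.card U' = Nat.card U :=
        Subgroup.card_map_of_injective (MulAut.conj g).injective
      set H' := H ⊓ (N ⊔ U') with hH'
      have hnN : ∀ K : Subgroup G, K ≤ Subgroup.normalizer (N : Set G) := fun K =>
        le_top.trans (Subgroup.normalizer_eq_top N).ge
      obtain ⟨k, hk⟩ := IsPGroup.iff_card.1 hNp
      have hcop : ∀ K : Subgroup G, (Nat.card K).Coprime p → (Nat.card K).Coprime (Nat.card N) :=
        fun K hK => hk ▸ hK.pow_right k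
      have hH'p : (Nat.card H').Coprime p := hH.coprime_dvd_left (Subgroup.card_dvd_of_le inf_le_left)
      have e : N ⊔ H' = N ⊔ U' := by
        refine le_antisymm (sup_le le_sup_left inf_le_right) fun x hx => ?_
        have hx' : x ∈ N ⊔ H := (sup_le le_sup_left (hg.trans_eq (sup_comm _ _))) hx
        obtain ⟨a, ha, b, hb, rfl⟩ := Subgroup.mem_sup_of_normal_left.1 hx'
        refine Subgroup.mul_mem_sup ha ⟨hb, ?_⟩
        have := Subgroup.mul_mem _ (Subgroup.mem_sup_left (N.inv_mem ha) : a⁻¹ ∈ N ⊔ U') hx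
        rwa [inv_mul_cancel_left] at this
      have hcard : Nat.card H' = Nat.card U' := by
        have h1 := H20.card_sup_of_coprime (hnN H') (hcop H' hH'p)
        rw [e, H20.card_sup_of_coprime (hnN U') (hcop U' (hU'c.symm ▸ hU))] at h1
        exact (Nat.eq_of_mul_eq_mul_left Nat.card_pos h1).symm
      haveI := hNp.isNilpotent
      obtain ⟨m, -, hm⟩ := H20.exists_conj_eq_of_coprime (hnN U') (hcop U' (hU'c.symm ▸ hU))
        (Or.inr inferInstance) (inf_le_right : H' ≤ N ⊔ U') hcard
      refine ⟨m * g, ?_⟩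
      rintro _ ⟨u, hu, rfl⟩
      have h1 : MulAut.conj m (MulAut.conj g u) ∈ H' := by
        have := Subgroup.smul_mem_pointwise_smul (MulAut.conj g u) (MulAut.conj m) U'
          (Subgroup.mem_map_of_mem _ hu)
        rw [hm] at this
        exact this
      have h2 := h1.1
      rw [← MulAut.mul_apply, ← map_mul] at h2
      exact h2
    · haveI := H19.pPrimeCore_normal p G
      set N := Cfsg.pPrimeCore p G with hN
      obtain ⟨g, hg⟩ := step N inferInstance hN0
      refine ⟨g, hg.trans (sup_le le_rfl ?_)⟩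
      have hle : H.relIndex (H ⊔ N) ∣ p ^ n := hHi ▸ Subgroup.relIndex_dvd_index_of_le le_sup_left
      have hcop : (H.relIndex (H ⊔ N)).Coprime (p ^ n) := by
        refine Nat.Coprime.pow_right n (Nat.Coprime.coprime_dvd_left ?_
          (Nat.Coprime.mul_left ((H19.pPrimeCore_coprime p : (Nat.card N).Coprime p)) hH))
        refine (Subgroup.relIndex_dvd_card _ _).trans ?_
        rw [sup_comm]
        exact H19.card_sup_dvd N H
      exact le_sup_right.trans (Subgroup.relIndex_eq_one.1 (Nat.eq_one_of_dvd_coprimes hcop dvd_rfl hle))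

end Cfsg.Agent.H83
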