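import Cfsg.Agent.H83.StableLocalFacts
import Cfsg.Agent.H72.PCore
import Cfsg.Agent.H83.Basic
import Cfsg.Agent.S0626

/-!
A primitive pair of characteristic `p` has non-abelian Sylow `2`-subgroups.

If both members are `p`-stable, the normal closures built alternately from a `p`-reduced subgroup
of each member are elementary abelian and lie in both `O_p`'s; their union would be normal in both.
-/

set_option autoImplicit false

open Subgroup
open scoped commutatorElement

namespace Cfsg.Agent.H83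

variable {G : Type*} [Group G]

/-- Conjugation preserves normalising. -/
theorem map_conj_le_normalizer {A X : Subgroup G} (h : A ≤ normalizer (X : Set G)) (g : G) :
    A.map (MulAut.conj g).toMonoidHom ≤
      normalizer ((X.map (MulAut.conj g).toMonoidHom : Subgroup G) : Set G) :=
  (map_mono h).trans (le_normalizer_map _)

theorem map_conj_conj (A : Subgroup G) (g h : G) :
    (A.map (MulAut.conj g).toMonoidHom).map (MulAut.conj h).toMonoidHom =
      A.map (MulAut.conj (h * g)).toMonoidHom := by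
  rw [Subgroup.map_map]
  congr 1
  ext x; simp [mul_assoc]

theorem map_conj_one (A : Subgroup G) : A.map (MulAut.conj (1 : G)).toMonoidHom = A := by
  refine Eq.trans ?_ A.map_id
  congr 1
  ext x; simp

theorem map_conj_eq_of_normalizes {A M : Subgroup G} (h : M ≤ normalizer (A : Set G)) {m : G}
    (hm : m ∈ M) : A.map (MulAut.conj m).toMonoidHom = A :=
  mem_normalizer_iff_map_conj_eq.1 (h hm)

/-- Mutually normalising subgroups, the first abelian: it acts quadratically on the second. -/
theorem quad_bot {X U : Subgroup G} (hX : X ≤ centralizer (X : Set G))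
    (hUX : U ≤ normalizer (X : Set G)) {r : G} (hr : r ∈ X) :
    ⁅⁅U, zpowers r⁆, zpowers r⁆ = ⊥ := by
  refine le_bot_iff.1 (le_trans (commutator_mono ?_ (zpowers_le.2 hr))
    (commutator_eq_bot_iff_le_centralizer.2 hX).le)
  refine (commutator_mono le_rfl (zpowers_le.2 hr)).trans ?_
  rw [Subgroup.commutator_comm]
  exact le_normalizer_iff_commutator_le_left.1 hUX

theorem le_centralizer_of_isMulCommutative {A : Subgroup G} (hA : IsMulCommutative A) :
    A ≤ centralizer (A : Set G) := fun x hx y hy =>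
  (congrArg Subtype.val (hA.is_comm.comm (⟨y, hy⟩ : A) ⟨x, hx⟩) :)

variable [Finite G] {p : ℕ} [Fact p.Prime]

/-- Everything needed about one member of the pair. -/
structure StableMember (p : ℕ) (M : Subgroup G) : Prop where
  char : centralizer (Cfsg.pCore p M : Set M) ≤ Cfsg.pCore p M
  stable : Cfsg.IsActionPStable p M

theorem subgroupOf_quad {M U : Subgroup G} (hUM : U ≤ M) {r : G} (hr : r ∈ M)
    (h : ⁅⁅U, zpowers r⁆, zpowers r⁆ = ⊥) :
    ⁅⁅U.subgroupOf M, zpowers (⟨r, hr⟩ : M)⁆, zpowers (⟨r, hr⟩ : M)⁆ = ⊥ := by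
  apply (map_eq_bot_iff_of_injective _ M.subtype_injective).1
  rw [map_commutator, map_commutator, subgroupOf_map_subtype, inf_eq_left.2 hUM,
    MonoidHom.map_zpowers]
  exact h

theorem StableMember.le_pCoreOf {M V : Subgroup G} (hM : StableMember p M)
    (hV : V ≤ centralizer (V : Set G)) (hVM : V ≤ M)
    (hOV : Cfsg.pCoreOf p M ≤ normalizer (V : Set G)) : V ≤ Cfsg.pCoreOf p M := by
  have h := le_pCore_of_quadratic hM.stable hM.char (V.subgroupOf M)
    (fun x hx y hy => Subtype.ext (hV hx y hy)) (fun x hx => by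
      have h1 := mem_normalizer_iff.1 (hOV (mem_map_of_mem M.subtype hx))
      exact mem_normalizer_iff.2 fun y => h1 y)
  intro v hv
  exact ⟨⟨v, hVM hv⟩, h hv, rfl⟩

theorem StableMember.exists_reduced {M : Subgroup G} (hM : StableMember p M) (hne : M ≠ ⊥) :
    ∃ W : Subgroup G, W ≤ Cfsg.pCoreOf p M ∧ M ≤ normalizer (W : Set G) ∧
      Cfsg.IsElementaryAbelian p W ∧ W ≠ ⊥ ∧
      ∀ X : Subgroup G, X ≤ centralizer (X : Set G) → X ≤ M → W ≤ normalizer (X : Set G) →
        W ≤ centralizer (X : Set G) := by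
  haveI : Nontrivial M := (nontrivial_iff_ne_bot M).2 hne
  obtain ⟨W, hWn, hWe, hW1, hWq⟩ := Cfsg.Agent.H83.exists_reduced hM.stable hM.char
  have hWM : W.map M.subtype ≤ M := map_subtype_le W
  refine ⟨W.map M.subtype, map_mono ?_, ?_, ⟨?_, ?_⟩, ?_, ?_⟩
  · exact H72.le_pCore hWn fun x => ⟨1, Subtype.ext (by simpa using hWe.2 x x.2)⟩
  · intro m hm
    refine mem_normalizer_iff_map_conj_eq.2 ?_
    rw [Subgroup.map_map]
    conv_rhs => rw [← Subgroup.Normal.map_conj_eq W (⟨m, hm⟩ : M), Subgroup.map_map]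
    rfl
  · have := hWe.1
    infer_instance
  · rintro _ ⟨w, hw, rfl⟩
    rw [← map_pow, hWe.2 w hw, map_one]
  · rwa [ne_eq, map_eq_bot_iff_of_injective _ M.subtype_injective]
  · intro X hX hXM hWX
    rw [le_centralizer_iff]
    intro x hx
    have h1 := subgroupOf_quad hWM (hXM hx) (quad_bot hX hWX hx)
    rw [subgroupOf, comap_map_eq_self_of_injective M.subtype_injective] at h1
    rintro _ ⟨w, hw, rfl⟩
    exact congrArg Subtype.val (hWq ⟨x, hXM hx⟩ h1 w hw)

theorem StableMember.le_pCoreOf_of_quadratic {M U X R : Subgroup G} (hM : StableMember p M)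
    (hUM : U ≤ M) (hMU : M ≤ normalizer (U : Set G)) (hUe : Cfsg.IsElementaryAbelian p U)
    (hR : IsPGroup p R) (hXR : X ≤ R) (hRM : R ≤ M)
    (hKR : M ⊓ centralizer (U : Set G) ≤ normalizer (R : Set G))
    (hX : X ≤ centralizer (X : Set G)) (hUX : U ≤ normalizer (X : Set G)) :
    X ≤ Cfsg.pCoreOf p M := by
  haveI : (U.subgroupOf M).Normal := normal_subgroupOf_of_le_normalizer hMU
  have hUe' : Cfsg.IsElementaryAbelian p (U.subgroupOf M) :=
    ⟨⟨⟨fun a b => Subtype.ext (Subtype.ext
      (congrArg Subtype.val (hUe.1.is_comm.comm (⟨a, a.2⟩ : U) ⟨b, b.2⟩) :))⟩⟩,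
      fun a ha => Subtype.ext (by simpa using hUe.2 a ha)⟩
  intro x hx
  have h := mem_pCore_of_quadratic hM.stable (U := U.subgroupOf M) hUe' (R := R.subgroupOf M)
    (hR.comap_of_injective M.subtype M.subtype_injective) (fun k hk => by
      refine mem_normalizer_iff.2 fun y => ?_
      exact mem_normalizer_iff.1 (hKR ⟨k.2, fun u hu =>
        congrArg Subtype.val (hk ⟨u, hUM hu⟩ hu)⟩) y)
    (r := ⟨x, hRM (hXR hx)⟩) (hXR hx) (subgroupOf_quad hUM _ (quad_bot hX hUX hx))
  exact ⟨_, h, rfl⟩

/-- Join of the conjugates of `A` under `M`. -/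
def conjJoin (M A : Subgroup G) : Subgroup G :=
  closure {x | ∃ m ∈ M, ∃ a ∈ A, x = m * a * m⁻¹}

omit [Finite G] in
theorem le_conjJoin (M A : Subgroup G) : A ≤ conjJoin M A := fun a ha =>
  Subgroup.subset_closure ⟨1, M.one_mem, a, ha, by simp⟩

omit [Finite G] in
theorem le_normalizer_conjJoin (M A : Subgroup G) :
    M ≤ normalizer (conjJoin M A : Set G) := by
  intro m hm
  have key : ∀ n ∈ M, (conjJoin M A).map (MulAut.conj n).toMonoidHom ≤ conjJoin M A := by
    intro n hn
    rw [conjJoin, MonoidHom.map_closure]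
    refine closure_mono ?_
    rintro _ ⟨_, ⟨k, hk, a, ha, rfl⟩, rfl⟩
    exact ⟨n * k, M.mul_mem hn hk, a, ha, by simp [mul_assoc]⟩
  refine mem_normalizer_iff_map_conj_eq.2 (le_antisymm (key m hm) fun x hx => ?_)
  exact ⟨m⁻¹ * x * m, key m⁻¹ (M.inv_mem hm) ⟨x, hx, by simp⟩, by simp [mul_assoc]⟩

/-- The alternating closures. -/
def pairChain (M W : Bool → Subgroup G) : ℕ → Bool → Subgroup G
  | 0, i => W i
  | n + 1, i => pairChain M W n i ⊔ conjJoin (M i) (pairChain M W n (!i))

omit [Finite G] in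
theorem pairChain_mono (M W : Bool → Subgroup G) : Monotone (pairChain M W) :=
  monotone_nat_of_le_succ fun _ _ => le_sup_left

/-- Two `p`-stable members cannot form a primitive pair. -/
theorem no_stable_primitive_pair (M : Bool → Subgroup G) (hne : M true ≠ M false)
    (hM : ∀ i, StableMember p (M i)) (hnt : ∀ i, M i ≠ ⊥)
    (hO : ∀ i, Cfsg.pCoreOf p (M i) ≤ M (!i))
    (hP : ∀ i, ∀ A : Subgroup G, A ≠ ⊥ → A ≤ M i → A ≤ M (!i) →
      M i ≤ normalizer (A : Set G) → M (!i) ⊓ normalizer (A : Set G) ≤ M i) : False := by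
  classical
  choose W hWO hWn hWe hW1 hWq using fun i => (hM i).exists_reduced (hnt i)
  set O := fun i => Cfsg.pCoreOf p (M i) with hOdef
  have hOM : ∀ i, O i ≤ M i := fun i => H72.pCoreOf_le p (M i)
  have hOn : ∀ i, M i ≤ normalizer (O i : Set G) := fun i => H72.le_normalizer_pCoreOf p (M i)
  set V := pairChain M W with hVdef
  have hVsucc : ∀ n i, V (n + 1) i = V n i ⊔ conjJoin (M i) (V n (!i)) := fun n i => rfl
  have hWV : ∀ n i, W i ≤ V n i := fun n i => pairChain_mono M W (Nat.zero_le n) i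
  have hV1 : ∀ n i, 1 ≤ n → V 1 i ≤ V n i := fun n i hn => pairChain_mono M W hn i
  have hVn : ∀ n i, M i ≤ normalizer (V n i : Set G) := by
    intro n
    induction n with
    | zero => exact hWn
    | succ n ih => exact fun i => le_normalizer_sup (ih i) (le_normalizer_conjJoin _ _)
  -- the invariants
  suffices key : ∀ n, (∀ i, Cfsg.IsElementaryAbelian p (V n i) ∧ V n i ≤ O i ∧ V n i ≤ O (!i)) ∧
      (∀ i, ∀ X : Subgroup G, X ≤ centralizer (X : Set G) → X ≤ O i →
        V n i ≤ normalizer (X : Set G) → V n i ≤ centralizer (X : Set G)) by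
    obtain ⟨N, hN⟩ := WellFoundedGT.monotone_chain_condition ⟨V, pairChain_mono M W⟩
    have heq : ∀ i, conjJoin (M i) (V N (!i)) ≤ V N i := fun i => by
      have h := congrFun (hN (N + 1) (Nat.le_succ N)) i
      change V N i = V (N + 1) i at h
      rw [h]; exact le_sup_right
    have hle : ∀ i, V N (!i) ≤ V N i := fun i => (le_conjJoin _ _).trans (heq i)
    have hsame : V N true = V N false := le_antisymm (hle false) (hle true)
    have hbot : ∀ i, V N i ≠ ⊥ := fun i h => hW1 i (le_bot_iff.1 (h ▸ hWV N i))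
    have hinc : ∀ i, M (!i) ≤ M i := by
      intro i
      have hboth : M (!i) ≤ normalizer (V N i : Set G) := by
        cases i
        · exact hsame ▸ hVn N true
        · exact hsame.symm ▸ hVn N false
      refine le_trans (le_inf le_rfl hboth) (hP i _ (hbot i) ?_ ?_ (hVn N i))
      · exact ((key N).1 i).2.1.trans (hOM i)
      · exact ((key N).1 i).2.1.trans (hO i)
    exact hne (le_antisymm (hinc false) (hinc true))
  -- upgrading from `O i` to `O j`
  intro n
  induction n with
  | zero =>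
    refine ⟨fun i => ⟨hWe i, hWO i, ?_⟩, fun i X hX hXO hVX => hWq i X hX (hXO.trans (hOM i)) hVX⟩
    exact (hM (!i)).le_pCoreOf (le_centralizer_of_isMulCommutative (hWe i).1)
      ((hWO i).trans (hO i)) (((hO (!i)).trans (by rw [Bool.not_not])).trans (hWn i))
  | succ n ih =>
    obtain ⟨hA, hB⟩ := ih
    -- an abelian subgroup of `O i` centralises the closure of the other side
    have hB' : ∀ i, ∀ X : Subgroup G, X ≤ centralizer (X : Set G) → X ≤ O i →
        V n (!i) ≤ normalizer (X : Set G) → V n (!i) ≤ centralizer (X : Set G) := by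
      intro i X hX hXO hVX
      rcases Nat.eq_zero_or_pos n with rfl | hn
      · exact hWq (!i) X hX (hXO.trans (hO i)) hVX
      refine hB (!i) X hX ?_ hVX
      have hU : V 1 (!i) ≤ V n (!i) := hV1 n (!i) hn
      have hWU : W i ≤ V 1 (!i) := by
        rw [hVsucc, Bool.not_not]
        exact (le_conjJoin _ _).trans le_sup_right
      refine (hM (!i)).le_pCoreOf_of_quadratic (U := V 1 (!i)) (R := O i)
        (hU.trans ((hA (!i)).2.1.trans (hOM _))) (hVn 1 (!i))
        (H72.isElementaryAbelian_mono (hA (!i)).1 hU)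
        (H72.pCoreOf_isPGroup p (M i)) hXO (hO i) ?_ hX (hU.trans hVX)
      rintro k ⟨hkM, hkC⟩
      refine hOn i (hP i (W i) (hW1 i) ((hWO i).trans (hOM i)) ((hWO i).trans (hO i)) (hWn i)
        ⟨hkM, ?_⟩)
      have hc : k ∈ centralizer (W i : Set G) := centralizer_le hWU hkC
      exact centralizer_le_normalizer _ hc
    have hconjO : ∀ i, ∀ m ∈ M i, (V n (!i)).map (MulAut.conj m).toMonoidHom ≤ O i := by
      intro i m hm
      have h := (hA (!i)).2.2
      rw [Bool.not_not] at h
      exact (map_mono h).trans (map_conj_eq_of_normalizes (hOn i) hm).le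
    have hOVconj : ∀ i, ∀ m ∈ M i,
        O i ≤ normalizer (((V n (!i)).map (MulAut.conj m).toMonoidHom : Subgroup G) : Set G) := by
      intro i m hm
      rw [← map_conj_eq_of_normalizes (hOn i) hm]
      exact map_conj_le_normalizer ((hO i).trans (hVn n (!i))) m
    have hgen : ∀ i, V (n + 1) i ≤ O i := by
      intro i
      refine sup_le (hA i).2.1 ((closure_le _).2 ?_)
      rintro _ ⟨m, hm, a, ha, rfl⟩
      exact hconjO i m hm ⟨a, ha, rfl⟩
    have habel : ∀ i, Cfsg.IsElementaryAbelian p (V (n + 1) i) := by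
      intro i
      have hVO : V n (!i) ≤ O i := by have h := (hA (!i)).2.2; rwa [Bool.not_not] at h
      have hab : ∀ k, V n k ≤ centralizer (V n k : Set G) := fun k =>
        le_centralizer_of_isMulCommutative (hA k).1.1
      have habm : ∀ m, (V n (!i)).map (MulAut.conj m).toMonoidHom ≤
          centralizer (((V n (!i)).map (MulAut.conj m).toMonoidHom : Subgroup G) : Set G) :=
        fun m => (map_mono (hab _)).trans (map_centralizer_le_centralizer_image _ _)
      -- conjugates commute with `V n i`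
      have h1 : ∀ m ∈ M i, V n i ≤
          centralizer (((V n (!i)).map (MulAut.conj m).toMonoidHom : Subgroup G) : Set G) :=
        fun m hm => hB i _ (habm m) (hconjO i m hm) ((hA i).2.1.trans (hOVconj i m hm))
      -- two conjugates commute
      have h2 : ∀ m ∈ M i, ∀ m' ∈ M i, (V n (!i)).map (MulAut.conj m).toMonoidHom ≤
          centralizer (((V n (!i)).map (MulAut.conj m').toMonoidHom : Subgroup G) : Set G) := by
        intro m hm m' hm'
        have hk : m⁻¹ * m' ∈ M i := (M i).mul_mem ((M i).inv_mem hm) hm'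
        have h := hB' i _ (habm _) (hconjO i _ hk) (hVO.trans (hOVconj i _ hk))
        have h' := (map_mono (f := (MulAut.conj m).toMonoidHom) h).trans
          (map_centralizer_le_centralizer_image _ _)
        rw [← coe_map, map_conj_conj, mul_inv_cancel_left] at h'
        exact h'
      set s : Set G := (V n i : Set G) ∪ {x | ∃ m ∈ M i, ∃ a ∈ V n (!i), x = m * a * m⁻¹}
      have hV : V (n + 1) i = closure s := by
        rw [hVsucc, Subgroup.closure_union, Subgroup.closure_eq]
        rfl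
      have hs : ∀ x ∈ s, ∀ y ∈ s, x * y = y * x := by
        rintro x (hx | ⟨m, hm, a, ha, rfl⟩) y (hy | ⟨m', hm', b, hb, rfl⟩)
        · exact (hab i hx y hy).symm
        · exact (h1 m' hm' hx _ ⟨b, hb, rfl⟩).symm
        · exact h1 m hm hy _ ⟨a, ha, rfl⟩
        · exact (h2 m hm m' hm' ⟨a, ha, rfl⟩ _ ⟨b, hb, rfl⟩).symm
      rw [hV]
      haveI hcl : IsMulCommutative (closure s) := isMulCommutative_closure hs
      refine ⟨hcl, fun x hx => ?_⟩
      induction hx using closure_induction with
      | mem x hx =>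
        rcases hx with hx | ⟨m, hm, a, ha, rfl⟩
        · exact (hA i).1.2 x hx
        · rw [conj_pow, (hA (!i)).1.2 a ha, mul_one, mul_inv_cancel]
      | one => exact one_pow p
      | mul x y hx hy ihx ihy =>
        rw [(show Commute x y from
          (congrArg Subtype.val (hcl.is_comm.comm (⟨x, hx⟩ : closure s) ⟨y, hy⟩) :)).mul_pow,
          ihx, ihy, one_mul]
      | inv x _ ihx => rw [inv_pow, ihx, inv_one]
    refine ⟨fun i => ⟨habel i, hgen i, ?_⟩, fun i X hX hXO hVX => ?_⟩
    · exact (hM (!i)).le_pCoreOf (le_centralizer_of_isMulCommutative (habel i).1)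
        ((hgen i).trans (hO i)) (((hO (!i)).trans (by rw [Bool.not_not])).trans (hVn (n + 1) i))
    · refine sup_le (hB i X hX hXO (le_sup_left.trans hVX)) ((closure_le _).2 ?_)
      rintro _ ⟨m, hm, a, ha, rfl⟩
      have hc : (V n (!i)).map (MulAut.conj m).toMonoidHom ≤ normalizer (X : Set G) := by
        refine le_trans ?_ hVX
        rintro _ ⟨b, hb, rfl⟩
        exact mem_sup_right (Subgroup.subset_closure ⟨m, hm, b, hb, rfl⟩)
      have hc' := map_conj_le_normalizer hc m⁻¹
      rw [map_conj_conj, inv_mul_cancel, map_conj_one] at hc'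
      have h := hB' i (X.map (MulAut.conj m⁻¹).toMonoidHom)
        ((map_mono hX).trans (map_centralizer_le_centralizer_image _ _))
        ((map_mono hXO).trans (map_conj_eq_of_normalizes (hOn i) ((M i).inv_mem hm)).le) hc' ha
      intro x hx
      have h3 := h _ ⟨x, hx, rfl⟩
      simp only [MulEquiv.coe_toMonoidHom, MulAut.conj_apply, inv_inv] at h3
      calc x * (m * a * m⁻¹) = m * (m⁻¹ * x * m * a) * m⁻¹ := by group
        _ = m * a * m⁻¹ * x := by rw [h3]; group

/-- The `p = 2` case, and the conclusion. -/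
theorem exists_nonabelian_sylow_two (M₁ M₂ : Subgroup G) (hne : M₁ ≠ M₂)
    (hP : ∀ A : Subgroup G, A ≠ ⊥ → A ≤ M₁ ⊓ M₂ →
      (M₁ ≤ normalizer (A : Set G) → M₂ ⊓ normalizer (A : Set G) = M₁ ⊓ M₂) ∧
      (M₂ ≤ normalizer (A : Set G) → M₁ ⊓ normalizer (A : Set G) = M₁ ⊓ M₂))
    (hc₁ : centralizer (Cfsg.pCore p M₁ : Set M₁) ≤ Cfsg.pCore p M₁)
    (hc₂ : centralizer (Cfsg.pCore p M₂ : Set M₂) ≤ Cfsg.pCore p M₂)
    (hO : Cfsg.pCoreOf p M₁ ⊔ Cfsg.pCoreOf p M₂ ≤ M₁ ⊓ M₂) :
    (∃ S : Sylow 2 M₁, ¬ IsMulCommutative (S : Subgroup M₁)) ∨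
      (∃ S : Sylow 2 M₂, ¬ IsMulCommutative (S : Subgroup M₂)) := by
  by_contra hcon
  push Not at hcon
  obtain ⟨h1, h2⟩ := hcon
  set M : Bool → Subgroup G := fun i => bif i then M₁ else M₂ with hMdef
  have hc : ∀ i, centralizer (Cfsg.pCore p (M i) : Set (M i)) ≤ Cfsg.pCore p (M i) := by
    intro i; cases i <;> assumption
  have hab : ∀ i, ∀ S : Sylow 2 (M i), IsMulCommutative (S : Subgroup (M i)) := by
    intro i; cases i <;> assumption
  have hOle : ∀ i, Cfsg.pCoreOf p (M i) ≤ M (!i) := by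
    intro i
    cases i
    · exact (le_sup_right.trans hO).trans inf_le_left
    · exact (le_sup_left.trans hO).trans inf_le_right
  have hbot : ∀ i, Cfsg.pCoreOf p (M i) = ⊥ → M i = ⊥ := by
    intro i h
    have h0 : Cfsg.pCore p (M i) = ⊥ :=
      (map_eq_bot_iff_of_injective _ (M i).subtype_injective).1 h
    have htop : (⊤ : Subgroup (M i)) ≤ ⊥ := fun x _ => by
      rw [← h0]
      refine hc i fun y hy => ?_
      rw [h0] at hy
      rw [mem_bot.1 hy, one_mul, mul_one]
    refine (eq_bot_iff_forall _).2 fun x hx => ?_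
    exact congrArg Subtype.val (mem_bot.1 (htop (mem_top (⟨x, hx⟩ : M i))))
  have hnt : ∀ i, M i ≠ ⊥ := by
    intro i h
    have h' : Cfsg.pCoreOf p (M (!i)) = ⊥ := le_bot_iff.1 (by
      have := hOle (!i); rwa [Bool.not_not, h] at this)
    have h'' := hbot _ h'
    cases i
    · exact hne (h''.trans h.symm)
    · exact hne (h.trans h''.symm)
  have hP' : ∀ i, ∀ A : Subgroup G, A ≠ ⊥ → A ≤ M i → A ≤ M (!i) →
      M i ≤ normalizer (A : Set G) → M (!i) ⊓ normalizer (A : Set G) ≤ M i := by
    intro i A hA hAi hAj hn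
    cases i
    · exact ((hP A hA (le_inf hAj hAi)).2 hn).le.trans inf_le_right
    · exact ((hP A hA (le_inf hAi hAj)).1 hn).le.trans inf_le_left
  by_cases hp2 : p = 2
  · subst hp2
    have hsyl : ∀ i, ∀ R : Subgroup G, IsPGroup 2 R → R ≤ M i → R ≤ Cfsg.pCoreOf 2 (M i) := by
      intro i R hR hRM r hr
      obtain ⟨S, hS⟩ := (hR.comap_of_injective (M i).subtype (M i).subtype_injective).exists_le_sylow
      refine ⟨⟨r, hRM hr⟩, hc i ?_, rfl⟩
      exact fun y hy => (congrArg Subtype.val ((hab i S).is_comm.comm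
        (⟨y, H72.pCore_le_sylow S hy⟩ : (S : Subgroup (M i))) ⟨⟨r, hRM hr⟩, hS hr⟩) :)
    have heq : ∀ i, Cfsg.pCoreOf 2 (M i) ≤ Cfsg.pCoreOf 2 (M (!i)) := fun i =>
      hsyl _ _ (H72.pCoreOf_isPGroup 2 _) (hOle i)
    have hsame : Cfsg.pCoreOf 2 M₁ = Cfsg.pCoreOf 2 M₂ := le_antisymm (heq true) (heq false)
    have hinc : ∀ i, M (!i) ≤ M i := by
      intro i
      refine le_trans (le_inf le_rfl ?_) (hP' i _ (fun h => hnt i (hbot i h))
        (H72.pCoreOf_le 2 _) (hOle i) (H72.le_normalizer_pCoreOf 2 _))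
      cases i
      · exact hsame ▸ H72.le_normalizer_pCoreOf 2 M₁
      · exact hsame.symm ▸ H72.le_normalizer_pCoreOf 2 M₂
    exact hne (le_antisymm (hinc false) (hinc true))
  · exact no_stable_primitive_pair M hne
      (fun i => ⟨hc i, Cfsg.Agent.S0626.result hp2 (hab i)⟩) hnt hOle hP'

end Cfsg.Agent.H83
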