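import Cfsg.Agent.H83.NormalizesBound
import Mathlib

/-! A group all of whose 2-locals are solvable, of characteristic 2 and without `S₄` section:
a Sylow 2-subgroup lies in a unique maximal 2-local, which is strongly embedded. -/

set_option autoImplicit false
open scoped commutatorElement

namespace Cfsg.Agent.H83

variable {G : Type*} [Group G]

/-- The involutions of the centre of `S` together with 1. -/
def zOmega (S : Subgroup G) : Subgroup G where
  carrier := {x | x ∈ S ⊓ Subgroup.centralizer (S : Set G) ∧ x * x = 1}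
  one_mem' := ⟨Subgroup.one_mem _, mul_one 1⟩
  mul_mem' {x y} hx hy := by
    refine ⟨Subgroup.mul_mem _ hx.1 hy.1, ?_⟩
    have e : y * x = x * y := (Subgroup.mem_centralizer_iff.1 hy.1.2 x hx.1.1).symm
    calc x * y * (x * y) = x * (y * x) * y := by group
      _ = x * x * (y * y) := by rw [e]; group
      _ = 1 := by rw [hx.2, hy.2, one_mul]
  inv_mem' {x} hx := ⟨Subgroup.inv_mem _ hx.1, by rw [← mul_inv_rev, hx.2, inv_one]⟩

theorem zOmega_le (S : Subgroup G) : zOmega S ≤ S := fun _ hx => hx.1.1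

theorem zOmega_le_centralizer (S : Subgroup G) : zOmega S ≤ Subgroup.centralizer (S : Set G) :=
  fun _ hx => hx.1.2

theorem zOmega_elementary (S : Subgroup G) : Cfsg.IsElementaryAbelian 2 (zOmega S) :=
  ⟨⟨⟨fun x y => Subtype.ext (Subgroup.mem_centralizer_iff.1 y.2.1.2 x x.2.1.1)⟩⟩,
    fun a ha => (sq a).trans ha.2⟩

theorem normalizer_le_zOmega (S : Subgroup G) :
    Subgroup.normalizer (S : Set G) ≤ Subgroup.normalizer (zOmega S : Set G) := by
  have key : ∀ g ∈ Subgroup.normalizer (S : Set G), ∀ x ∈ zOmega S, g * x * g⁻¹ ∈ zOmega S := by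
    intro g hg x hx
    refine ⟨⟨(Subgroup.mem_normalizer_iff.1 hg x).1 hx.1.1,
      (Subgroup.mem_normalizer_iff.1 (normalizer_le_normalizer_centralizer S hg) x).1 hx.1.2⟩, ?_⟩
    calc g * x * g⁻¹ * (g * x * g⁻¹) = g * (x * x) * g⁻¹ := by group
      _ = 1 := by rw [hx.2, mul_one, mul_inv_cancel]
  exact Subgroup.le_normalizer_iff.2 fun g hg x hx => key g hg x hx

theorem zOmega_ne_bot [Finite G] {S : Subgroup G} (hS : IsPGroup 2 S) (hne : S ≠ ⊥) : zOmega S ≠ ⊥ := by
  haveI : Fact (Nat.Prime 2) := ⟨Nat.prime_two⟩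
  haveI : Nontrivial S := (Subgroup.nontrivial_iff_ne_bot S).2 hne
  haveI := hS.center_nontrivial
  obtain ⟨k, hk⟩ := IsPGroup.iff_card.1 (hS.to_subgroup (Subgroup.center S))
  have hk0 : k ≠ 0 := by
    rintro rfl
    rw [pow_zero] at hk
    exact absurd (Finite.one_lt_card (α := Subgroup.center S)) (by omega)
  obtain ⟨x, hx⟩ := exists_prime_orderOf_dvd_card' (G := Subgroup.center S) 2 (hk ▸ dvd_pow_self 2 hk0)
  intro h
  have hmem : ((x : S) : G) ∈ zOmega S := by
    refine ⟨⟨(x : S).2, Subgroup.mem_centralizer_iff.2 fun y hy => ?_⟩, ?_⟩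
    · exact congrArg Subtype.val (Subgroup.mem_center_iff.1 x.2 ⟨y, hy⟩)
    · have e := pow_orderOf_eq_one x
      rw [hx, sq] at e
      exact congrArg Subtype.val (congrArg Subtype.val e)
  rw [h, Subgroup.mem_bot] at hmem
  have : x = 1 := Subtype.ext (Subtype.ext hmem)
  rw [this, orderOf_one] at hx
  exact absurd hx (by norm_num)

theorem thJ_ne_bot [Finite G] {S : Subgroup G} (hS : IsPGroup 2 S) (hne : S ≠ ⊥) : thJ S ≠ ⊥ := by
  obtain ⟨A, hA⟩ := maxElem_nonempty S
  intro h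
  have hAb : A = ⊥ := le_bot_iff.1 (h ▸ le_sSup hA)
  have := hA.2.2 _ (zOmega_le S) (zOmega_elementary S)
  rw [hAb, Subgroup.card_bot] at this
  exact zOmega_ne_bot hS hne (Subgroup.card_eq_one.1 (le_antisymm this Nat.card_pos))

/-- The normal closure in `L` of a central elementary subgroup of a Sylow 2-subgroup satisfies the
squared offender bound. -/
theorem exists_closure_bound [Finite G] {S L Z : Subgroup G} (hL : Good L) (hS : SylTwo S L)
    (hZ : Cfsg.IsElementaryAbelian 2 Z) (hZS : Z ≤ S) (hZC : Z ≤ Subgroup.centralizer (S : Set G)) :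
    ∃ V : Subgroup G, Z ≤ V ∧ V ≤ oTwo L ∧ Cfsg.IsElementaryAbelian 2 V ∧
      L ≤ Subgroup.normalizer (V : Set G) ∧ HasBound S V := by
  classical
  set s : Set (Subgroup G) := (fun l => conjSub l Z) '' (L : Set G) with hs
  set V := sSup s with hV
  have hQn := oTwo_normalized L
  have hZQ : ∀ l ∈ L, conjSub l Z ≤ oTwo L ⊓ Subgroup.centralizer (oTwo L : Set G) := by
    intro l hl
    have h1 : Z ≤ Subgroup.centralizer (oTwo L : Set G) :=
      hZC.trans (Subgroup.centralizer_le (oTwo_le_sylTwo hS))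
    have h2 : Z ≤ oTwo L := (le_inf (hZS.trans hS.1) h1).trans (inf_centralizer_oTwo_le hL)
    exact le_inf (conjSub_le (hQn hl) h2)
      (conjSub_le (normalizer_le_normalizer_centralizer _ (hQn hl)) h1)
  have hVe : Cfsg.IsElementaryAbelian 2 V := elementary_sSup
    (by rintro _ ⟨l, -, rfl⟩; exact conjSub_elementary hZ)
    (by
      rintro _ ⟨l, hl, rfl⟩ _ ⟨k, hk, rfl⟩ a ha b hb
      exact Subgroup.mem_centralizer_iff.1 ((le_inf_iff.1 (hZQ k hk)).2 hb) a ((le_inf_iff.1 (hZQ l hl)).1 ha))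
  have hZV : Z ≤ V := le_sSup ⟨1, L.one_mem, conjSub_one Z⟩
  have hVQ : V ≤ oTwo L := sSup_le (by rintro _ ⟨l, hl, rfl⟩; exact (hZQ l hl).trans inf_le_left)
  have hVn : L ≤ Subgroup.normalizer (V : Set G) := by
    have key : ∀ g ∈ L, conjSub g V ≤ V := fun g hg => by
      rw [conjSub, Subgroup.map_le_iff_le_comap]
      refine sSup_le ?_
      rintro _ ⟨l, hl, rfl⟩
      rw [← Subgroup.map_le_iff_le_comap]
      show conjSub g (conjSub l Z) ≤ V
      rw [conjSub_conjSub]
      exact le_sSup ⟨g * l, L.mul_mem hg hl, rfl⟩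
    exact Subgroup.le_normalizer_iff.2 fun g hg x hx => key g hg (conj_mem_conjSub hx)
  refine ⟨V, hZV, hVQ, hVe, hVn, fun B hBS hB => ?_⟩
  letI : CommGroup V :=
    { (inferInstance : Group V) with mul_comm := fun a b => Subtype.ext (comm_of_elementary hVe a.2 b.2) }
  set φ : L →* MulAut V := conjRestrict hVn with hφ
  have hkmem : ∀ l : L, l ∈ φ.ker ↔ (l : G) ∈ Subgroup.centralizer (V : Set G) := by
    intro l
    rw [MonoidHom.mem_ker, Subgroup.mem_centralizer_iff]
    constructor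
    · intro h v hv
      have e : (φ l ⟨v, hv⟩ : G) = v := by rw [h]; rfl
      rw [hφ, conjRestrict_apply] at e
      exact (mul_inv_eq_iff_eq_mul.1 e).symm
    · intro h
      refine MulEquiv.ext fun v => Subtype.ext ?_
      rw [hφ, conjRestrict_apply, ← h v v.2, mul_inv_cancel_right]
      rfl
  have hker : φ.ker = (Subgroup.centralizer (V : Set G)).subgroupOf L := Subgroup.ext hkmem
  have hO : Cfsg.pCore 2 (L ⧸ φ.ker) = ⊥ := by
    refine pCore_quotient_eq_bot hS φ.ker fun R hRn _ hsup => ?_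
    have hRZ : R ≤ (Subgroup.centralizer (Z : Set G)).subgroupOf L := by
      refine hsup.trans (sup_le ?_ ?_)
      · exact fun x hx => Subgroup.mem_centralizer_iff.2 fun z hz =>
          (Subgroup.mem_centralizer_iff.1 (hZC hz) x hx.1).symm
      · rw [hker]
        exact Subgroup.comap_mono (Subgroup.centralizer_le hZV)
    intro r hr
    rw [hkmem, Subgroup.mem_centralizer_iff]
    have hle : V ≤ Subgroup.centralizer ({(r : G)} : Set G) := by
      refine sSup_le ?_
      rintro _ ⟨l, hl, rfl⟩ _ ⟨z, hz, rfl⟩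
      rw [Subgroup.mem_centralizer_singleton_iff]
      have h1 : (⟨l, hl⟩ : L)⁻¹ * r * ⟨l, hl⟩ ∈ R := by
        have := hRn.conj_mem r hr.2 (⟨l, hl⟩ : L)⁻¹
        rwa [inv_inv] at this
      have h2 : z * (l⁻¹ * (r : G) * l) = l⁻¹ * (r : G) * l * z :=
        Subgroup.mem_centralizer_iff.1 (hRZ h1) z hz
      show l * z * l⁻¹ * (r : G) = (r : G) * (l * z * l⁻¹)
      calc l * z * l⁻¹ * (r : G) = l * (z * (l⁻¹ * (r : G) * l)) * l⁻¹ := by group
        _ = (r : G) * (l * z * l⁻¹) := by rw [h2]; group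
    exact fun v hv => Subgroup.mem_centralizer_singleton_iff.1 (hle hv)
  have hBL : B ≤ L := hBS.trans hS.1
  have hb := (bound_quot hL φ (fun v => Subtype.ext (mul_self_of_elementary hVe v.2)) hO (B.subgroupOf L)
    (fun a ha b hb' => by
      rw [← map_mul, ← map_mul, ← mul_inv_eq_one, ← map_inv, ← map_mul, ← MonoidHom.mem_ker, hkmem]
      have := hB.1 _ ha _ hb'
      simpa [mul_assoc] using this)
    (fun a ha => by
      rw [← map_mul, ← MonoidHom.mem_ker, hkmem]
      exact hB.2 _ ha)).1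
  rw [Subgroup.inf_relIndex_left, Subgroup.inf_relIndex_left]
  have e1 : φ.ker.relIndex (B.subgroupOf L) = (Subgroup.centralizer (V : Set G)).relIndex B := by
    rw [hker, Subgroup.relIndex_subgroupOf hBL]
  have e2 : fixedSub φ ((B.subgroupOf L : Subgroup L) : Set L) =
      (Subgroup.centralizer (B : Set G)).subgroupOf V := by
    ext v
    rw [mem_fixedSub, Subgroup.mem_subgroupOf, Subgroup.mem_centralizer_iff]
    constructor
    · intro h b hb'
      have e := congrArg Subtype.val (h ⟨b, hBL hb'⟩ hb')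
      rw [hφ, conjRestrict_apply] at e
      exact mul_inv_eq_iff_eq_mul.1 e
    · intro h l hl
      refine Subtype.ext ?_
      have e : (l : G) * (v : G) = (v : G) * (l : G) := h _ hl
      rw [hφ, conjRestrict_apply, e, mul_inv_cancel_right]
  rw [e1, e2] at hb
  exact hb

/-- A proper subgroup of a 2-group is properly contained in its normaliser. -/
theorem lt_inf_normalizer [Finite G] {R S : Subgroup G} (hS : IsPGroup 2 S) (h : R < S) :
    R < S ⊓ Subgroup.normalizer (R : Set G) := by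
  haveI : Fact (Nat.Prime 2) := ⟨Nat.prime_two⟩
  haveI := hS.isNilpotent
  have hlt : R.subgroupOf S < ⊤ := lt_top_iff_ne_top.2 fun e => h.not_ge (Subgroup.subgroupOf_eq_top.1 e)
  have h2 := Group.normalizerCondition_of_isNilpotent (G := S) _ hlt
  obtain ⟨x, hx, hxR⟩ := SetLike.exists_of_lt h2
  refine lt_of_le_of_ne (le_inf h.le Subgroup.le_normalizer) fun e => hxR ?_
  show (x : G) ∈ R
  rw [e]
  refine ⟨x.2, Subgroup.mem_normalizer_iff.2 fun y => ?_⟩
  constructor
  · intro hy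
    exact (Subgroup.mem_normalizer_iff.1 hx ⟨y, h.le hy⟩).1 hy
  · intro hy
    have hyS : y ∈ S := by
      have := S.mul_mem (S.mul_mem (S.inv_mem x.2) (h.le hy)) x.2
      simpa [mul_assoc] using this
    exact (Subgroup.mem_normalizer_iff.1 hx ⟨y, hyS⟩).2 hy

theorem isTwoLocal_conjSub {L : Subgroup G} (h : Cfsg.IsTwoLocal L) (g : G) :
    Cfsg.IsTwoLocal (conjSub g L) := by
  obtain ⟨T, h2, hne, rfl⟩ := h
  refine ⟨conjSub g T, isPGroup_conjSub h2, fun e => hne ?_, ?_⟩
  · exact (Subgroup.map_eq_bot_iff_of_injective _ (MulAut.conj g).injective).1 e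
  · exact Subgroup.map_equiv_normalizer_eq T (MulAut.conj g)

/-- A Sylow 2-subgroup lies in a 2-local containing every 2-local that meets it in even order. -/
theorem exists_local_over_sylow [Finite G] (hgood : ∀ L : Subgroup G, Cfsg.IsTwoLocal L → Good L)
    (S : Sylow 2 G) (hne : (S : Subgroup G) ≠ ⊥) :
    ∃ M : Subgroup G, Cfsg.IsTwoLocal M ∧ (S : Subgroup G) ≤ M ∧
      ∀ L : Subgroup G, Cfsg.IsTwoLocal L → ∀ R : Subgroup G, IsPGroup 2 R → R ≠ ⊥ → R ≤ L → R ≤ M →
        L ≤ M := by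
  classical
  haveI : Fact (Nat.Prime 2) := ⟨Nat.prime_two⟩
  set S₀ := (S : Subgroup G) with hS₀
  have hsyl : ∀ L : Subgroup G, S₀ ≤ L → SylTwo S₀ L := fun L h => ⟨h, S.2, fun T _ hT hle => S.3 hT hle⟩
  set Y := Subgroup.normalizer (thJ S₀ : Set G) with hY
  have hY2 : Cfsg.IsTwoLocal Y := ⟨thJ S₀, S.2.to_le (thJ_le S₀), thJ_ne_bot S.2 hne, rfl⟩
  have hSY : S₀ ≤ Y := Subgroup.le_normalizer.trans (normalizer_le_thJ S₀)
  obtain ⟨W, hZW, hWQ, hWe, hYW, hWb⟩ := exists_closure_bound (hgood Y hY2) (hsyl Y hSY)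
    (zOmega_elementary S₀) (zOmega_le S₀) (zOmega_le_centralizer S₀)
  have hWS : W ≤ S₀ := hWQ.trans (oTwo_le_sylTwo (hsyl Y hSY))
  set M := Subgroup.normalizer (W : Set G) with hM
  have hM2 : Cfsg.IsTwoLocal M := ⟨W, S.2.to_le hWS,
    fun e => zOmega_ne_bot S.2 hne (le_bot_iff.1 (e ▸ hZW)), rfl⟩
  have hSM : S₀ ≤ M := hSY.trans hYW
  have hover : ∀ L : Subgroup G, Cfsg.IsTwoLocal L → S₀ ≤ L → L ≤ M := fun L hL hSL =>
    le_normalizer_of_bound hWe hWS hSM hWb (fun L' _ _ => inf_le_right.trans hYW) (hgood L hL) (hsyl L hSL)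
  refine ⟨M, hM2, hSM, ?_⟩
  by_contra hcon
  push Not at hcon
  obtain ⟨L₀, hL₀, R₀, hR₀, hR₀ne, hR₀L, hR₀M, hL₀M⟩ := hcon
  obtain ⟨m₀, hm₀, hle₀⟩ := (hsyl M hSM).conj_into hR₀M hR₀
  set P : Set (Subgroup G) :=
    {R | R ≤ S₀ ∧ R ≠ ⊥ ∧ ∃ L, Cfsg.IsTwoLocal L ∧ R ≤ L ∧ ¬ L ≤ M} with hP
  have hconj : ∀ m ∈ M, ∀ L : Subgroup G, ¬ L ≤ M → ¬ conjSub m L ≤ M := fun m hm L hL h => hL fun x hx => by
    have := h (conj_mem_conjSub (g := m) hx)
    have h2 := M.mul_mem (M.mul_mem (M.inv_mem hm) this) hm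
    simpa [mul_assoc] using h2
  have hPne : P.Nonempty := ⟨conjSub m₀ R₀, hle₀, fun e => hR₀ne
    ((Subgroup.map_eq_bot_iff_of_injective _ (MulAut.conj m₀).injective).1 e),
    conjSub m₀ L₀, isTwoLocal_conjSub hL₀ m₀, Subgroup.map_mono hR₀L, hconj m₀ hm₀ L₀ hL₀M⟩
  obtain ⟨R, ⟨hRS, hRne, L, hL, hRL, hLM⟩, hmax⟩ :=
    Set.exists_max_image P (fun R : Subgroup G => Nat.card R) (Set.toFinite P) hPne
  have hR2 : IsPGroup 2 R := S.2.to_le hRS
  have hbig : ∀ P' : Subgroup G, IsPGroup 2 P' → R < P' → ∀ L' : Subgroup G, Cfsg.IsTwoLocal L' →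
      P' ≤ L' → P' ≤ M → L' ≤ M := by
    intro P' hP' hlt L' hL' hPL' hPM
    by_contra hL'M
    obtain ⟨m, hm, hle⟩ := (hsyl M hSM).conj_into hPM hP'
    have hcard : Nat.card R < Nat.card P' :=
      lt_of_not_ge fun h => hlt.ne (Subgroup.eq_of_le_of_card_ge hlt.le h)
    have := hmax (conjSub m P') ⟨hle, fun e => ?_, conjSub m L', isTwoLocal_conjSub hL' m,
      Subgroup.map_mono hPL', hconj m hm L' hL'M⟩
    · rw [card_conjSub] at this; omega
    · have := (Subgroup.map_eq_bot_iff_of_injective _ (MulAut.conj m).injective).1 e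
      exact hRne (le_bot_iff.1 (this ▸ hlt.le))
  have hRS' : R < S₀ := lt_of_le_of_ne hRS fun e => hLM (hover L hL (e ▸ hRL))
  set R' := S₀ ⊓ Subgroup.normalizer (R : Set G) with hR'
  have hlt' : R < R' := lt_inf_normalizer S.2 hRS'
  have hchar : ∀ X : Subgroup G, X ≤ R → X ≠ ⊥ →
      Subgroup.normalizer (R : Set G) ≤ Subgroup.normalizer (X : Set G) →
      Subgroup.normalizer (X : Set G) ≤ M := fun X hXR hXne hle =>
    hbig R' (S.2.to_le inf_le_left) hlt' _ ⟨X, hR2.to_le hXR, hXne, rfl⟩ (inf_le_right.trans hle)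
      (inf_le_left.trans hSM)
  have hNR := hchar R le_rfl hRne le_rfl
  have hsylR : SylTwo R L := by
    refine ⟨hRL, hR2, fun T hTL hT hle => ?_⟩
    by_contra hne'
    have hlt2 := lt_inf_normalizer hT (lt_of_le_of_ne hle (Ne.symm hne'))
    exact hLM (hbig _ (hT.to_le inf_le_left) hlt2 L hL (inf_le_left.trans hTL) (inf_le_right.trans hNR))
  have hLgood := hgood L hL
  obtain ⟨V, hZV, hVQ, hVe, hLV, hVb⟩ := exists_closure_bound hLgood hsylR (zOmega_elementary R)
    (zOmega_le R) (zOmega_le_centralizer R)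
  have hVR : V ≤ R := hVQ.trans (oTwo_le_sylTwo hsylR)
  set CV := Subgroup.centralizer (V : Set G) with hCV
  have hJC : thJ R ≤ R ⊓ CV := by
    refine le_inf (thJ_le R) (sSup_le fun A hA => ?_)
    have h1 := exchange hA hVe hVR
    have h2 := hVb A hA.1 (actsElementary_of_elementary hA.2.1 V)
    rw [Subgroup.inf_relIndex_left, Subgroup.inf_relIndex_left] at h1 h2
    rw [← hCV] at h1 h2
    have h3 : CV.relIndex A ^ 2 ≤ CV.relIndex A := h2.trans h1
    have h0 : 0 < CV.relIndex A := Nat.pos_of_ne_zero Subgroup.index_ne_zero_of_finite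
    exact Subgroup.relIndex_eq_one.1 (le_antisymm (by nlinarith) h0)
  have hJ : thJ (R ⊓ CV) = thJ R := thJ_eq_of_le inf_le_left hJC (maxElem_nonempty R)
  refine hLM fun l hl => ?_
  obtain ⟨n, hn, m, hm, rfl⟩ := frattini_arg hsylR (N := L ⊓ CV) inf_le_left
    (le_normalizer_inf Subgroup.le_normalizer (hLV.trans (normalizer_le_normalizer_centralizer V))) hl
  refine M.mul_mem ?_ ?_
  · exact hchar _ (zOmega_le R) (zOmega_ne_bot hR2 hRne) (normalizer_le_zOmega R)
      (Subgroup.centralizer_le_normalizer _ (Subgroup.centralizer_le hZV hn.2))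
  · have e : R ⊓ (L ⊓ CV) = R ⊓ CV := by rw [← inf_assoc, inf_eq_left.2 hRL]
    rw [e] at hm
    exact hchar _ (thJ_le R) (thJ_ne_bot hR2 hRne) (normalizer_le_thJ R)
      (hJ ▸ normalizer_le_thJ (R ⊓ CV) hm.2)

end Cfsg.Agent.H83
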