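import Cfsg.Agent.H64.SL2Sylow
import Cfsg.Agent.H6.SylowTwo
import Cfsg.Agent.H20.Sylow
import Cfsg.Agent.H23.QuaternionAut

/-!
A `p`-element of `SL₂(F)`, `p = char F` odd, acting non-trivially on a `p'`-subgroup forces
`p = 3`, a quaternion group of order `8` and `SL₂(3)`.
-/

set_option autoImplicit false

open Matrix

namespace Cfsg.Agent.H83

variable {F : Type} [Field F] [Fintype F] {p : ℕ} [Fact p.Prime] [CharP F p]

local notation "SL₂" => Matrix.SpecialLinearGroup (Fin 2) F

omit [Fintype F] in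
theorem sl2_det (z : SL₂) : z 0 0 * z 1 1 - z 0 1 * z 1 0 = 1 := by
  rw [← Matrix.det_fin_two]; exact z.2

omit [Fintype F] in
theorem trace_eq_two_of_pow_char_pow {a : SL₂} {k : ℕ} (h : a ^ p ^ k = 1) :
    a 0 0 + a 1 1 = 2 := by
  have h' : (a : Matrix (Fin 2) (Fin 2) F) ^ p ^ k = 1 := by
    rw [← Matrix.SpecialLinearGroup.coe_pow, h]; rfl
  have hN : ((a : Matrix (Fin 2) (Fin 2) F) - 1) ^ p ^ k = 0 := by
    rw [sub_pow_char_pow_of_commute (p := p) (h := Commute.one_right _), h', one_pow, sub_self]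
  have hd : ((a : Matrix (Fin 2) (Fin 2) F) - 1).det = 0 := by
    have hk : p ^ k ≠ 0 := pow_ne_zero _ (Fact.out : p.Prime).pos.ne'
    have := congrArg Matrix.det hN
    rw [Matrix.det_pow, Matrix.det_zero] at this
    exact (pow_eq_zero_iff hk).1 this
  rw [Matrix.det_fin_two] at hd
  simp at hd
  linear_combination (-1 : F) * hd + sl2_det a

omit [Fintype F] in
theorem commute_of_conj_commute {a z : SL₂} (hp2 : (2 : F) ≠ 0) {m : ℕ} (hm : Odd m)
    (ham : a ^ m = 1) (hat : a 0 0 + a 1 1 = 2) (ht : (z 0 0 + z 1 1) ^ 2 ≠ 4)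
    (hc : Commute (a * z * a⁻¹) z) : a = 1 := by
  have hns := H64.SL2.nonscalar_of_trace ht
  have hd := sl2_det z
  -- `a * z * a⁻¹` is `z` or `z⁻¹`
  have hcase : a * z * a⁻¹ = z ∨ a * z * a⁻¹ = z⁻¹ := by
    have hc' : ((a * z * a⁻¹ : SL₂) : Matrix (Fin 2) (Fin 2) F) * z
        = z * ((a * z * a⁻¹ : SL₂) : Matrix (Fin 2) (Fin 2) F) := congrArg Subtype.val hc.eq
    obtain ⟨x, y, hxy⟩ := H64.SL2.exists_eq_add_smul hc' hns
    have htr : ((a * z * a⁻¹ : SL₂) : Matrix (Fin 2) (Fin 2) F).trace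
        = (z : Matrix (Fin 2) (Fin 2) F).trace := by
      rw [Matrix.SpecialLinearGroup.coe_mul, Matrix.trace_mul_comm,
        ← Matrix.SpecialLinearGroup.coe_mul, inv_mul_cancel_left]
    have hdet := sl2_det (a * z * a⁻¹)
    rw [hxy] at htr
    have e00 := congrFun (congrFun hxy 0) 0
    have e01 := congrFun (congrFun hxy 0) 1
    have e10 := congrFun (congrFun hxy 1) 0
    have e11 := congrFun (congrFun hxy 1) 1
    rw [e00, e01, e10, e11] at hdet
    simp [Matrix.trace_fin_two] at htr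
    simp at hdet
    set t := z 0 0 + z 1 1 with htdef
    have htr' : 2 * x + y * t = t := by linear_combination htr
    have hdet' : x ^ 2 + x * y * t + y ^ 2 = 1 := by
      rw [htdef]; linear_combination hdet - y ^ 2 * hd
    have hy : (1 - y) * (1 + y) * (t ^ 2 - 4) = 0 := by
      linear_combination (4 : F) * hdet' - (2 * x + y * t + t) * htr'
    have ht4 : t ^ 2 - 4 ≠ 0 := sub_ne_zero.2 ht
    rcases mul_eq_zero.1 ((mul_eq_zero.1 hy).resolve_right ht4) with h | h
    · left
      have hy1 : y = 1 := by linear_combination (-1 : F) * h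
      have hx : x = 0 := by
        have : (2 : F) * x = 0 := by linear_combination htr' - t * hy1
        exact (mul_eq_zero.1 this).resolve_left hp2
      exact Subtype.ext (by rw [hxy, hx, hy1, zero_smul, zero_add, one_smul])
    · right
      have hy1 : y = -1 := by linear_combination h
      have hx : x = t := by
        have : (2 : F) * (x - t) = 0 := by linear_combination htr' - t * hy1
        exact sub_eq_zero.1 ((mul_eq_zero.1 this).resolve_left hp2)
      refine Subtype.ext ?_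
      rw [hxy, hx, hy1, Matrix.SpecialLinearGroup.coe_inv, Matrix.adjugate_fin_two]
      ext i j
      fin_cases i <;> fin_cases j <;> simp [htdef]
  have h2 : Commute (a ^ 2) z := by
    have e : a ^ 2 * z * (a ^ 2)⁻¹ = z := by
      have : a ^ 2 * z * (a ^ 2)⁻¹ = a * (a * z * a⁻¹) * a⁻¹ := by
        rw [pow_two, _root_.mul_inv_rev]; simp only [mul_assoc]
      rw [this]
      rcases hcase with h | h
      · rw [h, h]
      · have h' := congrArg (·⁻¹) h
        simp only [_root_.mul_inv_rev, inv_inv] at h'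
        rw [h, mul_assoc, h']
    exact mul_inv_eq_iff_eq_mul.1 e
  have haz : Commute a z := by
    obtain ⟨n, hn⟩ := hm
    have e : a = (a ^ 2) ^ (n + 1) := by
      rw [← pow_mul, show 2 * (n + 1) = m + 1 by omega, pow_succ, ham, one_mul]
    rw [e]; exact h2.pow_left _
  obtain ⟨x, y, hxy⟩ := H64.SL2.exists_eq_add_smul
    (g := (a : Matrix (Fin 2) (Fin 2) F)) (congrArg Subtype.val haz.eq) hns
  have hda := sl2_det a
  have e00 := congrFun (congrFun hxy 0) 0
  have e01 := congrFun (congrFun hxy 0) 1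
  have e10 := congrFun (congrFun hxy 1) 0
  have e11 := congrFun (congrFun hxy 1) 1
  simp at e00 e01 e10 e11
  rw [e00, e11] at hat
  rw [e00, e01, e10, e11] at hda
  set t := z 0 0 + z 1 1 with htdef
  have htr' : 2 * x + y * t = 2 := by rw [htdef]; linear_combination hat
  have hdet' : x ^ 2 + x * y * t + y ^ 2 = 1 := by
    rw [htdef]; linear_combination hda - y ^ 2 * hd
  have hy : y ^ 2 * (t ^ 2 - 4) = 0 := by
    linear_combination (-4 : F) * hdet' + (2 * x + y * t + 2) * htr'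
  have hy0 : y = 0 := pow_eq_zero_iff two_ne_zero |>.1
    ((mul_eq_zero.1 hy).resolve_right (sub_ne_zero.2 ht))
  have hx : x = 1 := by
    have : (2 : F) * (x - 1) = 0 := by linear_combination htr' - t * hy0
    exact sub_eq_zero.1 ((mul_eq_zero.1 this).resolve_left hp2)
  exact Subtype.ext (by rw [hxy, hx, hy0, one_smul, zero_smul, add_zero]; rfl)

/-- A normalised `p'`-subgroup on which a `p`-element acts non-trivially is a `2`-group. -/
theorem isPGroup_two_of_p_element (hp : p ≠ 2) {a : SL₂} (hap : a ^ p = 1) (ha1 : a ≠ 1)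
    (R : Subgroup SL₂) (hR : (Nat.card R).Coprime p)
    (haR : a ∈ Subgroup.normalizer (R : Set SL₂)) : IsPGroup 2 R := by
  have hpp : p.Prime := Fact.out
  have hp2 : (2 : F) ≠ 0 := Ring.two_ne_zero (by rwa [ringChar.eq F p])
  have hoa : orderOf a = p := orderOf_eq_prime hap ha1
  have hat : a 0 0 + a 1 1 = 2 :=
    trace_eq_two_of_pow_char_pow (p := p) (k := 1) (by rwa [pow_one])
  refine IsPGroup.of_card (G := R) (n := (Nat.card R).primeFactorsList.length) ?_
  refine Nat.eq_prime_pow_of_unique_prime_dvd (Nat.card_pos (α := R)).ne' fun {r} hr hrd => ?_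
  by_contra hr2
  have : Fact r.Prime := ⟨hr⟩
  have hrp : r ≠ p := fun h => by
    subst h
    exact hr.not_dvd_one (hR ▸ Nat.dvd_gcd hrd dvd_rfl)
  have hcop : (Nat.card (Subgroup.zpowers a)).Coprime (Nat.card R) := by
    rw [Nat.card_zpowers, hoa]; exact hR.symm
  obtain ⟨P, hPR, hAP, hP, hPc⟩ := H20.exists_invariant_sylow_subgroup
    (Subgroup.zpowers_le.2 haR) hcop
    (Or.inl (isSolvable_of_comm fun x y => by
      obtain ⟨i, hi⟩ := x.2
      obtain ⟨j, hj⟩ := y.2
      refine Subtype.ext ?_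
      change (x : SL₂) * y = y * x
      rw [← hi, ← hj]
      exact (Commute.refl a).zpow_zpow i j)) r
  have hcyc := H64.SL2.isCyclic_of_isPGroup p hr2 hrp P hP
  obtain ⟨k, hk⟩ : ∃ k, (Nat.card R).factorization r = k + 1 :=
    Nat.exists_eq_succ_of_ne_zero (hr.factorization_pos_of_dvd Nat.card_pos.ne' hrd).ne'
  have : Nontrivial P := Finite.one_lt_card_iff_nontrivial.1 (by
    rw [hPc, hk]; exact Nat.one_lt_pow k.succ_ne_zero hr.one_lt)
  obtain ⟨z, hz⟩ := exists_ne (1 : P)
  have hz1 : (z : SL₂) ≠ 1 := fun h => hz (Subtype.ext h)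
  have hconj : a * (z : SL₂) * a⁻¹ ∈ P :=
    (Subgroup.mem_normalizer_iff.1 (hAP (Subgroup.mem_zpowers a)) z).1 z.2
  have hc : Commute (a * (z : SL₂) * a⁻¹) z := by
    have := IsCyclic.isMulCommutative (α := P)
    have := this.is_comm.comm (⟨_, hconj⟩ : P) z
    exact congrArg Subtype.val this
  have ht : ((z : SL₂) 0 0 + (z : SL₂) 1 1) ^ 2 ≠ 4 := by
    intro ht
    have h1 := orderOf_dvd_of_pow_eq_one (H64.SL2.pow_two_mul_of_trace p ht)
    obtain ⟨e, he⟩ := IsPGroup.iff_orderOf.1 hP z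
    rw [Subgroup.orderOf_coe, he] at h1
    rcases Nat.eq_zero_or_pos e with rfl | he0
    · exact hz (orderOf_eq_one_iff.1 (by rwa [pow_zero] at he))
    · rcases hr.dvd_mul.1 ((dvd_pow_self r he0.ne').trans h1) with h | h
      · exact hr2 ((Nat.prime_dvd_prime_iff_eq hr Nat.prime_two).1 h)
      · exact hrp ((Nat.prime_dvd_prime_iff_eq hr hpp).1 h)
  exact ha1 (commute_of_conj_commute hp2 (hpp.odd_of_ne_two hp) hap hat ht hc)

/-- The structure theorem. -/
theorem p_element_sl_two (hp : p ≠ 2) (a : SL₂) (ha : IsPGroup p (Subgroup.zpowers a))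
    (R : Subgroup SL₂) (hR : (Nat.card R).Coprime p)
    (haR : a ∈ Subgroup.normalizer (R : Set SL₂))
    (hnt : ¬ ∀ x ∈ R, x * a = a * x) :
    p = 3 ∧ Nonempty (R ≃* QuaternionGroup 2) ∧
      Nonempty ((R ⊔ Subgroup.zpowers a : Subgroup SL₂) ≃*
        Matrix.SpecialLinearGroup (Fin 2) (ZMod 3)) := by
  have hpp : p.Prime := Fact.out
  have hodd : Odd p := hpp.odd_of_ne_two hp
  have hp2 : (2 : F) ≠ 0 := Ring.two_ne_zero (by rwa [ringChar.eq F p])
  have ha1 : a ≠ 1 := fun h => hnt fun x _ => by simp [h]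
  obtain ⟨k, hk⟩ : ∃ k, a ^ p ^ k = 1 := by
    obtain ⟨k, hk⟩ := ha ⟨a, Subgroup.mem_zpowers a⟩
    exact ⟨k, congrArg Subtype.val hk⟩
  have hat := trace_eq_two_of_pow_char_pow (p := p) hk
  have hap : a ^ p = 1 := by
    have h1 : a ^ (2 * p) = 1 := H64.SL2.pow_two_mul_of_trace p (by rw [hat]; norm_num)
    have h2 := pow_gcd_eq_one.2 ⟨h1, hk⟩
    obtain ⟨c, hc⟩ : (2 * p).gcd (p ^ k) ∣ p := by
      refine (Nat.Coprime.dvd_mul_left ?_).1 (Nat.gcd_dvd_left (2 * p) (p ^ k))
      exact Nat.Coprime.coprime_dvd_left (Nat.gcd_dvd_right _ _)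
        ((Nat.coprime_two_right.2 hodd).pow_left k)
    rw [hc, pow_mul, h2, one_pow]
  have hoa : orderOf a = p := orderOf_eq_prime hap ha1
  have hR2 := isPGroup_two_of_p_element hp hap ha1 R hR haR
  obtain ⟨S, hS⟩ := hR2.exists_le_sylow
  obtain ⟨n, -, ⟨e⟩⟩ := H6.sylow_two_sl2 (F := F) rfl hp2 S
  set D := (R.subgroupOf S).map e.toMonoidHom
  let eD : R ≃* D := (Subgroup.subgroupOfEquivOfLe hS).symm.trans
    (Subgroup.equivMapOfInjective _ e.toMonoidHom e.injective)
  set σR : MulAut R := R.normalizerMonoidHom ⟨a, haR⟩ with hσRdef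
  have hσR : σR ^ p = 1 := by
    rw [hσRdef, ← map_pow,
      show (⟨a, haR⟩ : Subgroup.normalizer (R : Set SL₂)) ^ p = 1 from Subtype.ext hap, map_one]
  have hσRval : ∀ x : R, ((σR x : R) : SL₂) = a * x * a⁻¹ := fun x => rfl
  have hσR1 : σR ≠ 1 := by
    intro h
    apply hnt
    intro x hx
    have h1 := hσRval ⟨x, hx⟩
    rw [h] at h1
    exact (eq_mul_inv_iff_mul_eq.1 h1)
  have hσD : (MulAut.congr eD σR) ^ p = 1 := by rw [← map_pow, hσR, map_one]
  have hσD1 : MulAut.congr eD σR ≠ 1 := fun h =>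
    hσR1 ((MulAut.congr eD).injective (h.trans (map_one _).symm))
  obtain ⟨e8⟩ := H23.q8_of_odd_auto D _ hodd hσD hσD1
  let ψ : QuaternionGroup 2 ≃* R := e8.trans eD.symm
  set α : MulAut (QuaternionGroup 2) := MulAut.congr ψ.symm σR with hαdef
  have hα : α ^ p = 1 := by rw [hαdef, ← map_pow, hσR, map_one]
  have hα1 : α ≠ 1 := fun h =>
    hσR1 ((MulAut.congr ψ.symm).injective (h.trans (map_one _).symm))
  obtain ⟨hα3, s, hs, hconj⟩ := H23.exists_sl_conj α hodd hα hα1
  have hp3 : p = 3 := by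
    by_contra h3
    have hc : p.gcd 3 = 1 := (Nat.coprime_primes hpp Nat.prime_three).2 h3
    have := pow_gcd_eq_one.2 ⟨hα, hα3⟩
    rw [hc, pow_one] at this
    exact hα1 this
  refine ⟨hp3, ⟨ψ.symm⟩, ?_⟩
  set A := Subgroup.zpowers a with hA
  have hAle : A ≤ Subgroup.normalizer (R : Set SL₂) := Subgroup.zpowers_le.2 haR
  have hgen : ∀ x : A, x ∈ Subgroup.zpowers (⟨a, Subgroup.mem_zpowers a⟩ : A) := by
    rintro ⟨x, i, rfl⟩
    exact ⟨i, Subtype.ext (by simp)⟩
  have hoA : orderOf (⟨a, Subgroup.mem_zpowers a⟩ : A) = 3 := by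
    rw [← hp3, ← hoa, ← Subgroup.orderOf_coe]
  let g : A →* Matrix.SpecialLinearGroup (Fin 2) (ZMod 3) :=
    monoidHomOfForallMemZpowers hgen (g' := s) (by rw [hs, hoA])
  let q : R →* Matrix.SpecialLinearGroup (Fin 2) (ZMod 3) := H23.q8Hom.comp ψ.symm.toMonoidHom
  let θ : A →* MulAut R := R.normalizerMonoidHom.comp (Subgroup.inclusion hAle)
  have hcompat : ∀ b : A, ∀ x : R, q (θ b x) = g b * q x * (g b)⁻¹ := by
    intro b
    obtain ⟨i, rfl⟩ := mem_powers_iff_mem_zpowers.2 (hgen b)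
    induction i with
    | zero => intro x; simp
    | succ i ih =>
      intro x
      simp only [] at ih ⊢
      rw [pow_succ', map_mul, map_mul, MulAut.mul_apply]
      have h1 : ∀ y : R, q (θ ⟨a, Subgroup.mem_zpowers a⟩ y)
          = g ⟨a, Subgroup.mem_zpowers a⟩ * q y * (g ⟨a, Subgroup.mem_zpowers a⟩)⁻¹ := by
        intro y
        change H23.q8Hom (ψ.symm (σR y)) = _
        rw [show g ⟨a, Subgroup.mem_zpowers a⟩ = s from monoidHomOfForallMemZpowers_apply_gen _ _]
        have := hconj (ψ.symm y)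
        rw [show q y = H23.q8Hom (ψ.symm y) from rfl, this]
        simp [hαdef, MulAut.congr]
      rw [h1, ih]
      group
  let f2 : R ⋊[θ] A →* Matrix.SpecialLinearGroup (Fin 2) (ZMod 3) :=
    SemidirectProduct.lift q g (fun b => MonoidHom.ext fun x => hcompat b x)
  let f1 : R ⋊[θ] A →* SL₂ := SemidirectProduct.monoidHomSubgroup hAle
  have hcop : (Nat.card R).Coprime (Nat.card A) := by rwa [hA, Nat.card_zpowers, hoa]
  have hf1 : Function.Injective f1 := by
    rw [injective_iff_map_eq_one]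
    intro x hx
    change (x.left : SL₂) * (x.right : SL₂) = 1 at hx
    have hb : (x.right : SL₂) ∈ R ⊓ A := ⟨by
      rw [eq_inv_of_mul_eq_one_right hx]; exact R.inv_mem x.left.2, x.right.2⟩
    rw [Subgroup.inf_eq_bot_of_coprime hcop, Subgroup.mem_bot] at hb
    rw [hb, mul_one] at hx
    exact SemidirectProduct.ext (Subtype.ext hx) (Subtype.ext hb)
  have hf1r : f1.range = R ⊔ A := by
    refine le_antisymm ?_ (sup_le (fun x hx => ⟨SemidirectProduct.inl ⟨x, hx⟩, ?_⟩)
      (fun x hx => ⟨SemidirectProduct.inr ⟨x, hx⟩, ?_⟩))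
    · rintro _ ⟨x, rfl⟩
      exact Subgroup.mul_mem_sup x.left.2 x.right.2
    · simp [f1, SemidirectProduct.monoidHomSubgroup]
    · simp [f1, SemidirectProduct.monoidHomSubgroup]
  have hf2 : Function.Injective f2 := by
    rw [injective_iff_map_eq_one]
    intro x hx
    change q x.left * g x.right = 1 at hx
    have h2 : (Nat.card R).Coprime 3 := hp3 ▸ hR
    have hg3 : g x.right ^ 3 = 1 := by
      rw [← map_pow, show x.right ^ 3 = 1 from Subtype.ext (by
        obtain ⟨i, hi⟩ := x.right.2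
        change a ^ i = _ at hi
        rw [Subgroup.coe_pow, ← hi, ← hp3, ← zpow_natCast, ← _root_.zpow_mul, mul_comm, _root_.zpow_mul,
          zpow_natCast, hap, _root_.one_zpow]; rfl), map_one]
    have hq : q x.left = (g x.right)⁻¹ := eq_inv_of_mul_eq_one_left hx
    have hqR : q x.left ^ Nat.card R = 1 := by rw [← map_pow, pow_card_eq_one', map_one]
    have hq3 : q x.left ^ 3 = 1 := by rw [hq, inv_pow, hg3, inv_one]
    have hq1 : q x.left = 1 := by
      have := pow_gcd_eq_one.2 ⟨hqR, hq3⟩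
      rwa [h2, pow_one] at this
    have hl : x.left = 1 := ψ.symm.injective
      ((H23.q8Hom_injective (hq1.trans (map_one _).symm)).trans (map_one _).symm)
    have hgr : g x.right = 1 := by rw [hq1, one_mul] at hx; exact hx
    have hr : x.right = 1 := by
      obtain ⟨i, hi⟩ := hgen x.right
      change _ ^ i = _ at hi
      rw [← hi, map_zpow, monoidHomOfForallMemZpowers_apply_gen, ← orderOf_dvd_iff_zpow_eq_one,
        hs] at hgr
      rw [← hi, ← orderOf_dvd_iff_zpow_eq_one, hoA]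
      exact hgr
    exact SemidirectProduct.ext hl hr
  have hcard : Nat.card (R ⋊[θ] A) = 24 := by
    rw [SemidirectProduct.card, Nat.card_congr ψ.symm.toEquiv, Nat.card_eq_fintype_card,
      QuaternionGroup.card, hA, Nat.card_zpowers, hoa, hp3]
  have hcard2 : Nat.card (Matrix.SpecialLinearGroup (Fin 2) (ZMod 3)) = 24 := by
    rw [H6.card_sl2 (F := ZMod 3) (ZMod.card 3)]; rfl
  exact ⟨(MulEquiv.subgroupCongr hf1r.symm).trans
    ((MonoidHom.ofInjective hf1).symm.trans
      (MulEquiv.ofBijective f2 ⟨hf2, (hf2.bijective_of_nat_card_le (by rw [hcard, hcard2])).2⟩))⟩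

end Cfsg.Agent.H83
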