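import Cfsg.Agent.H19.Cores
import Cfsg.Agent.H20.PxQ
import Cfsg.Agent.H72.PReduced
import Cfsg.Agent.H24.PGroupBasic

/-!
Quadratic elements in groups of characteristic `p` that are `p`-stable in the action sense.
-/

set_option autoImplicit false

open Subgroup
open scoped commutatorElement

namespace Cfsg.Agent.H83

variable {H : Type*} [Group H] [Finite H] {p : ℕ} [Fact p.Prime]

/-- An abelian subgroup normalised by `O_p(H)` lies in `O_p(H)`. -/
theorem le_pCore_of_quadratic (hst : Cfsg.IsActionPStable p H)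
    (hc : centralizer (Cfsg.pCore p H : Set H) ≤ Cfsg.pCore p H) (V : Subgroup H)
    (hV : V ≤ centralizer (V : Set H))
    (hOV : Cfsg.pCore p H ≤ normalizer (V : Set H)) : V ≤ Cfsg.pCore p H := by
  set Q := Cfsg.pCore p H
  haveI hQn : Q.Normal := H19.pCore_normal p H
  intro a ha
  set Φ := (frattini ↥Q).map Q.subtype
  obtain ⟨D, hDn, hKD, ⟨k, hk⟩, haD⟩ := hst.2.1 a (by
    refine le_trans (commutator_mono ?_ (zpowers_le.2 ha))
      ((commutator_eq_bot_iff_le_centralizer.2 hV).le.trans bot_le)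
    rw [Subgroup.commutator_comm]
    exact (commutator_mono (zpowers_le.2 ha) le_rfl).trans
      (le_normalizer_iff_commutator_le_left.1 hOV))
  set K := Cfsg.sectionKernel Q Φ
  have hK : IsPGroup p K := by
    refine IsPGroup.of_card (n := (Nat.card K).primeFactorsList.length)
      (Nat.eq_prime_pow_of_unique_prime_dvd Nat.card_pos.ne' fun {r} hr hrd => ?_)
    by_contra hrp
    haveI := Fact.mk hr
    obtain ⟨x, hx⟩ := exists_prime_orderOf_dvd_card' r hrd
    have hxr : Nat.card ↥(zpowers (x : H)) = r := by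
      rw [Nat.card_zpowers, Subgroup.orderOf_coe, hx]
    have hxQ : (x : H) ∈ Q := hc (H20.le_centralizer_of_trivial_on_frattini
      (A := zpowers (x : H))
      (le_top.trans_eq (normalizer_eq_top_iff.2 hQn).symm) (by
        obtain ⟨n, hn⟩ := IsPGroup.iff_card.1
          ((H19.pCore_isPGroup (G := H) p).to_subgroup (frattini ↥Q))
        rw [hxr, hn]
        exact ((Nat.coprime_primes hr Fact.out).2 hrp).pow_right n) (by
        intro b hb q hq
        have hbK : b ∈ K := zpowers_le.2 x.2 hb
        have h1 := mem_comap.1 hbK (QuotientGroup.mk' Φ q) (mem_map_of_mem _ hq)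
        rw [← QuotientGroup.eq_one_iff]
        change QuotientGroup.mk' Φ (b * q * b⁻¹ * q⁻¹) = 1
        rw [map_mul, map_mul, map_mul, map_inv, map_inv, ← h1]
        simp) (mem_zpowers _))
    obtain ⟨m, hm⟩ := (H19.pCore_isPGroup (G := H) p) ⟨(x : H), hxQ⟩
    have hm' : (x : H) ^ p ^ m = 1 := congrArg Subtype.val hm
    have hdvd : r ∣ p ^ m := by
      rw [← hx, ← Subgroup.orderOf_coe]
      exact orderOf_dvd_of_pow_eq_one hm'
    exact hrp ((Nat.prime_dvd_prime_iff_eq hr Fact.out).1 (hr.dvd_of_dvd_pow hdvd))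
  have hDp : IsPGroup p D := by
    obtain ⟨n, hn⟩ := IsPGroup.iff_card.1 hK
    refine IsPGroup.of_card (n := n + k) ?_
    rw [pow_add, ← hn, ← hk, ← relIndex_bot_left, ← relIndex_bot_left,
      relIndex_mul_relIndex _ _ _ bot_le hKD]
  exact H19.le_pCore hDn hDp haD

/-- A non-trivial normal elementary abelian subgroup on which quadratic elements act trivially. -/
theorem exists_reduced [Nontrivial H] (hst : Cfsg.IsActionPStable p H)
    (hc : centralizer (Cfsg.pCore p H : Set H) ≤ Cfsg.pCore p H) :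
    ∃ W : Subgroup H, W.Normal ∧ Cfsg.IsElementaryAbelian p W ∧ W ≠ ⊥ ∧
      ∀ x : H, ⁅⁅W, zpowers x⁆, zpowers x⁆ = ⊥ → x ∈ centralizer (W : Set H) := by
  classical
  obtain ⟨T⟩ : Nonempty (Sylow p H) := inferInstance
  set X : Subgroup (T : Subgroup H) := Cfsg.omegaOne p (center (T : Subgroup H))
  have hXZ : X ≤ center (T : Subgroup H) := H72.omegaOne_le p _
  haveI hXn : X.Normal := H24.normal_of_le_center hXZ
  have hXe : Cfsg.IsElementaryAbelian p X := H72.isElementaryAbelian_omegaOne inferInstance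
  have hX : Cfsg.IsPReducedNormal p X := H72.isPReducedNormal_iff.2 ⟨hXn, hXe,
    fun D _ _ => le_top.trans (centralizer_eq_top_iff_subset.2 hXZ).ge⟩
  set W := normalClosure ((X.map (T : Subgroup H).subtype : Subgroup H) : Set H) with hW
  obtain ⟨hWn, hWe, hCn, hcore⟩ :=
    H72.isPReducedNormal_normalClosure hc T (le_refl (T : Subgroup H)) hX
  refine ⟨W, hWn, hWe, ?_, fun x hx => ?_⟩
  · intro hbot
    have hT : (T : Subgroup H) ≠ ⊥ := by
      intro hT
      have hO : Cfsg.pCore p H = ⊥ := le_bot_iff.1 (hT ▸ H19.pCore_le_sylow T)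
      rw [hO] at hc
      have htop : (⊤ : Subgroup H) ≤ ⊥ := fun x _ => hc fun y hy => by
        rw [mem_bot.1 hy, one_mul, mul_one]
      exact top_ne_bot (le_bot_iff.1 htop)
    haveI : Nontrivial (T : Subgroup H) := (nontrivial_iff_ne_bot _).2 hT
    haveI := T.2.center_nontrivial
    have hne : X ≠ ⊥ := H72.omegaOne_ne_bot (T.2.to_subgroup _) ((nontrivial_iff_ne_bot _).1 inferInstance)
    apply hne
    have h1 : X.map (T : Subgroup H).subtype ≤ ⊥ := hbot ▸ subset_normalClosure
    rwa [le_bot_iff, map_eq_bot_iff_of_injective _ (T : Subgroup H).subtype_injective] at h1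
  · haveI := hCn
    have h1 := hst.1 W hWe x hx
    rw [hcore, mem_bot, QuotientGroup.eq_one_iff] at h1
    exact h1

/-- If `r` acts quadratically on `U` and lies in a `p`-subgroup normalised by `C(U)`, then
`r ∈ O_p(H)`. -/
theorem mem_pCore_of_quadratic (hst : Cfsg.IsActionPStable p H) {U : Subgroup H} [U.Normal]
    (hU : Cfsg.IsElementaryAbelian p U) {R : Subgroup H} (hR : IsPGroup p R)
    (hKR : centralizer (U : Set H) ≤ normalizer (R : Set H)) {r : H} (hr : r ∈ R)
    (hq : ⁅⁅U, zpowers r⁆, zpowers r⁆ = ⊥) : r ∈ Cfsg.pCore p H := by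
  set K := centralizer (U : Set H) with hKdef
  haveI hKn : K.Normal := by rw [hKdef]; infer_instance
  set O := Cfsg.pCore p H with hOdef
  haveI hOn : O.Normal := H19.pCore_normal p H
  -- `R ⊓ K ≤ O`
  have hRK : R ⊓ K ≤ O := by
    have hn : ((R ⊓ K).subgroupOf K).Normal := by
      refine normal_subgroupOf_of_le_normalizer fun k hk => ?_
      have h1 := hKR hk
      have h2 : k ∈ normalizer (K : Set H) := le_normalizer hk
      rw [mem_normalizer_iff] at h1 h2 ⊢
      exact fun x => and_congr (h1 x) (h2 x)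
    have hp : IsPGroup p ((R ⊓ K).subgroupOf K) :=
      (hR.to_le inf_le_left).comap_of_injective K.subtype K.subtype_injective
    have h3 := (map_mono (H19.le_pCore hn hp)).trans (H19.map_pCore_le (p := p) K)
    rwa [subgroupOf_map_subtype, inf_eq_left.2 inf_le_right] at h3
  set q := QuotientGroup.mk' O
  have hcomm : ∀ k ∈ K, Commute (q r) (q k) := by
    intro k hk
    have h1 : ⁅r, k⁆ ∈ R ⊓ K := by
      refine ⟨?_, ?_⟩
      · rw [commutatorElement_def, mul_assoc, mul_assoc]
        refine R.mul_mem hr ?_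
        rw [← mul_assoc]
        exact (mem_normalizer_iff.1 (hKR hk) _).1 (R.inv_mem hr)
      · rw [commutatorElement_def]
        exact K.mul_mem (hKn.conj_mem k hk r) (K.inv_mem hk)
    rw [← commutatorElement_eq_one_iff_commute, ← map_commutatorElement]
    exact (QuotientGroup.eq_one_iff _).2 (hRK h1)
  set C := (Cfsg.pCore p (H ⧸ K)).comap (QuotientGroup.mk' K) with hC
  haveI : C.Normal := (H19.pCore_normal p (H ⧸ K)).comap _
  haveI : (centralizer ((K.map q : Subgroup (H ⧸ O)) : Set (H ⧸ O))).Normal := by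
    haveI : (K.map q).Normal := hKn.map q (QuotientGroup.mk'_surjective O)
    infer_instance
  set D := C ⊓ (centralizer ((K.map q : Subgroup (H ⧸ O)) : Set (H ⧸ O))).comap q with hD
  haveI : D.Normal := normal_inf_normal _ _
  set Db := D.map q
  haveI : Db.Normal := Subgroup.Normal.map inferInstance q (QuotientGroup.mk'_surjective O)
  have hrD : r ∈ D := by
    refine ⟨hst.1 U hU r hq, ?_⟩
    rintro _ ⟨k, hk, rfl⟩
    exact (hcomm k hk).eq.symm
  set N := (K.map q).subgroupOf Db
  have hNc : N ≤ center Db := by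
    intro x hx
    refine mem_center_iff.2 fun y => Subtype.ext ?_
    obtain ⟨y', hy', hy''⟩ := y.2
    have h1 := (mem_centralizer_iff.1 (mem_comap.1 hy'.2) (x : H ⧸ O) hx).symm
    rw [hy''] at h1
    exact h1
  haveI : N.Normal := H24.normal_of_le_center hNc
  have hquot : IsPGroup p (Db ⧸ N) := by
    intro x
    obtain ⟨x, rfl⟩ := QuotientGroup.mk'_surjective N x
    obtain ⟨d, hd, hdx⟩ := x.2
    obtain ⟨k, hk⟩ := H19.pCore_isPGroup (G := H ⧸ K) p ⟨_, hd.1⟩
    refine ⟨k, ?_⟩
    rw [← map_pow, QuotientGroup.mk'_apply, QuotientGroup.eq_one_iff]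
    change (x : H ⧸ O) ^ p ^ k ∈ K.map q
    rw [← hdx, ← map_pow]
    refine mem_map_of_mem q ?_
    have h2 := congrArg Subtype.val hk
    simp only [SubmonoidClass.coe_pow, OneMemClass.coe_one] at h2
    rw [← map_pow, QuotientGroup.mk'_apply, QuotientGroup.eq_one_iff] at h2
    exact h2
  haveI : Group.IsNilpotent (Db ⧸ N) := hquot.isNilpotent
  haveI : Group.IsNilpotent Db := Subgroup.isNilpotent_of_ker_le_center (QuotientGroup.mk' N)
    (by rw [QuotientGroup.ker_mk']; exact hNc)
  obtain ⟨P, hP⟩ := (hR.map q |>.to_le (zpowers_le.2 (mem_map_of_mem q hr))).comap_of_injective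
    Db.subtype Db.subtype_injective |>.exists_le_sylow
  haveI : (P : Subgroup Db).Normal :=
    Sylow.normal_of_normalizerCondition Group.normalizerCondition_of_isNilpotent P
  have hrb : (⟨q r, mem_map_of_mem q hrD⟩ : Db) ∈ Cfsg.pCore p Db :=
    H19.le_pCore inferInstance P.2 (hP (mem_zpowers (q r)))
  have h4 := H19.map_pCore_le (p := p) Db (mem_map_of_mem Db.subtype hrb)
  rw [H19.pCore_quotient_pCore, mem_bot] at h4
  exact (QuotientGroup.eq_one_iff r).1 h4

end Cfsg.Agent.H83
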