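import Cfsg.Agent.H83.CharacteristicLemmas
import Cfsg.Agent.H83.CyclicSelfCentralizing
import Cfsg.Agent.H24.Extraspecial
import Cfsg.Agent.H24.CentralizerIndex
import Cfsg.Agent.H58.ExtraspecialCongr

/-!
P. Hall's theorem on groups of symplectic type.
-/

set_option autoImplicit false

open Subgroup
open scoped commutatorElement

namespace Cfsg.Agent.H83

variable {G : Type*} [Group G] [Finite G] {p : ℕ} [Fact p.Prime]

theorem isExtraspecial_of_top (h : Cfsg.IsExtraspecial p G) :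
    Cfsg.IsExtraspecial p (⊤ : Subgroup G) :=
  H58.isExtraspecial_congr Subgroup.topEquiv.symm h

/-- A maximal characteristic abelian subgroup and its properties. -/
theorem exists_max_char_abelian
    (hsymp : ∀ A : Subgroup G, A.Characteristic → IsMulCommutative A → IsCyclic A) :
    ∃ U : Subgroup G, U.Characteristic ∧ IsCyclic U ∧
      ∀ A : Subgroup G, A.Characteristic → IsMulCommutative A → A ≤ centralizer (U : Set G) →
        A ≤ U := by
  classical
  obtain ⟨U, ⟨hU, hUa⟩, hmax⟩ := Set.Finite.exists_maximal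
    (Set.toFinite {A : Subgroup G | A.Characteristic ∧ IsMulCommutative A})
    ⟨⊥, botCharacteristic, inferInstance⟩
  refine ⟨U, hU, hsymp U hU hUa, fun A hA hAa hAU => ?_⟩
  have h1 : U ⊔ A ≤ centralizer ((U ⊔ A : Subgroup G) : Set G) := by
    have hUU : U ≤ centralizer (U : Set G) := fun x hx y hy =>
      (congrArg Subtype.val (hUa.is_comm.comm (⟨y, hy⟩ : U) ⟨x, hx⟩) :)
    have hAA : A ≤ centralizer (A : Set G) := fun x hx y hy =>
      (congrArg Subtype.val (hAa.is_comm.comm (⟨y, hy⟩ : A) ⟨x, hx⟩) :)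
    rw [le_centralizer_iff]
    exact sup_le (le_centralizer_iff.1 (sup_le hUU hAU))
      (le_centralizer_iff.1 (sup_le (le_centralizer_iff.1 hAU) hAA))
  exact le_sup_right.trans (hmax ⟨char_sup hU hA,
    ⟨⟨fun x y => Subtype.ext (h1 y.2 x x.2)⟩⟩⟩ le_sup_left)

/-- The product formula for `p`-th powers when commutators have order dividing `p` and are central. -/
theorem pow_mul_mod {z x y : G} (hz : z ∈ center G) (hzp : z ^ p = 1)
    (h : ⁅y⁻¹, x⁻¹⁆ ∈ zpowers z) :
    ∃ w ∈ zpowers z, (x * y) ^ p = x ^ p * y ^ p * w ∧ (p ≠ 2 → w = 1) := by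
  obtain ⟨i, hi⟩ := h
  have hc : y * x = x * y * z ^ i := by
    rw [show z ^ i = ⁅y⁻¹, x⁻¹⁆ from hi, commutatorElement_def]; group
  have hcen : ∀ g : G, Commute (z ^ i) g := fun g => (mem_center_iff.1 (zpow_mem hz i) g).symm
  refine ⟨(z ^ i) ^ p.choose 2, pow_mem (zpow_mem (mem_zpowers z) i) _,
    pow_mul_of_central_commutator hc (hcen x) (hcen y) p, fun hp2 => ?_⟩
  obtain ⟨c, hc⟩ := (Fact.out : p.Prime).dvd_choose_self two_ne_zero
    (lt_of_le_of_ne (Fact.out : p.Prime).two_le (Ne.symm hp2))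
  rw [hc, pow_mul, ← zpow_natCast (z ^ i) p, ← zpow_mul, mul_comm, zpow_mul, zpow_natCast, hzp,
    one_zpow, one_pow]

/-- P. Hall's theorem. -/
theorem symplectic_type (hG : IsPGroup p G)
    (hsymp : ∀ A : Subgroup G, A.Characteristic → IsMulCommutative A → IsCyclic A) :
    ∃ E R : Subgroup G, (∀ e ∈ E, ∀ r ∈ R, e * r = r * e) ∧ E ⊔ R = ⊤ ∧
      (E = ⊥ ∨ Cfsg.IsExtraspecial p E) ∧
      (IsCyclic R ∨ (p = 2 ∧ 16 ≤ Nat.card R ∧ ((∃ m : ℕ, Nonempty (R ≃* DihedralGroup m)) ∨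
        (∃ m : ℕ, Nonempty (R ≃* QuaternionGroup m)) ∨ Cfsg.IsQuasiDihedral R))) := by
  classical
  have hpp : p.Prime := Fact.out
  by_cases hab : IsMulCommutative G
  · have hc := hsymp (⊤ : Subgroup G) topCharacteristic
      ⟨⟨fun a b => Subtype.ext (hab.is_comm.comm (a : G) (b : G))⟩⟩
    exact ⟨⊥, ⊤, fun e he r _ => by rw [mem_bot.1 he, one_mul, mul_one], bot_sup_eq _,
      Or.inl rfl, Or.inl hc⟩
  have hnt : center G ≠ ⊤ := fun h => hab ⟨⟨fun a b => mem_center_iff.1 (h ▸ mem_top b) a⟩⟩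
  obtain ⟨U, hUc, hUcyc, hUmax⟩ := exists_max_char_abelian hsymp
  haveI hUn : U.Normal := normal_of_characteristic U
  set C := centralizer (U : Set G) with hCdef
  have hCc : C.Characteristic := char_centralizer hUc
  haveI hCn : C.Normal := normal_of_characteristic C
  have hUC : U ≤ C := fun x hx y hy => by
    have := hUcyc
    exact (congrArg Subtype.val ((IsCyclic.isMulCommutative (α := U)).is_comm.comm
      (⟨y, hy⟩ : U) ⟨x, hx⟩) :)
  have hUcom : ∀ u ∈ U, ∀ c ∈ C, Commute u c := fun u hu c hc => hc u hu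
  have hZN : ∀ N : Subgroup G, N.Characteristic → N ≤ C → N ⊓ centralizer (N : Set G) ≤ U := by
    intro N hN hNC
    exact hUmax _ (char_inf hN (char_centralizer hN))
      ⟨⟨fun x y => Subtype.ext (y.2.2 x x.2.1)⟩⟩ (inf_le_left.trans hNC)
  have hZU : center G ≤ U := hUmax _ inferInstance inferInstance (center_le_centralizer _)
  obtain ⟨g, rfl⟩ := (Subgroup.isCyclic_iff_exists_zpowers_eq_top U).1 hUcyc
  set U := zpowers g with hUdef
  haveI : Nontrivial G := by
    by_contra h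
    rw [not_nontrivial_iff_subsingleton] at h
    exact hab ⟨⟨fun a b => Subsingleton.elim _ _⟩⟩
  haveI : Nontrivial (center G) := hG.center_nontrivial
  obtain ⟨n, hn⟩ := (IsPGroup.iff_orderOf.1 hG) g
  obtain ⟨n, rfl⟩ : ∃ m, n = m + 1 := by
    refine Nat.exists_eq_succ_of_ne_zero fun h => ?_
    rw [h, pow_zero, orderOf_eq_one_iff] at hn
    obtain ⟨c, hc⟩ := exists_ne (1 : center G)
    have h1 := hZU c.2
    rw [hUdef, hn, zpowers_one_eq_bot, mem_bot] at h1
    exact hc (Subtype.ext h1)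
  set z := g ^ p ^ n with hzdef
  have hzU : z ∈ U := pow_mem (mem_zpowers g) _
  have hzp : z ^ p = 1 := by rw [hzdef, ← pow_mul, ← pow_succ, ← hn, pow_orderOf_eq_one]
  have hz1 : z ≠ 1 := by
    intro h
    have := orderOf_dvd_of_pow_eq_one h
    rw [hn, Nat.pow_dvd_pow_iff_le_right hpp.one_lt] at this
    omega
  have hoz : orderOf z = p := orderOf_eq_prime hzp hz1
  have hroot : ∀ u ∈ U, u ^ p = 1 → u ∈ zpowers z := by
    intro u hu hup
    haveI := hUcyc
    obtain ⟨i, hi⟩ := H35.mem_zpowers_of_isCyclic (p := p) (R := U) (x := (⟨z, hzU⟩ : U))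
      (y := ⟨u, hu⟩) (by rw [← Subgroup.orderOf_coe]; exact hoz) (Subtype.ext (by simpa using hup))
    exact ⟨i, congrArg Subtype.val hi⟩
  have hzZ : z ∈ center G := by
    have hn' : (zpowers z).Normal := ⟨by
      rintro _ ⟨i, rfl⟩ x
      refine hroot _ (hUn.conj_mem _ (zpow_mem hzU i) x) ?_
      rw [conj_pow]
      change x * (z ^ i) ^ p * x⁻¹ = 1
      rw [← zpow_natCast, ← zpow_mul, mul_comm, zpow_mul, zpow_natCast, hzp, one_zpow, mul_one,
        mul_inv_cancel]⟩
    obtain ⟨c, hc, hc1⟩ := (bot_or_exists_ne_one _).resolve_left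
      (H24.inf_center_ne_bot hG (N := zpowers z) (fun h => hz1 (zpowers_eq_bot.1 h)))
    have : zpowers c = zpowers z := by
      refine Subgroup.eq_of_le_of_card_ge (zpowers_le.2 hc.1) ?_
      rw [Nat.card_zpowers, Nat.card_zpowers, hoz]
      obtain ⟨k, hk⟩ := (IsPGroup.iff_orderOf.1 hG) c
      rw [hk]
      refine Nat.le_self_pow (fun h => hc1 (orderOf_eq_one_iff.1 (by rw [hk, h, pow_zero]))) p
    exact (zpowers_le.2 hc.2) (this.ge (mem_zpowers z))
  have hzc : zpowers z ≤ center G := zpowers_le.2 hzZ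
  -- `C = H`
  let H : Subgroup G :=
    { carrier := {x | x ∈ C ∧ x ^ p ∈ U ∧ ∀ y : G, ⁅y, x⁆ ∈ U}
      one_mem' := ⟨one_mem C, by rw [one_pow]; exact one_mem U, fun y => by simp⟩
      mul_mem' := fun {a b} ha hb => by
        refine ⟨mul_mem ha.1 hb.1, ?_, fun y => ?_⟩
        · have hc : b * a = a * b * ⁅b⁻¹, a⁻¹⁆ := by rw [commutatorElement_def]; group
          have hw : ⁅b⁻¹, a⁻¹⁆ ∈ U := by
            have h1 := ha.2.2 b⁻¹
            have h2 : ⁅b⁻¹, a⁻¹⁆ = a⁻¹ * ⁅b⁻¹, a⁆⁻¹ * a := by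
              rw [commutatorElement_def, commutatorElement_def]; group
            rw [h2]
            simpa using hUn.conj_mem _ (inv_mem h1) a⁻¹
          rw [pow_mul_of_central_commutator hc (hUcom _ hw a ha.1) (hUcom _ hw b hb.1)]
          exact mul_mem (mul_mem ha.2.1 hb.2.1) (pow_mem hw _)
        · rw [show ⁅y, a * b⁆ = ⁅y, a⁆ * (a * ⁅y, b⁆ * a⁻¹) by
            simp only [commutatorElement_def]; group]
          exact mul_mem (ha.2.2 y) (hUn.conj_mem _ (hb.2.2 y) a)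
      inv_mem' := fun {a} ha => by
        refine ⟨inv_mem ha.1, by rw [inv_pow]; exact inv_mem ha.2.1, fun y => ?_⟩
        rw [show ⁅y, a⁻¹⁆ = a⁻¹ * ⁅y, a⁆⁻¹ * a by simp only [commutatorElement_def]; group]
        simpa using hUn.conj_mem _ (inv_mem (ha.2.2 y)) a⁻¹ }
  have hHc : H.Characteristic := char_of_mem fun σ x hx => by
    refine ⟨char_mem hCc σ hx.1, ?_, fun y => ?_⟩
    · rw [← map_pow]; exact char_mem hUc σ hx.2.1
    · obtain ⟨y', rfl⟩ := σ.surjective y
      rw [← map_commutatorElement]; exact char_mem hUc σ (hx.2.2 y')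
  have hUH : U ≤ H := fun u hu => ⟨hUC hu, pow_mem hu p, fun y => by
    rw [commutatorElement_def]; exact mul_mem (hUn.conj_mem u hu y) (inv_mem hu)⟩
  have hKU : C ⊓ centralizer (H : Set G) ≤ U := by
    by_contra hnle
    haveI : (C ⊓ centralizer (H : Set G)).Normal :=
      normal_of_characteristic (h := char_inf hCc (char_centralizer hHc)) _
    set q := QuotientGroup.mk' U
    haveI : ((C ⊓ centralizer (H : Set G)).map q).Normal :=
      Subgroup.Normal.map inferInstance q (QuotientGroup.mk'_surjective U)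
    obtain ⟨c, hc, hcK, hco⟩ := H24.exists_central_orderOf (hG.to_quotient U)
      (N := (C ⊓ centralizer (H : Set G)).map q) (fun h => hnle fun x hx => by
        rw [← QuotientGroup.eq_one_iff]
        exact mem_bot.1 (h ▸ mem_map_of_mem q hx))
    obtain ⟨x, hx, rfl⟩ := hc
    have hxH : x ∈ H := by
      refine ⟨hx.1, ?_, fun y => ?_⟩
      · rw [← QuotientGroup.eq_one_iff, ← QuotientGroup.mk'_apply, map_pow, ← hco,
          pow_orderOf_eq_one]
      · rw [← QuotientGroup.eq_one_iff, ← QuotientGroup.mk'_apply, map_commutatorElement,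
          commutatorElement_eq_one_iff_mul_comm]
        exact mem_center_iff.1 hcK (q y)
    have hxU : x ∈ U := hZN H hHc (fun w hw => hw.1) ⟨hxH, hx.2⟩
    rw [← QuotientGroup.eq_one_iff] at hxU
    rw [QuotientGroup.mk'_apply, hxU, orderOf_one] at hco
    exact hpp.ne_one hco.symm
  have hcommz : ∀ x ∈ H, ∀ c ∈ C, ⁅c, x⁆ ∈ zpowers z := by
    intro x hx c hc
    refine hroot _ (hx.2.2 c) ?_
    have h1 : (⁅c, x⁆ * x) ^ p = x ^ p := by
      rw [show ⁅c, x⁆ * x = c * x * c⁻¹ by rw [commutatorElement_def]; group, conj_pow,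
        ← (hUcom _ hx.2.1 c hc).eq, mul_inv_cancel_right]
    rwa [(hUcom _ (hx.2.2 c) x hx.1).mul_pow, mul_eq_right] at h1
  have hCH : C ≤ H := by
    have h1 := H24.relIndex_centralizer_le hG C (T := (zpowers z : Set G))
      (by rw [Nat.card_coe_set_eq, ← Nat.card_coe_set_eq]; exact (Nat.card_zpowers z).trans hoz |>.le)
      hUH fun c hc x hx => hcommz x hx c hc
    rw [inf_eq_left.2 (le_refl C : C ≤ centralizer (U : Set G))] at h1
    have h2 : C ⊓ centralizer (H : Set G) = U := le_antisymm hKU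
      (le_inf hUC fun u hu x hx => (hUcom u hu x hx.1).eq.symm)
    rw [h2] at h1
    have hHC : H ≤ C := fun w hw => hw.1
    refine (Subgroup.eq_of_le_of_card_ge hHC ?_).ge
    rw [← H24.card_mul_relIndex hUC, ← H24.card_mul_relIndex hUH]
    exact Nat.mul_le_mul_left _ h1
  have hcz : ∀ x ∈ C, ∀ c ∈ C, ⁅c, x⁆ ∈ zpowers z := fun x hx => hcommz x (hCH hx)
  have hCC : C ⊓ centralizer (C : Set G) ≤ U := hZN C hCc le_rfl
  rcases Nat.eq_zero_or_pos n with rfl | hn1
  · -- `U` has order `p`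
    have hUz : U ≤ center G := by
      rw [hUdef, zpowers_le, show g = z by rw [hzdef, pow_zero, pow_one]]; exact hzZ
    have hCtop : ∀ x, x ∈ C := fun x u hu => (mem_center_iff.1 (hUz hu) x).symm
    refine ⟨⊤, ⊥, fun e _ r hr => by rw [mem_bot.1 hr, one_mul, mul_one], sup_bot_eq _,
      Or.inr (isExtraspecial_of_top ?_), Or.inl inferInstance⟩
    refine H24.isExtraspecial_of hG ?_ hnt (fun a b => hzc (hcz b (hCtop b) a (hCtop a)))
      fun x => hUz (hCH (hCtop x)).2.1
    rw [le_antisymm hZU hUz, hUdef, Nat.card_zpowers, hn, zero_add, pow_one]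
  -- `p`-th powers in `C`
  have hmul : ∀ x ∈ C, ∀ y ∈ C,
      ∃ w ∈ zpowers z, (x * y) ^ p = x ^ p * y ^ p * w ∧ (p ≠ 2 → w = 1) := fun x hx y hy =>
    pow_mul_mod hzZ hzp (hcz _ (inv_mem hx) _ (inv_mem hy))
  have hzgp : zpowers z ≤ zpowers (g ^ p) := by
    rw [zpowers_le, hzdef]
    obtain ⟨m, rfl⟩ := Nat.exists_eq_succ_of_ne_zero hn1.ne'
    rw [pow_succ', pow_mul]
    exact pow_mem (mem_zpowers _) _
  have hgpU : zpowers (g ^ p) ≤ U := zpowers_le.2 (pow_mem (mem_zpowers g) p)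
  have hgpc : (zpowers (g ^ p)).Characteristic := char_of_mem fun σ x hx => by
    obtain ⟨i, rfl⟩ := hx
    obtain ⟨j, hj⟩ := char_mem hUc σ (mem_zpowers g)
    refine ⟨j * i, ?_⟩
    change (g ^ p) ^ (j * i) = σ ((g ^ p) ^ i)
    rw [map_zpow, map_pow, ← show g ^ j = σ g from hj, zpow_mul]
    congr 1
    rw [← zpow_natCast, ← zpow_natCast, ← zpow_mul, ← zpow_mul, mul_comm]
  -- every coset of `U` in `C` contains an element of order dividing `p`
  have hall : ∀ c ∈ C, c ^ p ∈ zpowers (g ^ p) := by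
    let N : Subgroup G :=
      { carrier := {x | x ∈ C ∧ x ^ p ∈ zpowers (g ^ p)}
        one_mem' := ⟨one_mem C, by rw [one_pow]; exact one_mem _⟩
        mul_mem' := fun {a b} ha hb => by
          obtain ⟨w, hw, he, -⟩ := hmul a ha.1 b hb.1
          exact ⟨mul_mem ha.1 hb.1, he ▸ mul_mem (mul_mem ha.2 hb.2) (hzgp hw)⟩
        inv_mem' := fun {a} ha => ⟨inv_mem ha.1, by rw [inv_pow]; exact inv_mem ha.2⟩ }
    have hNc : N.Characteristic := char_of_mem fun σ x hx =>
      ⟨char_mem hCc σ hx.1, by rw [← map_pow]; exact char_mem hgpc σ hx.2⟩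
    have hUN : U ≤ N := fun u hu => ⟨hUC hu, by
      obtain ⟨i, rfl⟩ := hu
      refine ⟨i, ?_⟩
      change (g ^ p) ^ i = (g ^ i) ^ p
      rw [← zpow_natCast, ← zpow_natCast, ← zpow_mul, ← zpow_mul, mul_comm]⟩
    intro c hc
    by_contra hcN
    have hNC : N ≤ C := fun w hw => hw.1
    have hnle : ¬ C ⊓ centralizer (N : Set G) ≤ U := by
      intro hle
      have h1 := H24.relIndex_centralizer_le hG C (T := (zpowers z : Set G))
        ((Nat.card_zpowers z).trans hoz).le hUN fun a ha x hx => hcz x (hNC hx) a ha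
      rw [inf_eq_left.2 (le_refl C : C ≤ centralizer (U : Set G)),
        le_antisymm hle (le_inf hUC fun u hu x hx => (hUcom u hu x (hNC hx)).eq.symm)] at h1
      have h2 := Nat.mul_le_mul_left (Nat.card U) h1
      rw [H24.card_mul_relIndex hUC, H24.card_mul_relIndex hUN] at h2
      exact hcN ((Subgroup.eq_of_le_of_card_ge hNC h2).ge hc).2
    obtain ⟨d, ⟨hdC, hdN⟩, hdU⟩ := SetLike.not_le_iff_exists.1 hnle
    have hdN' : d ∉ N := fun h => hdU (hZN N hNc hNC ⟨h, hdN⟩)
    obtain ⟨j, hj⟩ := (hCH hdC).2.1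
    have hj' : ¬ (p : ℤ) ∣ j := by
      rintro ⟨j', rfl⟩
      refine hdN' ⟨hdC, ⟨j', ?_⟩⟩
      change (g ^ p) ^ j' = d ^ p
      rw [← zpow_natCast, ← zpow_mul]; exact hj
    refine hdU (hCC ⟨hdC, fun x hx => ?_⟩)
    obtain ⟨i, hi⟩ := (hCH hx).2.1
    obtain ⟨u, v, huv⟩ := (Nat.prime_iff_prime_int.1 hpp).coprime_iff_not_dvd.2 hj'
    obtain ⟨k, hk⟩ : ∃ k : ℕ, (p : ℤ) ∣ i - k * j := by
      refine ⟨((i * v : ℤ) : ZMod p).val, ?_⟩
      rw [← ZMod.intCast_zmod_eq_zero_iff_dvd]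
      push_cast
      rw [ZMod.natCast_zmod_val]
      have := congrArg (Int.cast : ℤ → ZMod p) huv
      push_cast at this
      rw [ZMod.natCast_self, mul_zero, zero_add] at this
      linear_combination -(i : ZMod p) * this
    have hdk : (d ^ k)⁻¹ ∈ C := inv_mem (pow_mem hdC k)
    obtain ⟨w, hw, he, -⟩ := hmul x hx _ hdk
    have hxN : x * (d ^ k)⁻¹ ∈ N := by
      refine ⟨mul_mem hx hdk, he ▸ mul_mem ?_ (hzgp hw)⟩
      obtain ⟨l, hl⟩ := hk
      refine ⟨l, ?_⟩
      change (g ^ p) ^ l = x ^ p * ((d ^ k)⁻¹) ^ p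
      rw [inv_pow, ← pow_mul, mul_comm k p, pow_mul, ← show g ^ i = x ^ p from hi,
        ← show g ^ j = d ^ p from hj, ← zpow_natCast (g ^ j), ← zpow_mul, ← zpow_neg, ← zpow_add,
        ← zpow_natCast g p, ← zpow_mul, ← hl]
      congr 1; ring
    have h3 : Commute (x * (d ^ k)⁻¹) d := hdN _ hxN
    have h4 := h3.mul_left ((Commute.refl d).pow_left k)
    rw [inv_mul_cancel_right] at h4
    exact h4.eq
  -- the extraspecial factor
  have hrepr : ∀ c ∈ C, ∃ u ∈ U, (c * u) ^ p = 1 := by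
    intro c hc
    obtain ⟨i, hi⟩ := hall c hc
    refine ⟨(g ^ i)⁻¹, inv_mem (zpow_mem (mem_zpowers g) i), ?_⟩
    rw [((hUcom _ (zpow_mem (mem_zpowers g) i) c hc).inv_left).symm.mul_pow,
      ← show (g ^ p) ^ i = c ^ p from hi, inv_pow, mul_inv_eq_one, ← zpow_natCast, ← zpow_natCast,
      ← zpow_mul, ← zpow_mul, mul_comm]
  obtain ⟨E, ⟨hzE, hEC, hEU, hEp⟩, hEmax⟩ := Set.Finite.exists_maximal
    (Set.toFinite {F : Subgroup G | zpowers z ≤ F ∧ F ≤ C ∧ F ⊓ U ≤ zpowers z ∧
      ∀ e ∈ F, e ^ p ∈ zpowers z ∧ (p ≠ 2 → e ^ p = 1)})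
    ⟨zpowers z, le_rfl, (zpowers_le.2 hzU).trans hUC, inf_le_left, by
      rintro _ ⟨i, rfl⟩
      have h : (z ^ i) ^ p = 1 := by
        rw [← zpow_natCast, ← zpow_mul, mul_comm, zpow_mul, zpow_natCast, hzp, one_zpow]
      exact ⟨h ▸ one_mem _, fun _ => h⟩⟩
  have hGE : ∀ (y : G), ∀ e ∈ E, ⁅y, e⁆ ∈ zpowers z := by
    intro y e he
    refine hroot _ ((hCH (hEC he)).2.2 y) ?_
    have h1 : (⁅y, e⁆ * e) ^ p = e ^ p := by
      rw [show ⁅y, e⁆ * e = y * e * y⁻¹ by rw [commutatorElement_def]; group, conj_pow,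
        mem_center_iff.1 (hzc (hEp e he).1) y, mul_inv_cancel_right]
    rwa [(hUcom _ ((hCH (hEC he)).2.2 y) e (hEC he)).mul_pow, mul_eq_right] at h1
  haveI hEn : E.Normal := ⟨fun e he y => by
    rw [show y * e * y⁻¹ = ⁅y, e⁆ * e by rw [commutatorElement_def]; group]
    exact mul_mem (hzE (hGE y e he)) he⟩
  have hEUC : E ⊔ U = C := by
    refine le_antisymm (sup_le hEC hUC) fun c hc => ?_
    by_contra hcEU
    obtain ⟨u, hu, hcu⟩ := hrepr c hc
    have hcu' : c * u ∉ E ⊔ U := fun h => hcEU (by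
      simpa using mul_mem h (inv_mem (mem_sup_right hu : u ∈ E ⊔ U)))
    set x := c * u
    have hxC : x ∈ C := mul_mem hc (hUC hu)
    have hle := hEmax (y := E ⊔ zpowers x) ⟨hzE.trans le_sup_left, sup_le hEC (zpowers_le.2 hxC), ?_, ?_⟩
      le_sup_left
    · exact hcu' (mem_sup_left (hle (mem_sup_right (mem_zpowers x))))
    · rintro y ⟨hy, hyU⟩
      obtain ⟨e, he, w, hw, rfl⟩ := mem_sup_of_normal_left.1 hy
      obtain ⟨a, rfl⟩ := mem_powers_iff_mem_zpowers.2 hw
      obtain ⟨b, rfl⟩ | hb : p ∣ a ∨ ¬ p ∣ a := em _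
      · rw [show (fun k : ℕ => x ^ k) (p * b) = 1 by simp [pow_mul, hcu], mul_one] at hyU ⊢
        exact hEU ⟨he, hyU⟩
      · exfalso
        apply hcu'
        have h1 : x ^ a ∈ E ⊔ U := by
          simpa using mul_mem (inv_mem (mem_sup_left he : e ∈ E ⊔ U)) (mem_sup_right hyU : e * x ^ a ∈ E ⊔ U)
        obtain ⟨m, hm⟩ := exists_pow_eq_self_of_coprime (x := x) (n := a)
          (((hpp.coprime_iff_not_dvd.2 hb).symm).coprime_dvd_right (orderOf_dvd_of_pow_eq_one hcu))
        exact hm ▸ pow_mem h1 m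
    · intro y hy
      obtain ⟨e, he, w, hw, rfl⟩ := mem_sup_of_normal_left.1 hy
      obtain ⟨v, hv, hve, hv2⟩ := hmul e (hEC he) w ((zpowers_le.2 hxC) hw)
      obtain ⟨a, rfl⟩ := hw
      have hw1 : (x ^ a) ^ p = 1 := by
        rw [← zpow_natCast, ← zpow_mul, mul_comm, zpow_mul, zpow_natCast, hcu, one_zpow]
      rw [hve, hw1, mul_one]
      exact ⟨mul_mem (hEp e he).1 hv, fun h => by rw [(hEp e he).2 h, hv2 h, one_mul]⟩
  have hEcz : E ⊓ centralizer (E : Set G) ≤ zpowers z := fun x hx => hEU ⟨hx.1, hCC ⟨hEC hx.1, by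
    have : C ≤ centralizer ({x} : Set G) := hEUC ▸ sup_le
      (fun e he => mem_centralizer_singleton_iff.2 (hx.2 e he))
      (fun v hv => mem_centralizer_singleton_iff.2 (hUcom v hv x (hEC hx.1)).eq)
    exact fun c hc => mem_centralizer_singleton_iff.1 (this hc)⟩⟩
  set R := centralizer (E : Set G) with hRdef
  have hER : E ⊔ R = ⊤ := by
    have hb := H24.relIndex_centralizer_le hG (⊤ : Subgroup G) (T := (zpowers z : Set G))
      ((Nat.card_zpowers z).trans hoz).le hzE fun y _ e he => hGE y e he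
    rw [top_inf_eq, top_inf_eq, centralizer_eq_top_iff_subset.2 hzc, relIndex_top_right] at hb
    apply Subgroup.eq_top_of_le_card
    rw [← H24.card_mul_relIndex (le_sup_right : R ≤ E ⊔ R), ← card_mul_index R, relIndex_sup_right,
      ← inf_relIndex_right, inf_comm R E]
    refine Nat.mul_le_mul_left _ (hb.trans (le_of_eq ?_))
    rw [le_antisymm hEcz (le_inf hzE (hzc.trans (center_le_centralizer _)))]
  have hcomm : ∀ e ∈ E, ∀ r ∈ R, e * r = r * e := fun e he r hr => hr e he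
  have hUR : U ≤ R := fun u hu e he => (hUcom u hu e (hEC he)).eq.symm
  have hRC : R ⊓ C ≤ U := by
    rintro x ⟨hxR, hxC⟩
    obtain ⟨e, he, u, hu, rfl⟩ := mem_sup_of_normal_left.1 (hEUC.ge hxC)
    have : e ∈ R := by simpa using R.mul_mem hxR (R.inv_mem (hUR hu))
    exact mul_mem ((zpowers_le.2 hzU) (hEcz ⟨he, this⟩)) hu
  -- the other factor
  suffices hR : Cfsg.IsExtraspecial p (⊤ : Subgroup G) ∨
      (IsCyclic R ∨ (p = 2 ∧ 16 ≤ Nat.card R ∧ ((∃ m : ℕ, Nonempty (R ≃* DihedralGroup m)) ∨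
        (∃ m : ℕ, Nonempty (R ≃* QuaternionGroup m)) ∨ Cfsg.IsQuasiDihedral R))) by
    rcases hR with hR | hR
    · exact ⟨⊤, ⊥, fun e _ r hr => by rw [mem_bot.1 hr, one_mul, mul_one], sup_bot_eq _,
        Or.inr hR, Or.inl inferInstance⟩
    · by_cases hEz : E ≤ zpowers z
      · refine ⟨⊥, R, fun e he r _ => by rw [mem_bot.1 he, one_mul, mul_one], ?_, Or.inl rfl, hR⟩
        rw [bot_sup_eq, ← hER, sup_eq_right.2 (hEz.trans (hzc.trans (center_le_centralizer _)))]
      · refine ⟨E, R, hcomm, hER, Or.inr ?_, hR⟩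
        have hcenE : (center E).map E.subtype = zpowers z := by
          refine le_antisymm ?_ fun w hw => ?_
          · rintro _ ⟨e, he, rfl⟩
            exact hEcz ⟨e.2, fun f hf => congrArg Subtype.val (mem_center_iff.1 he ⟨f, hf⟩)⟩
          · exact ⟨⟨w, hzE hw⟩, mem_center_iff.2 fun f =>
              Subtype.ext (mem_center_iff.1 (hzc hw) f), rfl⟩
        have hmem : ∀ e : E, (e : G) ∈ zpowers z → e ∈ center E := fun e he =>
          mem_center_iff.2 fun f => Subtype.ext (mem_center_iff.1 (hzc he) f)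
        refine H24.isExtraspecial_of (hG.to_subgroup E) ?_ (fun htop => hEz ?_)
          (fun a b => hmem _ (hGE a b b.2)) (fun e => hmem _ (hEp e e.2).1)
        · rw [← card_map_of_injective E.subtype_injective, hcenE, Nat.card_zpowers, hoz]
        · rw [← hcenE, htop, ← MonoidHom.range_eq_map, range_subtype]
  set g' : R := ⟨g, hUR (mem_zpowers g)⟩
  have hmemU : ∀ r : R, r ∈ zpowers g' ↔ (r : G) ∈ U := fun r =>
    ⟨fun ⟨i, hi⟩ => ⟨i, by simp [← hi, g']⟩, fun ⟨i, hi⟩ => ⟨i, Subtype.ext (by simpa [g'] using hi)⟩⟩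
  haveI hg'n : (zpowers g').Normal := ⟨fun r hr s => by
    rw [hmemU] at hr ⊢
    exact hUn.conj_mem _ hr _⟩
  have hg'C : centralizer (zpowers g' : Set R) = zpowers g' := by
    refine le_antisymm (fun r hr => (hmemU r).2 (hRC ⟨r.2, ?_⟩)) fun r hr s hs => ?_
    · intro u hu
      exact congrArg Subtype.val (hr ⟨u, hUR hu⟩ ((hmemU _).2 hu))
    · exact Subtype.ext (hUcom _ ((hmemU _).1 hs) _ (hUC ((hmemU _).1 hr))).eq
  have hg'o : orderOf g' = p ^ (n + 1) := by rw [← Subgroup.orderOf_coe]; exact hn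
  by_cases hRab : IsMulCommutative R
  · refine Or.inr (Or.inl ?_)
    have : (⊤ : Subgroup R) ≤ zpowers g' := by
      rw [← hg'C]; exact fun r _ s _ => hRab.is_comm.comm s r
    exact ⟨g', fun r => this (mem_top r)⟩
  obtain ⟨r₀, hr₀⟩ : ∃ r : R, r ∉ zpowers g' := by
    by_contra h
    push Not at h
    refine hRab ⟨⟨fun a b => ?_⟩⟩
    obtain ⟨i, rfl⟩ := h a
    obtain ⟨j, rfl⟩ := h b
    exact ((Commute.refl g').zpow_zpow i j).eq
  by_cases hsmall : p = 2 ∧ n = 1
  · -- `U` has order four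
    left
    obtain ⟨rfl, rfl⟩ := hsmall
    have hinv : ∀ r : R, (r : G) ∉ U → (r : G) * g * (r : G)⁻¹ = g⁻¹ := by
      intro r hr
      obtain ⟨i, hi⟩ := hUn.conj_mem g (mem_zpowers g) (r : G)
      simp only at hi
      have h4 : g ^ (4 : ℤ) = 1 := by
        rw [show (4 : ℤ) = ((4 : ℕ) : ℤ) from rfl, zpow_natCast,
          show (4 : ℕ) = 2 ^ (1 + 1) from rfl, ← hn, pow_orderOf_eq_one]
      obtain ⟨a, ha, hia⟩ : ∃ a : ℕ, a < 4 ∧ g ^ i = g ^ a := ⟨(i % 4).toNat, by omega, by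
        rw [← zpow_natCast, Int.toNat_of_nonneg (by omega)]
        conv_lhs => rw [← Int.emod_add_mul_ediv i 4, zpow_add, zpow_mul, h4, one_zpow, mul_one]⟩
      rw [hia] at hi
      have hne2 : ∀ b : ℕ, 0 < b → b < 4 → g ^ b ≠ 1 := fun b hb hb' =>
        pow_ne_one_of_lt_orderOf hb.ne' (by rw [hn]; exact hb')
      interval_cases a
      · exfalso
        rw [pow_zero, eq_comm, mul_inv_eq_one, mul_eq_left] at hi
        exact hne2 1 one_pos (by norm_num) (by rw [pow_one, hi])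
      · exfalso
        rw [pow_one] at hi
        refine hr (hRC ⟨r.2, fun u hu => ?_⟩)
        obtain ⟨j, rfl⟩ := hu
        exact (Commute.zpow_right (mul_inv_eq_iff_eq_mul.1 hi.symm : Commute (r : G) g) j).eq.symm
      · exfalso
        refine hne2 2 two_pos (by norm_num) ?_
        have h5 := congrArg (fun t => t ^ 2) hi
        simp only [conj_pow, ← pow_mul] at h5
        rw [show g ^ (2 * 2) = 1 by rw [← show (2 : ℕ) ^ (1 + 1) = 2 * 2 from rfl, ← hn, pow_orderOf_eq_one],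
          eq_comm, mul_inv_eq_one, mul_eq_left] at h5
        exact h5
      · rw [← hi, ← zpow_natCast, ← zpow_neg_one, zpow_eq_zpow_iff_modEq, hn]
        exact Int.modEq_iff_dvd.2 (by norm_num)
    have hsqR : ∀ r : R, (r : G) ^ 2 ∈ zpowers z := by
      intro r
      by_cases hr : (r : G) ∈ U
      · obtain ⟨j, hj⟩ := hr
        refine ⟨j, ?_⟩
        change z ^ j = (r : G) ^ 2
        rw [← show g ^ j = (r : G) from hj, hzdef, ← zpow_natCast, ← zpow_natCast, ← zpow_mul,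
          ← zpow_mul]
        congr 1; push_cast; ring
      · have h1 := hinv r hr
        have h2 : (r : G) ^ 2 ∈ C := by
          rintro _ ⟨j, rfl⟩
          have h3 : (r : G) ^ 2 * g * ((r : G) ^ 2)⁻¹ = g := by
            rw [show (r : G) ^ 2 * g * ((r : G) ^ 2)⁻¹ = r * (r * g * (r : G)⁻¹) * (r : G)⁻¹ by
              rw [pow_two]; group, h1, ← inv_inv g, inv_inv g⁻¹]
            rw [show (r : G) * g⁻¹ * (r : G)⁻¹ = ((r : G) * g * (r : G)⁻¹)⁻¹ by group, h1]
          exact ((show Commute ((r : G) ^ 2) g from mul_inv_eq_iff_eq_mul.1 h3).zpow_right j).eq.symm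
        obtain ⟨j, hj⟩ := hRC ⟨pow_mem r.2 2, h2⟩
        refine hroot _ (hRC ⟨pow_mem r.2 2, h2⟩) ?_
        have h4 : (r : G) * (g ^ j) * (r : G)⁻¹ = (g ^ j)⁻¹ := by
          rw [← conj_zpow, h1, inv_zpow]
        rw [show g ^ j = (r : G) ^ 2 from hj, (Commute.self_pow (r : G) 2).eq,
          mul_inv_cancel_right, eq_inv_iff_mul_eq_one] at h4
        rw [pow_two]; exact h4
    have hsq : ∀ x : G, x ^ 2 ∈ zpowers z := by
      intro x
      obtain ⟨e, he, r, hr, rfl⟩ := mem_sup_of_normal_left.1 (hER.ge (mem_top x))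
      rw [(show Commute e r from hcomm e he r hr).mul_pow]
      exact mul_mem (hEp e he).1 (hsqR ⟨r, hr⟩)
    refine isExtraspecial_of_top (H24.isExtraspecial_of hG ?_ hnt (fun a b => hzc ?_) fun x => hzc (hsq x))
    · have : center G = zpowers z := by
        refine le_antisymm (fun x hx => ?_) hzc
        refine hroot x (hZU hx) ?_
        obtain ⟨j, rfl⟩ := hZU hx
        have h1 : (r₀ : G) * g ^ j * (r₀ : G)⁻¹ = (g ^ j)⁻¹ := by
          rw [← conj_zpow, hinv r₀ (fun h => hr₀ ((hmemU r₀).2 h)), inv_zpow]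
        rw [mem_center_iff.1 hx, mul_inv_cancel_right, eq_inv_iff_mul_eq_one] at h1
        rw [pow_two]; exact h1
      rw [this, Nat.card_zpowers, hoz]
    · rw [show ⁅a, b⁆ = (a * b) ^ 2 * (b⁻¹ * (a ^ 2)⁻¹ * b) * (b ^ 2)⁻¹ by
        rw [commutatorElement_def, pow_two, pow_two, pow_two]; group]
      rw [show b⁻¹ * (a ^ 2)⁻¹ = (a ^ 2)⁻¹ * b⁻¹ from mem_center_iff.1 (inv_mem (hzc (hsq a))) _,
        inv_mul_cancel_right]
      exact mul_mem (mul_mem (hsq _) (inv_mem (hsq a))) (inv_mem (hsq b))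
  right
  rcases cyclic_self_centralizing (hG.to_subgroup R) hRab g' hg'n hg'C (n + 1) hg'o with
    ⟨rfl, hcard, hshape⟩ | ⟨hrel, hel, hcardO, -⟩
  · refine Or.inr ⟨rfl, ?_, hshape⟩
    rw [hcard, show (16 : ℕ) = 2 ^ 4 from rfl]
    exact Nat.pow_le_pow_right two_pos (by
      have : n ≠ 1 := fun h => hsmall ⟨rfl, h⟩
      omega)
  exfalso
  set MR := centralizer (zpowers (g' ^ p) : Set R) with hMR
  obtain ⟨y, hyO, hyU⟩ : ∃ y ∈ Cfsg.omegaOne p MR, (y : G) ∉ U := by
    by_contra h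
    push Not at h
    have hle : (Cfsg.omegaOne p MR).map R.subtype ≤ zpowers z := by
      rintro _ ⟨w, hw, rfl⟩
      exact hroot _ (h w hw) (congrArg Subtype.val (hel.2 w hw))
    have := Subgroup.card_le_of_le hle
    rw [card_map_of_injective R.subtype_injective, hcardO, Nat.card_zpowers, hoz] at this
    have := hpp.two_le
    nlinarith
  have hyp : (y : G) ^ p = 1 := congrArg Subtype.val (hel.2 y hyO)
  have hyM : y ∈ MR := (closure_le MR).2 (fun w hw => hw.1) hyO
  have hygp : Commute (g ^ p) (y : G) :=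
    (congrArg Subtype.val (hyM _ (mem_zpowers (g' ^ p))) :)
  have hspan : zpowers g' ⊔ zpowers y = MR := by
    have hUM : zpowers g' ≤ MR := zpowers_le.2 (by
      rintro _ ⟨i, rfl⟩
      exact ((Commute.refl g').pow_left p).zpow_left i |>.eq)
    have hnle : ¬ zpowers g' ⊔ zpowers y ≤ zpowers g' := fun h =>
      hyU ((hmemU y).1 (h (mem_sup_right (mem_zpowers y))))
    refine Subgroup.eq_of_le_of_card_ge (sup_le hUM (zpowers_le.2 hyM)) ?_
    rw [← H24.card_mul_relIndex hUM, hrel, ← H24.card_mul_relIndex (le_sup_left : zpowers g' ≤ zpowers g' ⊔ zpowers y)]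
    exact Nat.mul_le_mul_left _ (H24.le_relIndex_of_lt (hG.to_subgroup R) hnle)
  set M := centralizer (zpowers (g ^ p) : Set G) with hMdef
  have hyT : ∀ x ∈ M, x ^ p = 1 → Commute (y : G) x := by
    intro x hx hxp
    obtain ⟨e, he, r, hr, rfl⟩ := mem_sup_of_normal_left.1 (hER.ge (mem_top x))
    have heM : ∀ w ∈ zpowers (g ^ p), Commute w e := fun w hw => hUcom w (hgpU hw) e (hEC he)
    have hrM : (⟨r, hr⟩ : R) ∈ MR := by
      rintro _ ⟨i, rfl⟩
      refine Subtype.ext ?_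
      have h1 : Commute ((g ^ p) ^ i) r := by
        have := (heM _ (zpow_mem (mem_zpowers _) i)).inv_right.mul_right
          (show Commute ((g ^ p) ^ i) (e * r) from hx _ (zpow_mem (mem_zpowers _) i))
        rwa [inv_mul_cancel_left] at this
      simpa [g'] using h1.eq
    rw [← hspan, sup_comm, mem_sup_of_normal_right] at hrM
    obtain ⟨a', ha', b', hb', hab'⟩ := hrM
    obtain ⟨a, rfl⟩ := mem_powers_iff_mem_zpowers.2 ha'
    obtain ⟨i, hi⟩ := (hmemU b').1 hb'
    have hrab : r = (y : G) ^ a * g ^ i := by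
      have := congrArg Subtype.val hab'
      simpa [show g ^ i = (b' : G) from hi] using this.symm
    subst hrab
    set u := g ^ i with hu
    have hu' : u ∈ U := zpow_mem (mem_zpowers g) i
    have hcu : ⁅u⁻¹, ((y : G) ^ a)⁻¹⁆ ∈ zpowers z := by
      have h1 : ((y : G) ^ a)⁻¹ * u * (y : G) ^ a ∈ U := by simpa using hUn.conj_mem u hu' ((y : G) ^ a)⁻¹
      rw [show ⁅u⁻¹, ((y : G) ^ a)⁻¹⁆ = u⁻¹ * (((y : G) ^ a)⁻¹ * u * (y : G) ^ a) by
        rw [commutatorElement_def]; group]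
      refine hroot _ (mul_mem (inv_mem hu') h1) ?_
      rw [(hUcom _ (inv_mem hu') _ (hUC h1)).mul_pow]
      have h2 : (((y : G) ^ a)⁻¹ * u * (y : G) ^ a) ^ p = ((y : G) ^ a)⁻¹ * u ^ p * (y : G) ^ a := by
        simpa using conj_pow (a := ((y : G) ^ a)⁻¹) (b := u) (i := p)
      have h3 : u ^ p = (g ^ p) ^ i := by
        rw [hu, ← zpow_natCast, ← zpow_natCast, ← zpow_mul, ← zpow_mul, mul_comm]
      rw [h2, inv_pow, h3, mul_assoc ((y : G) ^ a)⁻¹, ((hygp.zpow_left i).pow_right a).eq,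
        inv_mul_cancel_left, inv_mul_cancel]
    obtain ⟨w, hw, hwe, hw2⟩ := pow_mul_mod hzZ hzp hcu
    have hey : Commute e ((y : G) ^ a * u) := hcomm e he _ hr
    rw [hey.mul_pow, hwe, ← pow_mul, mul_comm a p, pow_mul, hyp, one_pow, one_mul] at hxp
    have hcomy : Commute (y : G) u := by
      by_cases hp2 : p = 2
      · subst hp2
        have hn3 : 2 ≤ n := by
          have : n ≠ 1 := fun h => hsmall ⟨rfl, h⟩
          omega
        have h5 : u ^ 2 ∈ zpowers z := by
          have h6 : u ^ 2 * w ∈ zpowers z := by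
            rw [eq_inv_of_mul_eq_one_right hxp]; exact inv_mem (hEp e he).1
          simpa using mul_mem h6 (inv_mem hw)
        obtain ⟨k, hk⟩ := h5
        have h7 : ((2 : ℤ) ^ (n + 1)) ∣ i * 4 := by
          have h8 : g ^ (i * 4) = 1 := by
            rw [show i * 4 = (i * 2) * 2 by ring, zpow_mul, zpow_mul, zpow_ofNat, zpow_ofNat,
              ← show z ^ k = u ^ 2 from hk, ← zpow_natCast, ← zpow_mul, mul_comm, zpow_mul,
              zpow_natCast, hzp, one_zpow]
          rw [← orderOf_dvd_iff_zpow_eq_one, hn] at h8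
          exact_mod_cast h8
        obtain ⟨m, hm⟩ : (2 : ℤ) ∣ i := by
          have h9 : (8 : ℤ) ∣ i * 4 :=
            (dvd_trans (by norm_num) (pow_dvd_pow (2 : ℤ) (show 3 ≤ n + 1 by omega))).trans h7
          omega
        rw [hu, hm, zpow_mul, zpow_ofNat]
        exact (hygp.zpow_left m).symm
      · rw [(hEp e he).2 hp2, one_mul, hw2 hp2, mul_one] at hxp
        exact (mem_center_iff.1 (hzc (hroot u hu' hxp)) (y : G))
    exact ((show Commute e (y : G) from hcomm e he y y.2).symm).mul_right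
      (((Commute.refl (y : G)).pow_right a).mul_right hcomy)
  set T := Cfsg.omegaOne p M with hT
  have hTc : T.Characteristic := char_omegaOne p (char_centralizer hgpc)
  haveI hZc : IsCyclic (T ⊓ centralizer (T : Set G) : Subgroup G) :=
    hsymp _ (char_inf hTc (char_centralizer hTc)) ⟨⟨fun a b => Subtype.ext (b.2.2 a a.2.1)⟩⟩
  have hyTm : (y : G) ∈ T := Subgroup.subset_closure ⟨by
    rintro _ ⟨i, rfl⟩; exact (hygp.zpow_left i).eq, hyp⟩
  have hyc : (y : G) ∈ T ⊓ centralizer (T : Set G) := ⟨hyTm, by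
    have : T ≤ centralizer ({(y : G)} : Set G) := (closure_le _).2 fun x hx =>
      mem_centralizer_singleton_iff.2 (hyT x hx.1 hx.2).eq.symm
    exact fun x hx => mem_centralizer_singleton_iff.1 (this hx)⟩
  have hzc' : z ∈ T ⊓ centralizer (T : Set G) := ⟨Subgroup.subset_closure
    ⟨fun w _ => mem_center_iff.1 hzZ w, hzp⟩, center_le_centralizer _ hzZ⟩
  obtain ⟨k, hk⟩ := H35.mem_zpowers_of_isCyclic (p := p) (R := (T ⊓ centralizer (T : Set G) : Subgroup G))
    (x := ⟨z, hzc'⟩) (y := ⟨(y : G), hyc⟩) (by rw [← Subgroup.orderOf_coe]; exact hoz)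
    (Subtype.ext (by simpa using hyp))
  exact hyU ((congrArg Subtype.val hk) ▸ (by simpa using zpow_mem hzU k))

end Cfsg.Agent.H83
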