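import Cfsg.Agent.H20.Hyperplane
import Cfsg.Agent.H20.Basic
import Cfsg.Agent.H44.HallHigman
import Cfsg.Agent.H84.PSolvable
import Cfsg.Agent.H22.PResidual
import Cfsg.Agent.H19.Frattini
import Cfsg.Agent.H19.Cores
import Cfsg.Agent.H83.LocalLemmas
import Cfsg.Agent.H83.Basic
import Mathlib

/-! Subgroups generated by two conjugates of a `p`-subgroup in a `p`-soluble group. -/

set_option autoImplicit false
open scoped commutatorElement

namespace Cfsg.Agent.H83

variable {G : Type*} [Group G]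

/-- A `p'`-element of `NP`, with `P` a `p`-group normalising `N`, lies in `N`. -/
theorem mem_of_coprime_mem_sup {p : ℕ} [Fact p.Prime] {N P : Subgroup G} (hP : IsPGroup p P)
    (hn : P ≤ Subgroup.normalizer (N : Set G)) {g : G} (hg : g ∈ N ⊔ P) (hc : (orderOf g).Coprime p) :
    g ∈ N := by
  have hH : N ⊔ P ≤ Subgroup.normalizer (N : Set G) := sup_le Subgroup.le_normalizer hn
  haveI : (N.subgroupOf (N ⊔ P)).Normal := (Subgroup.normal_subgroupOf_iff_le_normalizer le_sup_left).2 hH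
  obtain ⟨a, ha, b, hb, e⟩ := exists_mul_of_mem_sup hn (sup_comm N P ▸ hg)
  let q := QuotientGroup.mk' (N.subgroupOf (N ⊔ P))
  have e1 : q ⟨g, hg⟩ = q ⟨a, Subgroup.mem_sup_right ha⟩ := by
    refine QuotientGroup.eq.2 (Subgroup.mem_subgroupOf.2 ?_)
    show g⁻¹ * a ∈ N
    rw [← e, show (a * b)⁻¹ * a = b⁻¹ by group]
    exact N.inv_mem hb
  obtain ⟨k, hk⟩ := hP ⟨a, ha⟩
  have hk' : (⟨a, Subgroup.mem_sup_right ha⟩ : (N ⊔ P : Subgroup G)) ^ (p ^ k) = 1 :=
    Subtype.ext (by simpa using congrArg Subtype.val hk)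
  have h1 : orderOf (q ⟨g, hg⟩) ∣ p ^ k := by
    rw [e1]
    exact (orderOf_map_dvd q _).trans (orderOf_dvd_of_pow_eq_one hk')
  have h2 : orderOf (q ⟨g, hg⟩) ∣ orderOf g :=
    (orderOf_map_dvd q _).trans (Subgroup.orderOf_mk g hg).dvd
  have h3 : q ⟨g, hg⟩ = 1 :=
    orderOf_eq_one_iff.1 (Nat.eq_one_of_dvd_coprimes (hc.pow_right k) h2 h1)
  exact Subgroup.mem_subgroupOf.1 ((QuotientGroup.eq_one_iff _).1 h3)

theorem map_pResidual_subtype_le {p : ℕ} {L N : Subgroup G}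
    (h : ∀ g ∈ L, (orderOf g).Coprime p → g ∈ N) : (Cfsg.pResidual p L).map L.subtype ≤ N := by
  rw [Subgroup.map_le_iff_le_comap, Cfsg.pResidual, Subgroup.closure_le]
  intro g hg
  exact h g g.2 (by rw [Subgroup.orderOf_coe]; exact hg)

/-- A `p`-group of exponent `p` acting coprimely and non-trivially has a subgroup of index `p` with a
fixed point not centralised by the whole group. -/
theorem exists_index_prime_centralizer [Finite G] {p : ℕ} [hp : Fact p.Prime] {A X : Subgroup G}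
    (hAc : ∀ a ∈ A, ∀ b ∈ A, Commute a b) (hAp : ∀ a ∈ A, a ^ p = 1)
    (hAX : A ≤ Subgroup.normalizer (X : Set G)) (hcop : (Nat.card A).Coprime (Nat.card X))
    (hne : ¬ X ≤ Subgroup.centralizer (A : Set G)) :
    ∃ B ≤ A, B.relIndex A = p ∧ ∃ y ∈ X, y ∈ Subgroup.centralizer (B : Set G) ∧
      y ∉ Subgroup.centralizer (A : Set G) := by
  haveI : IsMulCommutative A := IsMulCommutative.of_comm fun a b => Subtype.ext (hAc a a.2 b b.2)
  by_contra hcon
  push Not at hcon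
  refine hne (H20.le_of_cocyclic_centralizers_le hAX hcop fun B hBA hB y hy => ?_)
  obtain ⟨a, ha, hgen⟩ := hB
  by_contra hy2
  have hlt : ¬ A ≤ B := fun h => hy2 (Subgroup.centralizer_le h hy.2)
  refine hy2 (hcon B hBA ?_ y hy.1 hy.2)
  haveI hn : (B.subgroupOf A).Normal := inferInstance
  let φ : Subgroup.zpowers a →* A ⧸ B.subgroupOf A :=
    (QuotientGroup.mk' _).comp (Subgroup.inclusion (Subgroup.zpowers_le.2 ha))
  have hφ : Function.Surjective φ := by
    intro u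
    obtain ⟨⟨v, hv⟩, rfl⟩ := QuotientGroup.mk'_surjective _ u
    have hnz : Subgroup.zpowers a ≤ Subgroup.normalizer (B : Set G) := by
      refine Subgroup.le_normalizer_iff.2 fun x hx b hb => ?_
      rw [(hAc x (Subgroup.zpowers_le.2 ha hx) b (hBA hb)).eq, mul_inv_cancel_right]
      exact hb
    obtain ⟨z, hz, b, hb, e⟩ := exists_mul_of_mem_sup hnz (sup_comm B _ ▸ hgen.ge hv)
    refine ⟨⟨z, hz⟩, QuotientGroup.eq.2 (Subgroup.mem_subgroupOf.2 ?_)⟩
    show z⁻¹ * v ∈ B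
    rw [← e, inv_mul_cancel_left]
    exact hb
  have h1 : B.relIndex A ∣ p := by
    refine (Subgroup.card_dvd_of_surjective φ hφ).trans ?_
    rw [Nat.card_zpowers]
    exact orderOf_dvd_of_pow_eq_one (hAp a ha)
  exact ((Nat.dvd_prime hp.out).1 h1).resolve_left fun h => hlt (Subgroup.relIndex_eq_one.1 h)

theorem exists_two_conjugates [Finite G] {p : ℕ} [hp : Fact p.Prime] (hM : Cfsg.IsPSolvable p G)
    (A : Subgroup G) (hA : IsPGroup p A) (hΦ : (frattini A).map A.subtype ≤ Cfsg.pCore p G)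
    (hnot : ¬ A ≤ Cfsg.pCore p G) :
    ∃ x ∈ (Cfsg.pPrimeCore p (G ⧸ Cfsg.pCore p G)).comap (QuotientGroup.mk' (Cfsg.pCore p G)),
      ∀ L : Subgroup G, L = A ⊔ A.map (MulAut.conj x).toMonoidHom →
      x ∈ (Cfsg.pResidual p L).map L.subtype ∧
      (Cfsg.pResidual p L).map L.subtype ≤
        (Cfsg.pPrimeCore p (G ⧸ Cfsg.pCore p G)).comap (QuotientGroup.mk' (Cfsg.pCore p G)) ∧
      ⁅(Cfsg.pResidual p L).map L.subtype, A⁆ = (Cfsg.pResidual p L).map L.subtype ∧
      (A ⊓ (Cfsg.pCore p L).map L.subtype).relIndex A = p ∧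
      ⁅A ⊓ (Cfsg.pCore p L).map L.subtype, L⁆ ≤ Cfsg.pCore p G := by
  haveI hOn : (Cfsg.pCore p G).Normal := H19.pCore_normal p G
  have hOp : IsPGroup p (Cfsg.pCore p G) := H19.pCore_isPGroup p
  set O := Cfsg.pCore p G
  set q := QuotientGroup.mk' O
  have hqs : Function.Surjective q := QuotientGroup.mk'_surjective O
  have hq1 : ∀ g : G, q g = 1 ↔ g ∈ O := fun g => QuotientGroup.eq_one_iff g
  set X := Cfsg.pPrimeCore p (G ⧸ O)
  haveI hXn : X.Normal := H19.pPrimeCore_normal p _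
  have hXc : (Nat.card X).Coprime p := H19.pPrimeCore_coprime p
  have hCX : Subgroup.centralizer (X : Set (G ⧸ O)) ≤ X :=
    H44.centralizer_pPrimeCore_le (H84.isPSolvable_of_surjective q hqs hM) (H19.pCore_quotient_pCore p)
  set Ab := A.map q
  have hAbp : IsPGroup p Ab := hA.map q
  obtain ⟨hAco, hApow⟩ := H19.commutator_pow_mem_frattini hA
  have hpow : ∀ u ∈ Ab, u ^ p = 1 := by
    rintro _ ⟨a, ha, rfl⟩
    rw [← map_pow, hq1]
    exact hΦ ⟨_, hApow ⟨a, ha⟩, rfl⟩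
  have hcomm : ∀ u ∈ Ab, ∀ v ∈ Ab, Commute u v := by
    rintro _ ⟨a, ha, rfl⟩ _ ⟨b, hb, rfl⟩
    show q a * q b = q b * q a
    rw [← map_mul, ← map_mul]
    refine QuotientGroup.eq.2 (hΦ ?_)
    refine ⟨⁅(⟨b, hb⟩ : A)⁻¹, (⟨a, ha⟩ : A)⁻¹⁆,
      hAco (Subgroup.commutator_mem_commutator (Subgroup.mem_top _) (Subgroup.mem_top _)), ?_⟩
    simp [commutatorElement_def, mul_assoc]
  obtain ⟨n, hn⟩ := IsPGroup.iff_card.1 hAbp
  have hcop : (Nat.card Ab).Coprime (Nat.card X) := by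
    rw [hn]; exact hXc.symm.pow_left n
  have hne : ¬ X ≤ Subgroup.centralizer (Ab : Set (G ⧸ O)) := by
    intro h
    have h1 : Ab ≤ X := (Subgroup.le_centralizer_iff.1 h).trans hCX
    have h2 : Ab = ⊥ :=
      (inf_eq_left.2 h1).symm.trans (Subgroup.inf_eq_bot_of_coprime hcop)
    exact hnot fun a ha => (hq1 a).1 (Subgroup.mem_bot.1 (h2 ▸ Subgroup.mem_map_of_mem q ha))
  obtain ⟨B, hBA, hBidx, y, hyX, hyB, hyA⟩ := exists_index_prime_centralizer hcomm hpow
    (le_top.trans (Subgroup.normalizer_eq_top X).ge) hcop hne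
  -- minimal choice
  let S : Set G := {x | q x ∈ X ∧ q x ∈ Subgroup.centralizer (B : Set (G ⧸ O)) ∧
    q x ∉ Subgroup.centralizer (Ab : Set (G ⧸ O))}
  have hS : S.Nonempty := by
    obtain ⟨x, rfl⟩ := hqs y
    exact ⟨x, hyX, hyB, hyA⟩
  let cl : G → Subgroup G := fun x => A ⊔ A.map (MulAut.conj x).toMonoidHom
  obtain ⟨x₀, ⟨hx0X, hx0B, hx0A⟩, hmin⟩ :=
    Set.exists_min_image S (fun x => Nat.card (cl x)) (Set.toFinite _) hS
  -- the commutator
  obtain ⟨a, ha, hac⟩ : ∃ a ∈ A, q a * q x₀ ≠ q x₀ * q a := by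
    by_contra h
    push Not at h
    refine hx0A (Subgroup.mem_centralizer_iff.2 ?_)
    rintro _ ⟨a, ha, rfl⟩
    exact h a ha
  have hl0 : x₀ * a * x₀⁻¹ * a⁻¹ ∈ cl x₀ :=
    (cl x₀).mul_mem (Subgroup.mem_sup_right ⟨a, ha, rfl⟩) ((cl x₀).inv_mem (Subgroup.mem_sup_left ha))
  set l := x₀ * a * x₀⁻¹ * a⁻¹ with hl
  set c := q l with hc
  have hcval : c = q x₀ * q a * (q x₀)⁻¹ * (q a)⁻¹ := by simp [c, l]
  have hcX : c ∈ X := by
    rw [hcval, mul_assoc (q x₀ * q a), mul_assoc (q x₀), ← mul_assoc (q a)]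
    exact X.mul_mem hx0X (hXn.conj_mem _ (X.inv_mem hx0X) _)
  have haB : q a ∈ Subgroup.centralizer (B : Set (G ⧸ O)) :=
    Subgroup.mem_centralizer_iff.2 fun b hb => hcomm b (hBA hb) _ ⟨a, ha, rfl⟩
  have hcB : c ∈ Subgroup.centralizer (B : Set (G ⧸ O)) := by
    rw [hcval]
    exact mul_mem (mul_mem (mul_mem hx0B haB) (inv_mem hx0B)) (inv_mem haB)
  have hcord : (orderOf c).Coprime p := hXc.coprime_dvd_left (Subgroup.orderOf_dvd_natCard X hcX)
  have hca : ¬ Commute (q a) c := by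
    intro h
    have e1 : q x₀ * q a * (q x₀)⁻¹ = c * q a := by rw [hcval]; group
    have e2 : (q x₀ * q a * (q x₀)⁻¹) ^ p = 1 := by
      rw [conj_pow, hpow _ ⟨a, ha, rfl⟩, mul_one, mul_inv_cancel]
    rw [e1, h.symm.mul_pow, hpow _ ⟨a, ha, rfl⟩, mul_one] at e2
    have hc1 : c = 1 :=
      orderOf_eq_one_iff.1 (Nat.eq_one_of_dvd_coprimes hcord dvd_rfl (orderOf_dvd_of_pow_eq_one e2))
    rw [hcval, mul_inv_eq_one, mul_inv_eq_iff_eq_mul] at hc1
    exact hac hc1.symm
  obtain ⟨k, hk⟩ := H22.exists_pow_mem_pResidual (p := p) (⟨l, hl0⟩ : cl x₀)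
  set x := l ^ p ^ k with hx
  have hqx : q x = c ^ p ^ k := map_pow q l _
  have hczp : c ∈ Subgroup.zpowers (q x) := by
    rw [hqx]
    obtain ⟨e, he⟩ := exists_pow_eq_self_of_coprime (hcord.symm.pow_left k)
    have h := pow_mem (Subgroup.mem_zpowers (c ^ p ^ k)) e
    rwa [he] at h
  have hxX : q x ∈ X := hqx ▸ X.pow_mem hcX _
  have hxB : q x ∈ Subgroup.centralizer (B : Set (G ⧸ O)) := hqx ▸ Subgroup.pow_mem _ hcB _
  have hxA : q x ∉ Subgroup.centralizer (Ab : Set (G ⧸ O)) := fun h =>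
    hca (Subgroup.mem_centralizer_iff.1 (Subgroup.zpowers_le.2 h hczp) _ ⟨a, ha, rfl⟩)
  refine ⟨x, hxX, fun L hL => ?_⟩
  have hxR0 : x ∈ (Cfsg.pResidual p (cl x₀)).map (cl x₀).subtype := ⟨_, hk, by simp [x]⟩
  have hxcl : x ∈ cl x₀ := Subgroup.map_subtype_le _ hxR0
  have hle : cl x ≤ cl x₀ := by
    refine sup_le le_sup_left ?_
    rintro _ ⟨b, hb, rfl⟩
    exact (cl x₀).mul_mem ((cl x₀).mul_mem hxcl (Subgroup.mem_sup_left hb)) ((cl x₀).inv_mem hxcl)
  have hEq : L = cl x₀ :=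
    hL.trans (Subgroup.eq_of_le_of_card_ge hle (hmin x ⟨hxX, hxB, hxA⟩))
  have hxR : x ∈ (Cfsg.pResidual p L).map L.subtype := hEq ▸ hxR0
  set R := (Cfsg.pResidual p L).map L.subtype with hR
  have hAL : A ≤ L := hL ▸ le_sup_left
  have hxL : x ∈ L := Subgroup.map_subtype_le _ hxR
  have hRL : R ≤ L := Subgroup.map_subtype_le _
  have hLR : L ≤ Subgroup.normalizer (R : Set G) :=
    Subgroup.le_normalizer.trans (normalizer_le_map_char L _ H22.pResidual_characteristic)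
  refine ⟨hxR, ?_, ?_, ?_⟩
  · -- inside the preimage of X
    refine map_pResidual_subtype_le fun g hg hgc => ?_
    show q g ∈ X
    refine mem_of_coprime_mem_sup hAbp (le_top.trans (Subgroup.normalizer_eq_top X).ge) ?_
      (hgc.coprime_dvd_left (orderOf_map_dvd q g))
    suffices L ≤ (X ⊔ Ab).comap q from this hg
    rw [hL]
    refine sup_le (fun b hb => Subgroup.mem_sup_right ⟨b, hb, rfl⟩) ?_
    rintro _ ⟨b, hb, rfl⟩
    show q (x * b * x⁻¹) ∈ X ⊔ Ab
    rw [map_mul, map_mul, map_inv]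
    exact mul_mem (mul_mem (Subgroup.mem_sup_left hxX) (Subgroup.mem_sup_right ⟨b, hb, rfl⟩))
      (inv_mem (Subgroup.mem_sup_left hxX))
  · -- [R, A] = R
    refine le_antisymm (H20.commutator_le_of_le_normalizer (hAL.trans hLR))
      (map_pResidual_subtype_le fun g hg hgc => ?_)
    have hKA : A ≤ Subgroup.normalizer ((⁅R, A⁆ : Subgroup G) : Set G) :=
      Subgroup.normalizer_commutator_ge_right R A
    refine mem_of_coprime_mem_sup hA hKA ?_ hgc
    suffices L ≤ ⁅R, A⁆ ⊔ A from this hg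
    refine hL.le.trans (sup_le le_sup_right ?_)
    rintro _ ⟨b, hb, rfl⟩
    show x * b * x⁻¹ ∈ ⁅R, A⁆ ⊔ A
    rw [show x * b * x⁻¹ = ⁅x, b⁆ * b by rw [commutatorElement_def]; group]
    exact Subgroup.mul_mem_sup (Subgroup.commutator_mem_commutator hxR hb) hb
  · -- A ∩ O_p(L)
    set P := (Cfsg.pCore p L).map L.subtype with hP
    have hPp : IsPGroup p P := (H19.pCore_isPGroup p).map _
    have hLB : ∀ g ∈ L, q g ∈ Subgroup.centralizer (B : Set (G ⧸ O)) := by
      suffices L ≤ (Subgroup.centralizer (B : Set (G ⧸ O))).comap q from fun g hg => this hg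
      have hAB : ∀ b ∈ A, q b ∈ Subgroup.centralizer (B : Set (G ⧸ O)) := fun b hb =>
        Subgroup.mem_centralizer_iff.2 fun u hu => hcomm u (hBA hu) _ ⟨b, hb, rfl⟩
      rw [hL]
      refine sup_le hAB ?_
      rintro _ ⟨b, hb, rfl⟩
      show q (x * b * x⁻¹) ∈ Subgroup.centralizer (B : Set (G ⧸ O))
      rw [map_mul, map_mul, map_inv]
      exact mul_mem (mul_mem hxB (hAB b hb)) (inv_mem hxB)
    have hN : L ⊓ B.comap q ≤ P := by
      have hNp : IsPGroup p (L ⊓ B.comap q : Subgroup G) :=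
        ((hAbp.to_le hBA).comap_of_ker_isPGroup q (by rw [QuotientGroup.ker_mk']; exact hOp)).to_le
          inf_le_right
      have hNn : L ≤ Subgroup.normalizer ((L ⊓ B.comap q : Subgroup G) : Set G) := by
        refine Subgroup.le_normalizer_iff.2 fun g hg n hn => ⟨L.mul_mem (L.mul_mem hg hn.1) (L.inv_mem hg), ?_⟩
        show q (g * n * g⁻¹) ∈ B
        rw [map_mul, map_mul, map_inv, ← Subgroup.mem_centralizer_iff.1 (hLB g hg) _ hn.2,
          mul_inv_cancel_right]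
        exact hn.2
      haveI : ((L ⊓ B.comap q).subgroupOf L).Normal :=
        (Subgroup.normal_subgroupOf_iff_le_normalizer inf_le_left).2 hNn
      rw [← Subgroup.map_subgroupOf_eq_of_le (inf_le_left : L ⊓ B.comap q ≤ L)]
      exact Subgroup.map_mono (H19.le_pCore this
        (hNp.comap_of_injective L.subtype L.subtype_injective))
    set A' := A ⊓ B.comap q with hA'
    have h1 : A' ≤ A ⊓ P := le_inf inf_le_left ((inf_le_inf_right _ hAL).trans hN)
    have h2 : A'.relIndex A = p := by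
      rw [hA', Subgroup.inf_relIndex_left, Subgroup.relIndex_comap]
      exact hBidx
    have h3 : ¬ A ≤ P := by
      intro h
      have hPn : L ≤ Subgroup.normalizer (P : Set G) :=
        Subgroup.le_normalizer.trans (normalizer_le_map_char L _ (H19.pCore_characteristic p L))
      have hLP : L ≤ P := by
        refine hL.le.trans (sup_le h ?_)
        rintro _ ⟨b, hb, rfl⟩
        exact Subgroup.le_normalizer_iff.1 hPn x hxL b (h hb)
      have hR1 : R = ⊥ := by
        rw [hR, H22.pResidual_eq_bot_of_isPGroup (hPp.to_le hLP), Subgroup.map_bot]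
      refine hxA ?_
      have hx1 : x = 1 := Subgroup.mem_bot.1 (hR1 ▸ hxR)
      rw [hx1, map_one]
      exact Subgroup.one_mem _
    have h4 : (A ⊓ P).relIndex A = p := by
      rcases (Nat.dvd_prime hp.out).1 (h2 ▸ Subgroup.relIndex_dvd_of_le_left A h1) with h | h
      · exact absurd ((Subgroup.relIndex_eq_one.1 h).trans inf_le_right) h3
      · exact h
    refine ⟨h4, ?_⟩
    have h5 : A ⊓ P ≤ A' := by
      refine Subgroup.relIndex_eq_one.1 ((Nat.mul_eq_right hp.out.ne_zero).1 ?_)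
      have := Subgroup.relIndex_mul_relIndex _ _ _ h1 (inf_le_left : A ⊓ P ≤ A)
      rw [h4, h2] at this
      exact this
    refine Subgroup.commutator_le.2 fun b hb g hg => ?_
    rw [← hq1, map_commutatorElement, commutatorElement_eq_one_iff_commute]
    exact Subgroup.mem_centralizer_iff.1 (hLB g hg) _ (h5 hb).2

end Cfsg.Agent.H83
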